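/-
P31: element orders 1..6 (S4007).  Interface, see plans/P31.md.
-/
import Cfsg.Agent.P29.Defs

set_option autoImplicit false
set_option linter.unusedSectionVars false
set_option linter.style.haveILetI false

namespace Cfsg.Agent.P31

open Subgroup Cfsg Cfsg.Agent Cfsg.Agent.FT Cfsg.Agent.P6
open scoped commutatorElement

universe u

def Or6 (G : Type u) [Group G] : Prop := ∀ g : G, orderOf g ≤ 6

abbrev A5 : Type := alternatingGroup (Fin 5)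
abbrev A6 : Type := alternatingGroup (Fin 6)

def A56 (X : Type u) [Group X] : Prop := Nonempty (X ≃* A5) ∨ Nonempty (X ≃* A6)

/-- The induction hypothesis. -/
def KI (n : ℕ) : Prop := ∀ (X : Type u) [Group X] [Finite X], Nat.card X < n → Or6 X →
  IsSimpleGroup X → ¬ IsMulCommutative X → A56 X

def SimStmt : Prop := ∀ (X : Type u) [Group X] [Finite X], Or6 X →
  IsSimpleGroup X → ¬ IsMulCommutative X → A56 X

section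
variable {G : Type u} [Group G]

def El (D : Subgroup G) : Prop := ∀ d ∈ D, d * d = 1

/-- `O₂(N)` -/
noncomputable abbrev O2 (N : Subgroup G) : Subgroup G := pCoreOf 2 N

/-- `L/D ≅ A₅` -/
def QA5 (L D : Subgroup G) : Prop :=
  ∃ f : L →* A5, Function.Surjective f ∧ ∀ x : L, f x = 1 ↔ (x : G) ∈ D

def ShA (N : Subgroup G) : Prop :=
  ∃ R : Subgroup G, O2 N ≤ R ∧ R ≤ N ∧ N ≤ 𝐍(R) ∧ (∀ r ∈ R, r ^ 3 ∈ O2 N) ∧ ∀ h ∈ N, h * h ∈ R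
def ShB (N : Subgroup G) : Prop := (O2 N).relIndex N = 5 ∨ ((O2 N).relIndex N = 10 ∧ El (O2 N))
def ShC (N : Subgroup G) : Prop := QA5 N (O2 N) ∧ El (O2 N)

/-- Weak type: `⟨T, y⟩/D` dihedral of order `2p`, `y` acts nontrivially on `D`. -/
structure Ty (p : ℕ) (T D : Subgroup G) (y : G) : Prop where
  two : IsPGroup 2 T
  le : D ≤ T
  idx : D.relIndex T = 2
  ord : orderOf y = p
  nrm : y ∈ 𝐍(D)
  inv : ∀ u ∈ T, u ∉ D → u * y * u⁻¹ * y ∈ D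
  ncen : ¬ D ≤ 𝐂[y]

/-- `A₅`-type. -/
structure TyA (T D L : Subgroup G) : Prop where
  two : IsPGroup 2 T
  le : D ≤ T
  idx : D.relIndex T = 4
  leL : T ≤ L
  nrm : L ≤ 𝐍(D)
  iso : QA5 L D
  el : El D

/-- `X = [D, y]` -/
abbrev XX (D : Subgroup G) (y : G) : Subgroup G := ⁅D, zpowers y⁆

/-- No nontrivial subgroup of `T` is normalized by `T`, `y₁`, `y₂`. -/
def NoN (T : Subgroup G) (y1 y2 : G) : Prop :=
  ∀ N : Subgroup G, N ≤ T → T ≤ 𝐍(N) → y1 ∈ 𝐍(N) → y2 ∈ 𝐍(N) → N = ⊥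

/-- `y` centralizes `Ω₁ Z(T)`. -/
def Cen (T : Subgroup G) (y : G) : Prop := ∀ z ∈ T, z * z = 1 → z ∈ 𝐂(T) → z * y = y * z

/-- A relation `R g d` ("conjugation of `d` by `g` is good") closed under composition in `T`. -/
structure Grp (T : Subgroup G) (R : G → G → Prop) : Prop where
  one : ∀ g, R g 1
  mul : ∀ g h d, d ∈ T → g * d * g⁻¹ ∈ T → h * (g * d * g⁻¹) * h⁻¹ ∈ T →
    R g d → R h (g * d * g⁻¹) → R (h * g) d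
  inv : ∀ g d, d ∈ T → g * d * g⁻¹ ∈ T → R g d → R g⁻¹ (g * d * g⁻¹)
end

/-- Characteristic 2 type. -/
def Ch2 (G : Type u) [Group G] : Prop :=
  ∀ D : Subgroup G, D ≠ ⊥ → IsPGroup 2 D → 𝐂(O2 𝐍(D)) ≤ O2 𝐍(D)

/-- All 2-locals have characteristic 2 and one of the three shapes. -/
structure Cx (G : Type u) [Group G] : Prop where
  or6 : Or6 G
  ch2 : Ch2 G
  sh : ∀ D : Subgroup G, D ≠ ⊥ → IsPGroup 2 D → ShA 𝐍(D) ∨ ShB 𝐍(D) ∨ ShC 𝐍(D)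

/-! ### shapes -/

/-- No element of order 4 in `N/O₂(N)`. -/
def No4Stmt : Prop := ∀ (G : Type u) [Group G] [Finite G], Or6 G → ∀ N : Subgroup G,
  KI.{u} 𝐨(N) → O2 N ≠ ⊥ → N ⊓ 𝐂(O2 N) ≤ O2 N → ∀ s ∈ N, s ^ 4 ∈ O2 N → s ^ 2 ∈ O2 N

/-- The dihedral lemma. -/
def D10Stmt : Prop := ∀ (G : Type u) [Group G] [Finite G], Or6 G → ∀ (T D : Subgroup G) (y : G),
  Ty 5 T D y → El D

def SHStmt : Prop := ∀ (G : Type u) [Group G] [Finite G], Or6 G → ∀ N : Subgroup G,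
  KI.{u} 𝐨(N) → O2 N ≠ ⊥ → N ⊓ 𝐂(O2 N) ≤ O2 N → ShA N ∨ ShB N ∨ ShC N

/-- free action -/
def FR5Stmt : Prop := ∀ (G : Type u) [Group G] [Finite G], Or6 G → ∀ (T D : Subgroup G) (y : G),
  Ty 5 T D y → El D → (∃ k, 0 < k ∧ 𝐨(D) = 16 ^ k) ∧ ∀ t ∈ T, t ∉ D → 𝐨(D ⊓ 𝐂[t]) ^ 2 = 𝐨(D)
def FRAStmt : Prop := ∀ (G : Type u) [Group G] [Finite G], Or6 G → ∀ (T D L : Subgroup G),
  TyA T D L → D ≠ ⊥ → (∃ k, 0 < k ∧ 𝐨(D) = 16 ^ k) ∧ ∀ t ∈ T, t ∉ D → 𝐨(D ⊓ 𝐂[t]) ^ 2 = 𝐨(D)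

def XSStmt : Prop := ∀ (G : Type u) [Group G] [Finite G], Cx G → ∀ (T D N : Subgroup G) (y : G),
  Ty 3 T D y → N ≠ ⊥ → IsPGroup 2 N → T ≤ 𝐍(N) → y ∈ 𝐍(N) →
    XX D y ≤ O2 𝐍(N) ∧ T ⊓ O2 𝐍(N) ≤ D ∧
    (∀ w ∈ 𝐍(N), w ∈ 𝐍(T) → Odd (orderOf w) → XX T w ≤ O2 𝐍(N))
def ABStmt : Prop := ∀ (G : Type u) [Group G] [Finite G], Cx G → ∀ (N S : Subgroup G),
  N ≠ ⊥ → IsPGroup 2 N → IsPGroup 2 S → S ≤ 𝐍(N) → ∀ a ∈ S, ∀ b ∈ S, ⁅a, b⁆ ∈ O2 𝐍(N)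
def GenStmt : Prop := ∀ (G : Type u) [Group G] [Finite G], Cx G → ∀ (D T M : Subgroup G),
  D ≠ ⊥ → IsPGroup 2 D → IsSyl 2 T 𝐍(D) → 𝐍(D) ⊓ 𝐍(T) ≤ M →
  (∀ E y, O2 𝐍(D) ≤ E → y ∈ 𝐍(D) → Ty 3 T E y → y ∈ M) →
  (∀ y, y ∈ 𝐍(D) → Ty 5 T (O2 𝐍(D)) y → El (O2 𝐍(D)) → y ∈ M) →
  (TyA T (O2 𝐍(D)) 𝐍(D) → 𝐍(D) ≤ M) → 𝐍(D) ≤ M

/-! ### amalgams -/

def GACStmt : Prop := ∀ (G : Type u) [Group G] [Finite G], Or6 G →
  ∀ (T D1 D2 : Subgroup G) (y1 y2 : G), Ty 3 T D1 y1 → Ty 3 T D2 y2 → NoN T y1 y2 →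
  y1 ∉ 𝐍(D1 ⊓ D2) → y2 ∉ 𝐍(D1 ⊓ D2) → Cen T y2 → False
def GANStmt : Prop := ∀ (G : Type u) [Group G] [Finite G], Or6 G →
  ∀ (T D1 D2 : Subgroup G) (y1 y2 : G), Ty 3 T D1 y1 → Ty 3 T D2 y2 → NoN T y1 y2 →
  y1 ∉ 𝐍(D1 ⊓ D2) → y2 ∉ 𝐍(D1 ⊓ D2) → ¬ Cen T y1 → ¬ Cen T y2 → El D1 ∧ El D2
def GAStmt : Prop := ∀ (G : Type u) [Group G] [Finite G], Cx G →
  ∀ (T D1 D2 : Subgroup G) (y1 y2 : G), Ty 3 T D1 y1 → Ty 3 T D2 y2 → NoN T y1 y2 →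
  El D1 ∧ El D2

/-- pushing up -/
def PUStmt : Prop := ∀ (G : Type u) [Group G] [Finite G], Cx G →
  ∀ (T D : Subgroup G) (s : G), IsSyl 2 T 𝐍(D) → s ∈ 𝐍(T) → s ∉ T → s * s ∈ T →
  ((∃ y, Ty 3 T D y) ∨ (∃ y, Ty 5 T D y ∧ El D) ∨ (∃ L, TyA T D L ∧ D ≠ ⊥)) → False

/-- fusion -/
def DAStmt : Prop := ∀ (G : Type u) [Group G] [Finite G], Cx G →
  ∀ (T : Subgroup G) (R : G → G → Prop), IsSyl 2 T ⊤ → Grp T R →
  (∀ n ∈ 𝐍(T), ∀ d ∈ T, R n d) →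
  (∀ D y, Ty 3 T D y → 𝐂(D) ≤ D → ∀ d ∈ D, R y d) →
  (∀ D y, Ty 5 T D y → El D → 𝐂(D) ≤ D → ∀ d ∈ D, R y d) →
  (∀ D L, TyA T D L → 𝐂(D) ≤ D → ∀ n ∈ L, ∀ d ∈ D, R n d) →
  ∀ g d, d ∈ T → g * d * g⁻¹ ∈ T → R g d

/-- (ii) -/
def IIStmt : Prop := ∀ (G : Type u) [Group G] [Finite G], Cx G →
  ∀ (T M : Subgroup G), IsSyl 2 T ⊤ → M ≠ ⊤ → 𝐍(T) ≤ M →
  (∀ D y, Ty 3 T D y → 𝐂(D) ≤ D → y ∈ M) →
  (∀ D y, Ty 5 T D y → El D → 𝐂(D) ≤ D → y ∈ M) →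
  (∀ D L, TyA T D L → 𝐂(D) ≤ D → L ≤ M) → P29.HasSE G
/-- (iii) -/
def IIIStmt : Prop := ∀ (G : Type u) [Group G] [Finite G], Cx G → IsSimpleGroup G →
  ¬ IsMulCommutative G → ∀ (T T0 : Subgroup G), IsSyl 2 T ⊤ → T0 ≤ T → T0.relIndex T = 2 →
  (∀ w ∈ 𝐍(T), Odd (orderOf w) → XX T w ≤ T0) →
  (∀ D y, Ty 3 T D y → 𝐂(D) ≤ D → XX D y ≤ T0) →
  (∀ D y, Ty 5 T D y → El D → 𝐂(D) ≤ D → False) →
  (∀ D L, TyA T D L → 𝐂(D) ≤ D → False) → False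

/-- An elementary core excludes types of order 3. -/
def A3Stmt : Prop := ∀ (G : Type u) [Group G] [Finite G], Cx G →
  ∀ (T Q D : Subgroup G) (y : G), IsSyl 2 T ⊤ → 𝐂(Q) ≤ Q →
  ((∃ x, Ty 5 T Q x ∧ El Q) ∨ (∃ L, TyA T Q L)) → Ty 3 T D y → 𝐂(D) ≤ D → False
/-- Case A. -/
def CaseAStmt : Prop := ∀ (G : Type u) [Group G] [Finite G], Cx G → IsSimpleGroup G →
  ¬ IsMulCommutative G → ∀ (T Q : Subgroup G), IsSyl 2 T ⊤ → 𝐂(Q) ≤ Q →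
  ((∃ x, Ty 5 T Q x ∧ El Q) ∨ (∃ L, TyA T Q L)) → P29.HasSE G
/-- Case B. -/
def CaseBStmt : Prop := ∀ (G : Type u) [Group G] [Finite G], Cx G → IsSimpleGroup G →
  ¬ IsMulCommutative G → P29.E8 (⊤ : Subgroup G) → ∀ (T : Subgroup G), IsSyl 2 T ⊤ →
  (∀ D y, Ty 5 T D y → El D → 𝐂(D) ≤ D → False) →
  (∀ D L, TyA T D L → 𝐂(D) ≤ D → False) → P29.HasSE G

/-! ### global chapters -/

def SEStmt : Prop := ∀ (G : Type u) [Group G] [Finite G], Or6 G → KI.{u} (Nat.card G) →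
  IsSimpleGroup G → ¬ IsMulCommutative G → P29.E8 (⊤ : Subgroup G) → P29.HasSE G → False
/-- signalizer functor -/
def SGStmt : Prop := ∀ (G : Type u) [Group G] [Finite G], Or6 G → KI.{u} (Nat.card G) →
  IsSimpleGroup G → ¬ IsMulCommutative G → P29.E8 (⊤ : Subgroup G) →
  P29.HasSE G ∨ ∀ t : G, Inv t → Od 𝐂[t] = ⊥
def C2Stmt : Prop := ∀ (G : Type u) [Group G] [Finite G], Or6 G → KI.{u} (Nat.card G) →
  IsSimpleGroup G → ¬ IsMulCommutative G → (∀ t : G, Inv t → Od 𝐂[t] = ⊥) → Ch2 G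
/-- rank at most 2 -/
def R2Stmt : Prop := ∀ (G : Type u) [Group G] [Finite G], Or6 G → KI.{u} (Nat.card G) →
  IsSimpleGroup G → ¬ IsMulCommutative G → ¬ P29.E8 (⊤ : Subgroup G) →
  ¬ 8 ∣ Nat.card G ∨ P29.Dih G
def SmStmt : Prop := ∀ (G : Type u) [Group G] [Finite G], Or6 G →
  IsSimpleGroup G → ¬ IsMulCommutative G → (¬ 8 ∣ Nat.card G ∨ P29.Dih G) → A56 G
def L9Stmt : Prop := ∀ (F : Type) [Field F] [Fintype F], Fintype.card F = 9 →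
  Nonempty (Matrix.ProjectiveSpecialLinearGroup (Fin 2) F ≃* A6)

/-- A four-group with automizer `S₃` whose centralizer has rank 2 is Sylow in its centralizer. -/
def F3Stmt : Prop := ∀ (G : Type u) [Group G] [Finite G], Or6 G → ∀ t z a b : G, Inv t → Inv z →
  t ≠ z → t * z = z * t → a * t * a⁻¹ = t → a * z * a⁻¹ = t * z → b * z * b⁻¹ = z →
  b * t * b⁻¹ = t * z → ¬ P29.E8 (𝐂[t] ⊓ 𝐂[z]) →
  ∀ g ∈ 𝐂[t] ⊓ 𝐂[z], g ^ 4 = 1 → g = 1 ∨ g = t ∨ g = z ∨ g = t * z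
def Aut5Stmt : Prop := ∀ (G : Type u) [Group G] [Finite G] (S : Subgroup G), S.Normal →
  Nonempty (S ≃* A5) → 𝐂(S) = ⊥ → S ≠ ⊤ → Nonempty (G ≃* Equiv.Perm (Fin 5))
def Aut6Stmt : Prop := ∀ (G : Type u) [Group G] [Finite G], Or6 G → ∀ S : Subgroup G, S.Normal →
  Nonempty (S ≃* A6) → 𝐂(S) = ⊥ → S ≠ ⊤ → Nonempty (G ≃* Equiv.Perm (Fin 6))

variable {G : Type u} [Group G] [Finite G]

theorem Or6.of_injective {H : Type*} [Group H] (h : Or6 G) (f : H →* G)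
    (hf : Function.Injective f) : ∀ x : H, orderOf x ≤ 6 := fun x => by
  rw [← orderOf_injective f hf]; exact h _

theorem Or6.of_surjective {H : Type*} [Group H] (h : Or6 G) (f : G →* H)
    (hf : Function.Surjective f) : ∀ x : H, orderOf x ≤ 6 := fun x => by
  obtain ⟨g, rfl⟩ := hf x
  exact (Nat.le_of_dvd (orderOf_pos g) (orderOf_map_dvd f g)).trans (h g)

theorem KI.mono {m n : ℕ} (h : KI.{u} n) (e : m ≤ n) : KI.{u} m :=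
  fun X _ _ hX => h X (hX.trans_le e)

theorem Or6.dvd (h : Or6 G) {g : G} {n : ℕ} (e : g ^ n = 1) :
    g ^ (Nat.gcd n 60) = 1 := by
  have h1 := h g
  have h2 := orderOf_pos g
  refine orderOf_dvd_iff_pow_eq_one.1 (Nat.dvd_gcd (orderOf_dvd_of_pow_eq_one e) ?_)
  interval_cases orderOf g <;> norm_num

theorem Or6.no8 (h : Or6 G) {g : G} (e : g ^ 8 = 1) : g ^ 4 = 1 := h.dvd e

theorem Or6.pow4 (h : Or6 G) {T : Subgroup G} (hT : IsPGroup 2 T) {g : G} (hg : g ∈ T) :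
    g ^ 4 = 1 := by
  obtain ⟨k, hk⟩ := hT ⟨g, hg⟩
  have e : g ^ 2 ^ k = 1 := by simpa using congrArg Subtype.val hk
  haveI : Fact (Nat.Prime 2) := ⟨Nat.prime_two⟩
  obtain ⟨j, -, hj⟩ := (Nat.dvd_prime_pow Nat.prime_two).1 (orderOf_dvd_of_pow_eq_one e)
  have h1 := h g
  rw [hj] at h1
  have : j ≤ 2 := by
    by_contra c
    have : 2 ^ 3 ≤ 2 ^ j := Nat.pow_le_pow_right (by norm_num) (by omega)
    omega
  refine orderOf_dvd_iff_pow_eq_one.1 ?_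
  rw [hj]
  exact (by norm_num : (2 : ℕ) ^ 2 = 4) ▸ pow_dvd_pow 2 this

/-- Commuting elements of coprime orders with product above 6 do not exist. -/
theorem Or6.mul_le (h : Or6 G) {a b : G} (c : Commute a b)
    (co : (orderOf a).Coprime (orderOf b)) : orderOf a * orderOf b ≤ 6 := by
  rw [← c.orderOf_mul_eq_mul_orderOf_of_coprime co]; exact h _

/-- The assembly of the simple case. -/
theorem simStmt (sh : SHStmt.{u}) (a : CaseAStmt.{u}) (b : CaseBStmt.{u}) (se : SEStmt.{u})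
    (sg : SGStmt.{u}) (c2 : C2Stmt.{u}) (r2 : R2Stmt.{u}) (sm : SmStmt.{u}) : SimStmt.{u} := by
  have key : ∀ n, KI.{u} n := by
    intro n
    induction n with
    | zero => intro X _ _ h; omega
    | succ n ih =>
      intro X _ _ hn h6 hs hc
      have ki : KI.{u} (Nat.card X) := ih.mono (by omega)
      by_cases e8 : P29.E8 (⊤ : Subgroup X)
      · exfalso
        refine se X h6 ki hs hc e8 ?_
        rcases sg X h6 ki hs hc e8 with h | h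
        · exact h
        have ch := c2 X h6 ki hs hc h
        have cx : Cx X := ⟨h6, ch, fun D h1 h2 => sh X h6 _
          (ki.mono (Nat.card_le_card_of_injective _ Subtype.val_injective))
          (fun e => h1 (le_bot_iff.1 (e ▸ le_pCoreOf ⟨le_normalizer, le_rfl⟩ h2)))
          (inf_le_right.trans (ch D h1 h2))⟩
        haveI : Fact (Nat.Prime 2) := ⟨Nat.prime_two⟩
        obtain ⟨T, hT⟩ := exists_isSyl Nat.prime_two (⊤ : Subgroup X)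
        by_cases h5 : ∃ D y, Ty 5 T D y ∧ El D ∧ 𝐂(D) ≤ D
        · obtain ⟨D, y, h1, h2, h3⟩ := h5
          exact a X cx hs hc T D hT h3 (Or.inl ⟨y, h1, h2⟩)
        by_cases hA : ∃ D L, TyA T D L ∧ 𝐂(D) ≤ D
        · obtain ⟨D, L, h1, h3⟩ := hA
          exact a X cx hs hc T D hT h3 (Or.inr ⟨L, h1⟩)
        exact b X cx hs hc e8 T hT (fun D y h1 h2 h3 => h5 ⟨D, y, h1, h2, h3⟩)
          (fun D L h1 h3 => hA ⟨D, L, h1, h3⟩)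
      · exact sm X h6 hs hc (r2 X h6 ki hs hc e8)
  intro X _ _
  exact key _ X (Nat.lt_succ_self _)

end Cfsg.Agent.P31
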