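/-
P31: facts about `A₅`.
-/
import Cfsg.Agent.P31.Defs

set_option autoImplicit false

namespace Cfsg.Agent.P31.A5f

theorem no6 : ∀ a : A5, a * a = 1 → a ≠ 1 → ∀ b : A5, b * b * b = 1 → a * b = b * a → b = 1 := by
  decide +kernel

theorem exw : ∀ a : A5, a * a = 1 → a ≠ 1 → ∃ w : A5, w * w * w = 1 ∧ w ≠ 1 ∧
    ∀ b : A5, a * b = b * a → a * (w * b * w⁻¹) = w * b * w⁻¹ * a := by
  decide +kernel

theorem exs : ∀ a : A5, a * a = 1 → a ≠ 1 → ∀ w : A5, w * w * w = 1 → w ≠ 1 →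
    a * (w * a * w⁻¹) = w * a * w⁻¹ * a →
    ∃ s : A5, s * w * s⁻¹ = w⁻¹ ∧ (a * (s⁻¹ * a * s)) ^ 5 = 1 ∧ a * (s⁻¹ * a * s) ≠ 1 := by
  set_option synthInstance.maxSize 1000 in
  decide +kernel

theorem nrm3 : ∀ a : A5, a * a = 1 → a ≠ 1 → ∀ w : A5, w * w * w = 1 → w ≠ 1 →
    a * (w * a * w⁻¹) = w * a * w⁻¹ * a → a * (w * a * w⁻¹) * (w⁻¹ * a * w) = 1 := by
  set_option synthInstance.maxSize 1000 in
  decide +kernel

theorem sq4 : ∀ a : A5, a ^ 4 = 1 → a * a = 1 := by decide +kernel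

theorem ex5 : ∃ a : A5, a ^ 5 = 1 ∧ a ≠ 1 := by decide +kernel

/-- The centralizer of an involution has order 4. -/
theorem cen4 : ∀ a : A5, a * a = 1 → a ≠ 1 → ∀ b : A5, a * b = b * a → b ≠ 1 → b ≠ a →
    ∀ c : A5, a * c = c * a → c = 1 ∨ c = a ∨ c = b ∨ c = a * b := by
  decide +kernel

end Cfsg.Agent.P31.A5f
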