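/-
P31: basic lemmas on index 2, types.
-/
import Cfsg.Agent.P31.Defs

set_option autoImplicit false
set_option linter.unusedSectionVars false
set_option linter.style.haveILetI false

namespace Cfsg.Agent.P31

open Subgroup Cfsg Cfsg.Agent Cfsg.Agent.FT Cfsg.Agent.P6
open scoped commutatorElement

universe u
variable {G : Type u} [Group G] [Finite G]

namespace B1

theorem two_iff {D T : Subgroup G} (h : D.relIndex T = 2) {a b : G} (ha : a ∈ T) (hb : b ∈ T) :
    a * b ∈ D ↔ (a ∈ D ↔ b ∈ D) :=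
  mul_mem_iff_of_index_two (H := D.subgroupOf T) h (a := ⟨a, ha⟩) (b := ⟨b, hb⟩)

theorem two_mul {D T : Subgroup G} (h : D.relIndex T = 2) {a b : G} (ha : a ∈ T) (hb : b ∈ T)
    (a' : a ∉ D) (b' : b ∉ D) : a * b ∈ D := (two_iff h ha hb).2 (by tauto)

theorem two_ex {D T : Subgroup G} (h : D.relIndex T = 2) : ∃ u ∈ T, u ∉ D := by
  by_contra c
  push Not at c
  rw [relIndex_eq_one.2 c] at h
  omega

theorem two_conj {D T : Subgroup G} (h : D.relIndex T = 2) {a b : G} (ha : a ∈ T) (hb : b ∈ T) :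
    a * b * a⁻¹ ∈ D ↔ b ∈ D := by
  rw [two_iff h (mul_mem ha hb) (inv_mem ha), two_iff h ha hb, inv_mem_iff]; tauto

theorem two_norm {D T : Subgroup G} (h : D.relIndex T = 2) (le : D ≤ T) : T ≤ 𝐍(D) := fun t ht =>
  mem_norm_of_conj_le fun x hx => by
    obtain ⟨d, hd, rfl⟩ := mem_conj'.1 hx
    exact (two_conj h ht (le hd)).2 hd

theorem two_card {D T : Subgroup G} (h : D.relIndex T = 2) (le : D ≤ T) : 𝐨(D) * 2 = 𝐨(T) := by
  rw [← h]; exact H1.card_mul_relIndex le

theorem two_of_card {D T : Subgroup G} (le : D ≤ T) (h : 𝐨(D) * 2 = 𝐨(T)) : D.relIndex T = 2 := by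
  have := H1.card_mul_relIndex le
  exact Nat.eq_of_mul_eq_mul_left Nat.card_pos (this.trans h.symm)

/-- `Q ⊓ D` has index 2 in `Q` if `Q ≰ D`. -/
theorem two_inf {D T Q : Subgroup G} (h : D.relIndex T = 2) (le : Q ≤ T) (n : ¬ Q ≤ D) :
    (Q ⊓ D).relIndex Q = 2 := by
  rw [inf_relIndex_left]
  have h1 : D.relIndex Q ≤ 2 := h ▸ relIndex_le_of_le_right le (by omega)
  have h2 : D.relIndex Q ≠ 0 := FiniteIndex.index_ne_zero
  have h3 : D.relIndex Q ≠ 1 := fun e => n (relIndex_eq_one.1 e)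
  omega

theorem conj_pow {y d c : G} (h : y * d * y⁻¹ = c * d) (hc : c * y = y * c) (n : ℕ) :
    y ^ n * d * (y ^ n)⁻¹ = c ^ n * d := by
  induction n with
  | zero => simp
  | succ n ih =>
    have e : y * c ^ n = c ^ n * y := ((show Commute c y from hc).pow_left n).eq.symm
    calc y ^ (n + 1) * d * (y ^ (n + 1))⁻¹ = y * (y ^ n * d * (y ^ n)⁻¹) * y⁻¹ := by group
      _ = (y * c ^ n) * d * y⁻¹ := by rw [ih]; group
      _ = c ^ n * (y * d * y⁻¹) := by rw [e]; group
      _ = c ^ (n + 1) * d := by rw [h]; group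

/-- coprime action, elementwise -/
theorem fix_of_odd {P : Subgroup G} (hP : IsPGroup 2 P) {y d c : G} (ho : Odd (orderOf y))
    (h : y * d * y⁻¹ = c * d) (hc : c * y = y * c) (cP : c ∈ P) : y * d = d * y := by
  have h1 := conj_pow h hc (orderOf y)
  rw [pow_orderOf_eq_one, one_mul, inv_one, mul_one] at h1
  have h2 : c ^ orderOf y = 1 := by simpa using h1.symm
  have : c = 1 := P4.eq_one_of_odd_of_mem hP (ho.of_dvd_nat (orderOf_dvd_of_pow_eq_one h2)) cP
  rw [this, one_mul] at h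
  exact mul_inv_eq_iff_eq_mul.1 h

theorem comm_of_el {D : Subgroup G} (h : El D) {a b : G} (ha : a ∈ D) (hb : b ∈ D) :
    a * b = b * a := by
  have h1 := h a ha
  have h2 := h b hb
  have h3 := h _ (mul_mem ha hb)
  calc a * b = a * (a * b * (a * b)) * b := by rw [h3, mul_one]
    _ = (a * a) * (b * a) * (b * b) := by group
    _ = b * a := by rw [h1, h2]; group

theorem le_cent_of_el {D : Subgroup G} (h : El D) : D ≤ 𝐂(D) := fun _ ha =>
  mem_cent.2 fun _ hb => comm_of_el h hb ha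

theorem two_of_el {D : Subgroup G} (h : El D) : IsPGroup 2 D := fun x =>
  ⟨1, Subtype.ext (by simpa [pow_two] using h x x.2)⟩

theorem el_conj {D : Subgroup G} (h : El D) (g : G) : El (D ^ᵍ g) := fun x hx => by
  obtain ⟨d, hd, rfl⟩ := mem_conj'.1 hx
  exact P4.conj_sq (h d hd) g

theorem El.mono {D E : Subgroup G} (h : El D) (le : E ≤ D) : El E := fun x hx => h x (le hx)

theorem cube {y : G} (h : orderOf y = 3) : y * y * y = 1 := by
  have := pow_orderOf_eq_one y
  rwa [h, pow_succ, pow_two] at this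

theorem ord3 {y : G} (h : y * y * y = 1) (n : y ≠ 1) : orderOf y = 3 :=
  haveI : Fact (Nat.Prime 3) := ⟨Nat.prime_three⟩
  orderOf_eq_prime (by rw [pow_succ, pow_two]; exact h) n

theorem ord5 {y : G} (h : y ^ 5 = 1) (n : y ≠ 1) : orderOf y = 5 :=
  haveI : Fact (Nat.Prime 5) := ⟨Nat.prime_five⟩
  orderOf_eq_prime h n

theorem odd3 {y : G} (h : orderOf y = 3) : Odd (orderOf y) := by rw [h]; decide

theorem not_mem_two {P : Subgroup G} (hP : IsPGroup 2 P) {y : G} {p : ℕ} (h : orderOf y = p)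
    (ho : Odd p) (h1 : p ≠ 1) : y ∉ P := fun hy => by
  rw [P4.eq_one_of_odd_of_mem hP (h ▸ ho) hy, orderOf_one] at h
  exact h1 h.symm

theorem sq_not_mem_two {P : Subgroup G} (hP : IsPGroup 2 P) {y : G} (h : orderOf y = 3) :
    y * y ∉ P := fun hy => not_mem_two hP h (by decide) (by decide) (by
  have : y = (y * y) * (y * y) := by
    rw [show y * y * (y * y) = y * y * y * y by group, cube h, one_mul]
  rw [this]; exact mul_mem hy hy)

/-- No element of order 10. -/
theorem no10 (h6 : Or6 G) {P : Subgroup G} (hP : IsPGroup 2 P) {x z : G} (hx : orderOf x = 5)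
    (hz : z ∈ P) (c : z * x = x * z) : z = 1 := by
  have h4 := orderOf_dvd_of_pow_eq_one (h6.pow4 hP hz)
  have := h6.mul_le (a := z) (b := x) c (by
    rw [hx]; exact Nat.Coprime.coprime_dvd_left h4 (by decide))
  rw [hx] at this
  have h0 := orderOf_pos z
  exact orderOf_eq_one_iff.1 (by omega)

/-- No element of order 12. -/
theorem no12 (h6 : Or6 G) {P : Subgroup G} (hP : IsPGroup 2 P) {x z : G} (hx : orderOf x = 3)
    (hz : z ∈ P) (c : z * x = x * z) : z * z = 1 := by
  have h4 := orderOf_dvd_of_pow_eq_one (h6.pow4 hP hz)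
  have := h6.mul_le (a := z) (b := x) c (by
    rw [hx]; exact Nat.Coprime.coprime_dvd_left h4 (by decide))
  rw [hx] at this
  have h0 := orderOf_pos z
  have h1 := pow_orderOf_eq_one z
  have : orderOf z = 1 ∨ orderOf z = 2 := by omega
  rcases this with e | e
  · rw [orderOf_eq_one_iff.1 e, one_mul]
  · rwa [e, pow_two] at h1

/-- An element whose `n`-th power (`n` = 3 or 5) lies in a 2-group has a power of order dividing `n`. -/
theorem lift3 (h6 : Or6 G) {P : Subgroup G} (hP : IsPGroup 2 P) {r : G} (h : r ^ 3 ∈ P) :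
    r ^ 4 * r ^ 4 * r ^ 4 = 1 := by
  have := h6.pow4 hP h
  rw [← pow_mul] at this
  rw [← pow_add, ← pow_add]; exact this

theorem lift5 (h6 : Or6 G) {P : Subgroup G} (hP : IsPGroup 2 P) {r : G} (h : r ^ 5 ∈ P)
    (n : r ∉ P) : orderOf r = 5 := by
  have h1 := h6.pow4 hP h
  rw [← pow_mul] at h1
  have h2 := orderOf_dvd_of_pow_eq_one h1
  have h3 := h6 r
  have h0 := orderOf_pos r
  have h4 := pow_orderOf_eq_one r
  have e : r ^ 5 = r * r ^ 4 := by group
  by_contra c
  have : r ^ 4 = 1 := by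
    refine orderOf_dvd_iff_pow_eq_one.1 ?_
    interval_cases orderOf r <;> simp_all
  rw [e, this, mul_one] at h
  exact n h

theorem pow_relIndex {O N : Subgroup G} (h : N ≤ 𝐍(O)) {x : G} (hx : x ∈ N) :
    x ^ O.relIndex N ∈ O := by
  haveI : (O.subgroupOf N).Normal := normal_subgroupOf_of_le_normalizer h
  exact pow_index_mem (O.subgroupOf N) (⟨x, hx⟩ : N)

theorem mem_XX {D : Subgroup G} {y d : G} (hd : d ∈ D) : d * y * d⁻¹ * y⁻¹ ∈ XX D y :=
  commutator_mem_commutator hd (mem_zpowers y)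

theorem mem_XX' {D : Subgroup G} {y d : G} (hd : d ∈ D) : y * d * y⁻¹ * d⁻¹ ∈ XX D y := by
  have := inv_mem (mem_XX (y := y) hd)
  simpa [mul_assoc] using this

theorem XX_le {D : Subgroup G} {y : G} (h : y ∈ 𝐍(D)) : XX D y ≤ D :=
  comm_le_left_iff.2 (zpowers_le.2 h)

/-- If `[F, y] ≤ F` elementwise then `y` normalizes `F`. -/
theorem norm_of_XX {D F : Subgroup G} {y : G} (le : F ≤ D) (h : XX D y ≤ F) : y ∈ 𝐍(F) :=
  mem_norm_of_conj_le fun x hx => by
    obtain ⟨d, hd, rfl⟩ := mem_conj'.1 hx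
    simpa using mul_mem (h (mem_XX' (le hd))) hd

end B1

open B1

namespace Ty
variable {p : ℕ} {T D : Subgroup G} {y : G}

theorem norm (h : Ty p T D y) : T ≤ 𝐍(D) := two_norm h.idx h.le
theorem twoD (h : Ty p T D y) : IsPGroup 2 D := h.two.to_le h.le
theorem ne_bot1 (h : Ty p T D y) : D ≠ ⊥ := fun e => h.ncen (e ▸ bot_le)
theorem XX_ne_bot (h : Ty p T D y) : XX D y ≠ ⊥ := fun e =>
  h.ncen (by rw [← cent_zpowers]; exact comm_eq_bot_iff.1 e)

theorem conj1 (h : Ty p T D y) {n : G} (hn : n ∈ 𝐍(T)) : Ty p T (D ^ᵍ n) (n * y * n⁻¹) where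
  two := h.two
  le := conj_le_of_mem_norm h.le hn
  idx := by rw [← h.idx, ← relIndex_conj D T n, conj_eq_of_mem_norm hn]
  ord := by rw [← h.ord]; exact (MulAut.conj n).orderOf_eq y
  nrm := by rw [norm_conj]; exact conj_mem_conj h.nrm n
  inv := fun u hu hD => by
    rw [mem_conj] at hD ⊢
    have := h.inv _ (P4.conj_mem (inv_mem hn) hu) (by simpa using hD)
    convert this using 1; group
  ncen := fun c => h.ncen (by rwa [cent1_conj, conj_le_conj_iff] at c)

/-- `T` is not abelian on `D`: an element outside `D` does not centralize an abelian `D`. -/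
theorem not_cent (h : Ty 3 T D y) (ab : D ≤ 𝐂(D)) {u : G} (hu : u ∈ T) (hD : u ∉ D) :
    u ∉ 𝐂(D) := fun c => by
  have h1 : u * (y * u⁻¹ * y⁻¹) ∈ 𝐂(D) :=
    mul_mem c (P4.conj_mem (H1.normalizer_le_normalizer_centralizer D h.nrm) (inv_mem c))
  have h2 := mul_mem (inv_mem h1) (ab (h.inv u hu hD))
  have h3 : y * y ∈ 𝐂(D) := by convert h2 using 1; group
  refine h.ncen (mem_cent_iff_cent1.1 ?_)
  have : y = (y * y) * (y * y) := by
    rw [show y * y * (y * y) = y * y * y * y by group, cube h.ord, one_mul]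
  rw [this]; exact mul_mem h3 h3

end Ty

theorem cent_conj_le {D : Subgroup G} (h : 𝐂(D) ≤ D) (n : G) : 𝐂(D ^ᵍ n) ≤ D ^ᵍ n := by
  rw [cent_conj]; exact conj_mono h n

end Cfsg.Agent.P31
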