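/-
P31: elementary cores.
-/
import Cfsg.Agent.P31.Bas
import Cfsg.Agent.P31.A5f

set_option autoImplicit false
set_option linter.unusedSectionVars false
set_option linter.style.haveILetI false

namespace Cfsg.Agent.P31

open Subgroup Cfsg Cfsg.Agent Cfsg.Agent.FT Cfsg.Agent.P6 B1
open scoped commutatorElement

universe u
variable {G : Type u} [Group G] [Finite G]

theorem QA5.relIndex {L D : Subgroup G} (h : QA5 L D) : D.relIndex L = 60 := by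
  obtain ⟨f, hf, hk⟩ := h
  have : D.subgroupOf L = f.ker := by ext x; rw [mem_subgroupOf, MonoidHom.mem_ker, hk]
  rw [Subgroup.relIndex, this, index_ker, MonoidHom.range_eq_top.2 hf, card_top,
    nat_card_alternatingGroup]
  simp [Nat.factorial]

theorem QA5.ex5 {L D : Subgroup G} (h : QA5 L D) (h6 : Or6 G) (hD : IsPGroup 2 D) :
    ∃ x ∈ L, orderOf x = 5 := by
  obtain ⟨f, hf, hk⟩ := h
  obtain ⟨a, a5, a1⟩ := A5f.ex5
  obtain ⟨x, rfl⟩ := hf a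
  exact ⟨x, x.2, lift5 h6 hD ((hk (x ^ 5)).1 (by rw [map_pow, a5])) fun c => a1 ((hk x).2 c)⟩

theorem ex_ab {Q A : Subgroup G} (h : Q.relIndex A = 4) {a : G} (ha : a ∈ A) :
    ∃ b ∈ A, b ∉ Q ∧ b * a ∉ Q := by
  by_contra c
  push Not at c
  have : Q.relIndex A ∣ 2 := relIndex_dvd_two_iff.2 ⟨a, ha, fun b hb => by
    by_cases h : b ∈ Q
    · exact Or.inr h
    · exact Or.inl (c b hb h)⟩
  rw [h] at this; omega

theorem ex_not {Q A : Subgroup G} (h : Q.relIndex A = 4) : ∃ a ∈ A, a ∉ Q := by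
  obtain ⟨b, h1, h2, -⟩ := ex_ab h (one_mem A)
  exact ⟨b, h1, h2⟩

namespace TyA
variable {T Q L : Subgroup G}

theorem norm (h : TyA T Q L) : T ≤ 𝐍(Q) := h.leL.trans h.nrm

theorem conj (h : TyA T Q L) {n : G} (hn : n ∈ 𝐍(T)) : TyA T (Q ^ᵍ n) (L ^ᵍ n) where
  two := h.two
  le := conj_le_of_mem_norm h.le hn
  idx := by rw [← h.idx, ← relIndex_conj Q T n, conj_eq_of_mem_norm hn]
  leL := by rw [← conj_eq_of_mem_norm hn]; exact conj_mono h.leL n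
  nrm := conj_le_norm_iff.2 h.nrm
  iso := by
    obtain ⟨f, hf, hk⟩ := h.iso
    let e := L.equivMapOfInjective _ (conj_injective n)
    refine ⟨f.comp e.symm.toMonoidHom, hf.comp e.symm.surjective, fun x => ?_⟩
    obtain ⟨x, rfl⟩ := e.surjective x
    simp only [MonoidHom.comp_apply, MulEquiv.coe_toMonoidHom, MulEquiv.symm_apply_apply, hk]
    exact conj_mem_conj_iff.symm
  el := el_conj h.el n

section
variable (h : TyA T Q L) (h6 : Or6 G) {f : L →* A5} (hk : ∀ x : L, f x = 1 ↔ (x : G) ∈ Q)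
include h h6

theorem fsq {t : L} (ht : (t : G) ∈ T) : f t * f t = 1 :=
  A5f.sq4 _ (by rw [← map_pow, show t ^ 4 = 1 from Subtype.ext (h6.pow4 h.two ht), map_one])

theorem fcomm {s t : L} (hs : (s : G) ∈ T) (ht : (t : G) ∈ T) : f s * f t = f t * f s := by
  have h1 := h.fsq h6 (f := f) hs
  have h2 := h.fsq h6 (f := f) ht
  have h3 := h.fsq h6 (f := f) (t := s * t) (mul_mem hs ht)
  rw [map_mul] at h3
  calc f s * f t = f s * (f s * f t * (f s * f t)) * f t := by rw [h3, mul_one]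
    _ = (f s * f s) * (f t * f s) * (f t * f t) := by group
    _ = f t * f s := by rw [h1, h2]; group

include hk in
theorem mem_of_comm {a g : L} (ha : (a : G) ∈ T) (aQ : (a : G) ∉ Q) (c : f a * f g = f g * f a) :
    (g : G) ∈ T := by
  obtain ⟨b, hb, bQ, ba⟩ := ex_ab h.idx ha
  let b' : L := ⟨b, h.leL hb⟩
  have key : ∀ v : L, (v : G) ∈ T → f g = f v → (g : G) ∈ T := fun v hv e => by
    have := h.le ((hk (g * v⁻¹)).1 (by rw [map_mul, map_inv, e, mul_inv_cancel]))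
    simpa using mul_mem this hv
  rcases A5f.cen4 (f a) (h.fsq h6 ha) (fun e => aQ ((hk a).1 e)) (f b') (h.fcomm h6 ha hb)
    (fun e => bQ ((hk b').1 e)) (fun e => ba ((hk (b' * a)).1 (by
      rw [map_mul, e]; exact h.fsq h6 ha))) (f g) c with e | e | e | e
  · exact key 1 (one_mem _) (by rw [e, map_one])
  · exact key a ha e
  · exact key b' hb e
  · exact key (a * b') (mul_mem ha hb) (by rw [e, map_mul])
end

theorem exists_w (h : TyA T Q L) (h6 : Or6 G) : ∃ w ∈ L, orderOf w = 3 ∧ w ∈ 𝐍(T) := by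
  obtain ⟨f, hf, hk⟩ := h.iso
  obtain ⟨a, ha, aQ⟩ := ex_not h.idx
  let a' : L := ⟨a, h.leL ha⟩
  obtain ⟨w, w3, w1, hw⟩ := A5f.exw (f a') (h.fsq h6 ha) (fun e => aQ ((hk a').1 e))
  obtain ⟨x, rfl⟩ := hf w
  have x3 : (x : G) ^ 3 ∈ Q := (hk (x ^ 3)).1 (by rw [map_pow, pow_succ, pow_two, w3])
  have fx : f (x ^ 4) = f x := by rw [map_pow, pow_succ, pow_succ, pow_two, w3, one_mul]
  refine ⟨(x ^ 4 : L), (x ^ 4).2, ord3 (lift3 h6 (two_of_el h.el) x3) fun e => w1 ?_,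
    mem_norm_of_conj_le fun u hu => ?_⟩
  · rw [← fx, show x ^ 4 = 1 from Subtype.ext e, map_one]
  · obtain ⟨t, ht, rfl⟩ := mem_conj'.1 hu
    let t' : L := ⟨t, h.leL ht⟩
    refine h.mem_of_comm h6 hk (a := a') (g := x ^ 4 * t' * (x ^ 4)⁻¹) ha aQ ?_
    rw [map_mul, map_mul, map_inv, fx]
    exact hw _ (h.fcomm h6 ha ht)

end TyA

structure EC (T Q : Subgroup G) : Prop where
  two : IsPGroup 2 T
  le : Q ≤ T
  nrm : T ≤ 𝐍(Q)
  el : El Q
  cen : 𝐂(Q) ≤ Q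
  pw : ∃ k, 0 < k ∧ 𝐨(Q) = 16 ^ k
  fr : ∀ t ∈ T, t ∉ Q → 𝐨((Q ⊓ 𝐂[t] : Subgroup G)) ^ 2 = 𝐨(Q)
  idx : Q.relIndex T = 2 ∨ Q.relIndex T = 4
  x5 : ∃ x ∈ 𝐍(Q), orderOf x = 5
  a5 : Q.relIndex T = 4 → ∃ L, TyA T Q L

theorem ec_of (f5 : FR5Stmt.{u}) (fa : FRAStmt.{u}) (h6 : Or6 G) {T Q : Subgroup G}
    (cen : 𝐂(Q) ≤ Q) (h : (∃ x, Ty 5 T Q x ∧ El Q) ∨ (∃ L, TyA T Q L)) : EC T Q := by
  rcases h with ⟨x, h, el⟩ | ⟨L, h⟩
  · obtain ⟨h1, h2⟩ := f5 G h6 T Q x h el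
    exact ⟨h.two, h.le, h.norm, el, cen, h1, h2, Or.inl h.idx, ⟨x, h.nrm, h.ord⟩, fun e => by
      rw [h.idx] at e; omega⟩
  · have n : Q ≠ ⊥ := fun e => by
      obtain ⟨a, -, aQ⟩ := ex_not h.idx
      exact aQ (cen (by rw [e, cent_bot]; trivial))
    obtain ⟨h1, h2⟩ := fa G h6 T Q L h n
    obtain ⟨x, hx, x5⟩ := h.iso.ex5 h6 (two_of_el h.el)
    exact ⟨h.two, h.le, h.norm, h.el, cen, h1, h2, Or.inr h.idx, ⟨x, h.nrm hx, x5⟩,
      fun _ => ⟨L, h⟩⟩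

theorem ShA.odd_mem {N R : Subgroup G} (h : ∀ h ∈ N, h * h ∈ R) {y : G} (hy : y ∈ N)
    (h3 : orderOf y = 3) : y ∈ R := by
  have := h _ (mul_mem hy hy)
  rwa [show y * y * (y * y) = y * y * y * y by group, cube h3, one_mul] at this

theorem ShA.no5 {N : Subgroup G} (h : ShA N) {x : G} (hx : x ∈ N) : orderOf x ≠ 5 := fun h5 => by
  obtain ⟨R, -, -, -, h3, h2⟩ := h
  have := h3 _ (h2 _ hx)
  have e : (x * x) ^ 3 = x := by
    rw [← pow_two, ← pow_mul, show 2 * 3 = 5 + 1 from rfl, pow_succ, ← h5, pow_orderOf_eq_one,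
      one_mul]
  rw [e] at this
  exact not_mem_two (H2.isPGroup_pCoreOf 2 N) h5 (by decide) (by decide) this

theorem ShB.no3 {N : Subgroup G} (h : ShB N) {y : G} (hy : y ∈ N) : orderOf y ≠ 3 := fun h3 => by
  have h1 := pow_relIndex (pCoreOf_normal 2 N).2 hy
  have h2 : y ^ 10 ∈ O2 N := by
    rcases h with h | ⟨h, -⟩
    · rw [h] at h1
      exact (show y ^ 5 * y ^ 5 = y ^ 10 by group) ▸ mul_mem h1 h1
    · rwa [h] at h1
  have e : y ^ 10 = y := by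
    rw [show 10 = 3 * 3 + 1 from rfl, pow_succ, pow_mul, ← h3, pow_orderOf_eq_one]; simp
  rw [e] at h2
  exact not_mem_two (H2.isPGroup_pCoreOf 2 N) h3 (by decide) (by decide) h2

theorem ShB.ex5 {N : Subgroup G} (h : ShB N) : ∃ x ∈ N, orderOf x = 5 := by
  refine exists_mem_orderOf_eq_prime Nat.prime_five (dvd_trans ?_ (relIndex_dvd_card' (O2 N) N))
  rcases h with h | ⟨h, -⟩ <;> rw [h]
  decide

/-- The centralizer of an involution has shape (a). -/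
theorem Cx.shA (cx : Cx G) {Z : Subgroup G} (h1 : Z ≠ ⊥) (h2 : IsPGroup 2 Z)
    (c : 𝐍(Z) ≤ 𝐂(Z)) : ShA 𝐍(Z) := by
  have no : ¬ ∃ x ∈ 𝐍(Z), orderOf x = 5 := fun ⟨x, hx, x5⟩ =>
    h1 ((eq_bot_iff_forall _).2 fun z hz => no10 cx.or6 h2 x5 hz (mem_cent.1 (c hx) z hz))
  rcases cx.sh Z h1 h2 with h | h | h
  · exact h
  · exact absurd h.ex5 no
  · exact absurd (h.1.ex5 cx.or6 (H2.isPGroup_pCoreOf 2 _)) no

namespace EC
variable {T Q : Subgroup G} (e : EC T Q)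
include e

theorem sixteen : 16 ≤ 𝐨(Q) := by
  obtain ⟨k, h1, h2⟩ := e.pw
  rw [h2]; exact Nat.le_self_pow h1.ne' 16

theorem eq16 (h : 𝐨(Q) < 256) : 𝐨(Q) = 16 := by
  obtain ⟨k, h1, h2⟩ := e.pw
  rw [h2] at h ⊢
  have : k < 2 := (Nat.pow_lt_pow_iff_right (by norm_num : 1 < 16)).1 h
  obtain rfl : k = 1 := by omega
  rfl

theorem ne_bot : Q ≠ ⊥ := fun h => by have := e.sixteen; rw [h, card_bot] at this; omega

theorem idx_le : Q.relIndex T ≤ 4 := by rcases e.idx with h | h <;> omega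

theorem inf_le {A : Subgroup G} (el : El A) {t : G} (ht : t ∈ A) : Q ⊓ A ≤ Q ⊓ 𝐂[t] :=
  fun _ hx => ⟨hx.1, mem_cent1.2 (comm_of_el el ht hx.2)⟩

theorem inf_sq {A : Subgroup G} (hA : A ≤ T) (el : El A) (n : ¬ A ≤ Q) :
    𝐨((Q ⊓ A : Subgroup G)) ^ 2 ≤ 𝐨(Q) := by
  obtain ⟨t, ht, tQ⟩ := SetLike.not_le_iff_exists.1 n
  rw [← e.fr t (hA ht) tQ]
  exact Nat.pow_le_pow_left (card_le_of_le (e.inf_le el ht)) 2

theorem cent {B : Subgroup G} (hB : B ≤ Q) (h : 𝐨(B) * 2 = 𝐨(Q)) {t : G} (ht : t ∈ T)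
    (c : B ≤ 𝐂[t]) : t ∈ Q := by
  by_contra n
  have h1 := e.fr t ht n
  have h2 : 𝐨(B) ≤ 𝐨((Q ⊓ 𝐂[t] : Subgroup G)) := card_le_of_le (le_inf hB c)
  have h3 := e.sixteen
  nlinarith

theorem conj {n : G} (hn : n ∈ 𝐍(T)) : EC T (Q ^ᵍ n) where
  two := e.two
  le := conj_le_of_mem_norm e.le hn
  nrm := by rw [← conj_eq_of_mem_norm hn]; exact conj_le_norm_iff.2 e.nrm
  el := el_conj e.el n
  cen := cent_conj_le e.cen n
  pw := by rw [card_conj]; exact e.pw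
  fr := fun t ht tQ => by
    have := e.fr _ (P4.conj_mem (inv_mem hn) ht) (by rw [mem_conj] at tQ; simpa using tQ)
    rw [← card_conj _ n, conj_inf, ← cent1_conj] at this
    rw [card_conj, ← this]; congr 4; group
  idx := by rw [← conj_eq_of_mem_norm hn, relIndex_conj]; exact e.idx
  x5 := by
    obtain ⟨x, hx, x5⟩ := e.x5
    exact ⟨n * x * n⁻¹, by rw [norm_conj]; exact conj_mem_conj hx n,
      by rw [← x5]; exact (MulAut.conj n).orderOf_eq x⟩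
  a5 := fun h => by
    rw [← conj_eq_of_mem_norm hn, relIndex_conj] at h
    obtain ⟨L, hL⟩ := e.a5 h
    exact ⟨_, hL.conj hn⟩

theorem tyA (cx : Cx G) (hT : IsSyl 2 T ⊤) {y : G} (hy : y ∈ 𝐍(Q)) (h3 : orderOf y = 3) :
    TyA T Q 𝐍(Q) := by
  rcases cx.sh Q e.ne_bot (two_of_el e.el) with h | h | h
  · obtain ⟨x, hx, x5⟩ := e.x5
    exact absurd x5 (h.no5 hx)
  · exact absurd h3 (h.no3 hy)
  · have h1 : Q ≤ O2 𝐍(Q) := le_pCoreOf ⟨le_normalizer, le_rfl⟩ (two_of_el e.el)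
    have h2 : O2 𝐍(Q) = Q :=
      le_antisymm (((le_cent_of_el h.2).trans (cent_anti h1)).trans e.cen) h1
    have iso := h.1
    rw [h2] at iso
    refine ⟨e.two, e.le, ?_, e.nrm, le_rfl, iso, e.el⟩
    have h4 := relIndex_mul_relIndex Q T 𝐍(Q) e.le e.nrm
    rw [iso.relIndex] at h4
    have h5 := (hT.of_le e.nrm le_top).ndvd
    rcases e.idx with h | h
    · rw [h] at h4; omega
    · exact h

end EC

end Cfsg.Agent.P31
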