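/-
P31: an elementary core excludes types of order 3.
-/
import Cfsg.Agent.P31.EC

set_option autoImplicit false
set_option linter.unusedSectionVars false
set_option linter.style.haveILetI false

namespace Cfsg.Agent.P31

open Subgroup Cfsg Cfsg.Agent Cfsg.Agent.FT Cfsg.Agent.P6 B1
open scoped commutatorElement

universe u
variable {G : Type u} [Group G] [Finite G]

namespace A3

theorem end3 {K : Type u} [Group K] {V : Subgroup K} (sq : El V) {a b : K} (na : a ∈ 𝐍(V))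
    (nb : b ∈ 𝐍(V))
    (h : ∀ r, r = a ∨ r = b ∨ r = a * b ∨ r = a * b⁻¹ →
      ∀ d ∈ V, d * (r * d * r⁻¹) * (r⁻¹ * d * r) = 1) : ∀ d ∈ V, d = 1 := by
  intro d hd
  have cj : ∀ {r v : K}, r ∈ 𝐍(V) → v ∈ V → r * v * r⁻¹ ∈ V := fun hr hv =>
    (mem_normalizer_iff.1 hr _).1 hv
  have h' : ∀ r, r ∈ 𝐍(V) → r = a ∨ r = b ∨ r = a * b ∨ r = a * b⁻¹ →
      ∀ d ∈ V, r⁻¹ * d * r = d * (r * d * r⁻¹) := fun r hr e d hd => by
    have h1 := h r e d hd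
    have h2 := sq _ (mul_mem hd (cj hr hd))
    exact mul_left_cancel (h1.trans h2.symm)
  have ha := h' a na (by tauto)
  have hb := h' b nb (by tauto)
  have m1 := cj na hd
  have m2 := cj nb hd
  have e1 := h' _ (mul_mem na nb) (by tauto) d hd
  have e2 := h' _ (mul_mem na (inv_mem nb)) (by tauto) d hd
  have l1 : (a * b)⁻¹ * d * (a * b) = b⁻¹ * d * b * (b⁻¹ * (a * d * a⁻¹) * b) := by
    rw [show (a * b)⁻¹ * d * (a * b) = b⁻¹ * (a⁻¹ * d * a) * b by group, ha d hd]; group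
  rw [l1, hb d hd, hb _ m1] at e1
  have l2 : (a * b⁻¹)⁻¹ * d * (a * b⁻¹) = b * d * b⁻¹ * (b * (a * d * a⁻¹) * b⁻¹) := by
    rw [show (a * b⁻¹)⁻¹ * d * (a * b⁻¹) = b * (a⁻¹ * d * a) * b⁻¹ by group, ha d hd]; group
  have r2 : a * b⁻¹ * d * (a * b⁻¹)⁻¹ = a * d * a⁻¹ * (a * b * d * (a * b)⁻¹) := by
    rw [show a * b⁻¹ * d * (a * b⁻¹)⁻¹ = a * (b⁻¹ * d * b) * a⁻¹ by group, hb d hd]; group
  rw [l2, r2] at e2
  have s1 := sq _ m1
  have c : a * d * a⁻¹ * (b * d * b⁻¹) = b * d * b⁻¹ * (a * d * a⁻¹) := by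
    have h3 := sq _ (mul_mem m1 m2)
    have h2 := sq _ m2
    generalize a * d * a⁻¹ = x at *
    generalize b * d * b⁻¹ = y at *
    calc x * y = x * (x * y * (x * y)) * y := by rw [h3, mul_one]
      _ = (x * x) * (y * x) * (y * y) := by group
      _ = y * x := by rw [s1, h2]; group
  generalize b * (a * d * a⁻¹) * b⁻¹ = x4 at *
  generalize a * b * d * (a * b)⁻¹ = x3 at *
  generalize a * d * a⁻¹ = x1 at *
  generalize b * d * b⁻¹ = x2 at *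
  have e3 : x3 = x2 * (x1 * x4) := (mul_left_cancel ((mul_assoc _ _ _).symm.trans e1)).symm
  rw [e3] at e2
  have e4 : x2 * x4 = d * (x2 * x4) := by
    calc x2 * x4 = d * (x1 * x2 * x1 * x4) := by rw [e2]; group
      _ = d * (x2 * (x1 * x1) * x4) := by rw [c]; group
      _ = _ := by rw [s1]; group
  exact (mul_eq_right.1 e4.symm)

variable {T Q D : Subgroup G} {y : G}

theorem step1 (cx : Cx G) (hT : IsSyl 2 T ⊤) (e : EC T Q) (h : Ty 3 T D y) : ¬ Q ≤ D := by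
  intro le
  have r1 := relIndex_mul_relIndex Q D T le h.le
  rw [h.idx] at r1
  have r2 := e.idx_le
  have yN : y ∈ 𝐍(Q) := by
    by_contra c
    have hA : Q ^ᵍ y ≤ D := conj_le_of_mem_norm le h.nrm
    have h1 := e.inf_sq (hA.trans h.le) (el_conj e.el y) fun l => c (mem_norm_of_conj_le l)
    have h2 := H1.card_inf_mul_relIndex Q (Q ^ᵍ y)
    have h3 : Q.relIndex (Q ^ᵍ y) ≤ Q.relIndex D :=
      relIndex_le_of_le_right hA FiniteIndex.index_ne_zero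
    rw [card_conj] at h2
    have h4 := e.sixteen
    have h5 : Q.relIndex (Q ^ᵍ y) ≤ 2 := by omega
    generalize 𝐨((Q ⊓ Q ^ᵍ y : Subgroup G)) = m at *
    generalize Q.relIndex (Q ^ᵍ y) = r at *
    have : 𝐨(Q) ≤ m * 2 := h2 ▸ Nat.mul_le_mul_left m h5
    nlinarith
  have ta := e.tyA cx hT yN h.ord
  have i2 : Q.relIndex D = 2 := by have := ta.idx; omega
  obtain ⟨d, hd, dQ⟩ := two_ex i2
  obtain ⟨f, hf, hk⟩ := ta.iso
  let d' : 𝐍(Q) := ⟨d, e.nrm (h.le hd)⟩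
  let y' : 𝐍(Q) := ⟨y, yN⟩
  have s := ta.fsq cx.or6 (f := f) (t := d') (h.le hd)
  have h1 : y * d * y⁻¹ * d ∈ Q := two_mul i2 (P4.conj_mem h.nrm hd) hd
    (fun c => dQ ((mem_normalizer_iff.1 yN d).2 c)) dQ
  have h2 := (hk (y' * d' * y'⁻¹ * d')).2 h1
  simp only [map_mul, map_inv] at h2
  have h3 : f y' = 1 := A5f.no6 (f d') s (fun c => dQ ((hk d').1 c)) (f y') (by
    rw [← map_mul, ← map_mul, show y' * y' * y' = 1 from Subtype.ext (cube h.ord), map_one]) (by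
    have := mul_right_cancel (h2.trans s.symm)
    exact (mul_inv_eq_iff_eq_mul.1 this).symm)
  exact not_mem_two (two_of_el e.el) h.ord (by decide) (by decide) ((hk y').1 h3)

theorem step2 (e : EC T Q) (h : Ty 3 T D y) (cen : 𝐂(D) ≤ D) (n : ¬ Q ≤ D) :
    y ∉ 𝐍((Q ⊓ D : Subgroup G)) := by
  intro yN
  obtain ⟨q, hq, qD⟩ := SetLike.not_le_iff_exists.1 n
  have i2 := two_inf h.idx e.le n
  have c2 := two_card i2 inf_le_left
  have qC : q ∈ 𝐂((Q ⊓ D : Subgroup G)) := cent_anti inf_le_left (le_cent_of_el e.el hq)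
  have nC := H1.normalizer_le_normalizer_centralizer (Q ⊓ D : Subgroup G)
  have rC : q * (y * q * y⁻¹) ∈ 𝐂((Q ⊓ D : Subgroup G)) := mul_mem qC (P4.conj_mem (nC yN) qC)
  have hd := h.inv q (e.le hq) qD
  have qq := e.el q hq
  have qi : q⁻¹ = q := inv_eq_of_mul_eq_one_right qq
  have y3 := cube h.ord
  have er : q * (y * q * y⁻¹) = q * y * q⁻¹ * y * y := by
    rw [qi, show y⁻¹ = y * y from inv_eq_of_mul_eq_one_left y3]; group
  rw [er] at rC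
  generalize q * y * q⁻¹ * y = d at hd rC
  have rN : d * y ∈ 𝐍(D) := mul_mem (le_normalizer hd) h.nrm
  have DN : D ≤ 𝐍((Q ⊓ D : Subgroup G)) :=
    H1.le_normalizer_inf (h.le.trans e.nrm) le_normalizer
  have : d * y * (d * y) ∈ D := cen (mem_cent.2 fun x hx => by
    have h1 : d * y * x * (d * y)⁻¹ * x⁻¹ ∈ D := mul_mem (P4.conj_mem rN hx) (inv_mem hx)
    have h2 : d * y * x * (d * y)⁻¹ * x⁻¹ ∈ 𝐂((Q ⊓ D : Subgroup G)) := by
      have := mul_mem rC (P4.conj_mem (nC (DN hx)) (inv_mem rC))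
      convert this using 1; group
    have h3 := e.cent inf_le_left c2 (h.le h1) (mem_cent_iff_cent1.1 h2)
    have h4 := mem_cent.1 rC _ ⟨h3, h1⟩
    have h5 := conj_pow (y := d * y) (d := x) (c := d * y * x * (d * y)⁻¹ * x⁻¹) (by group) h4 2
    rw [pow_two (d * y * x * (d * y)⁻¹ * x⁻¹), e.el _ h3, one_mul, pow_two] at h5
    exact (mul_inv_eq_iff_eq_mul.1 h5).symm)
  refine sq_not_mem_two h.twoD h.ord ?_
  have := mul_mem (inv_mem (mul_mem hd (P4.conj_mem h.nrm hd))) this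
  convert this using 1; group

/-- The extraspecial configuration. -/
structure XS (D Z : Subgroup G) (z : G) : Prop where
  two : IsPGroup 2 D
  le : Z ≤ D
  zZ : z ∈ Z
  mem : ∀ x ∈ Z, x = 1 ∨ x = z
  z1 : z ≠ 1
  cen : D ≤ 𝐂[z]
  com : ∀ d ∈ D, ∀ e ∈ D, ⁅d, e⁆ ∈ Z
  ctr : ∀ c ∈ D, c ∈ 𝐂(D) → c ∈ Z

namespace XS
variable {Z : Subgroup G} {z : G} (x : XS D Z z)
include x

theorem fix {r : G} (hr : r ∈ 𝐍(Z)) {c : G} (hc : c ∈ Z) : c * r = r * c := by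
  rcases x.mem c hc with e | e
  · rw [e, one_mul, mul_one]
  · rw [e]
    rcases x.mem _ (P4.conj_mem hr x.zZ) with h | h
    · exact absurd h (P4.conj_ne_one x.z1 r)
    · exact (mul_inv_eq_iff_eq_mul.1 h).symm

theorem zc {c d : G} (hc : c ∈ Z) (hd : d ∈ D) : c * d = d * c := by
  rcases x.mem c hc with e | e
  · rw [e, one_mul, mul_one]
  · rw [e]; exact mem_cent1.1 (x.cen hd)

theorem nfix {r : G} (h3 : orderOf r = 3) (hr : r ∈ 𝐍(D)) (hz : r ∈ 𝐍(Z)) {d : G} (hd : d ∈ D) :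
    r * (d * (r * d * r⁻¹) * (r⁻¹ * d * r)) = d * (r * d * r⁻¹) * (r⁻¹ * d * r) * r := by
  have m1 := P4.conj_mem hr hd
  have m2 : r⁻¹ * d * r ∈ D := by simpa using P4.conj_mem (inv_mem hr) hd
  have m := x.com _ (mul_mem m1 m2) _ hd
  refine fix_of_odd x.two (odd3 h3) (c := ⁅r * d * r⁻¹ * (r⁻¹ * d * r), d⁆) ?_ (x.fix hz m) (x.le m)
  have e : r * (r * d * r⁻¹) * r⁻¹ = r⁻¹ * d * r := by
    have := cube h3
    rw [show r⁻¹ = r * r from inv_eq_of_mul_eq_one_left this]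
    calc r * (r * d * (r * r)) * (r * r) = r * r * d * r * (r * r * r) := by group
      _ = _ := by rw [this]; group
  calc _ = r * d * r⁻¹ * (r * (r * d * r⁻¹) * r⁻¹) * d := by group
    _ = _ := by rw [e, commutatorElement_def]; group

theorem fp (h6 : Or6 G) {r : G} (h3 : orderOf r = 3) (hr : r ∈ 𝐍(D)) (hz : r ∈ 𝐍(Z)) {c : G}
    (hc : c ∈ D) (cr : c * r = r * c) : c ∈ Z := by
  refine x.ctr c hc (mem_cent.2 fun d hd => ?_)
  have m1 := P4.conj_mem hr hd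
  have m2 : r⁻¹ * d * r ∈ D := by simpa using P4.conj_mem (inv_mem hr) hd
  have mn := mul_mem (mul_mem hd m1) m2
  have nf := x.nfix h3 hr hz hd
  have el : El (D ⊓ 𝐂[r]) := fun v hv => no12 h6 x.two h3 hv.1 (mem_cent1.1 hv.2).symm
  have cn := comm_of_el el ⟨hc, mem_cent1.2 cr.symm⟩ ⟨mn, mem_cent1.2 nf⟩
  have k := x.com c hc d hd
  have kr := x.fix hz k
  have e0 : c * d * c⁻¹ = ⁅c, d⁆ * d := by rw [commutatorElement_def]; group
  generalize ⁅c, d⁆ = κ at k kr e0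
  have e1 : c * (r * d * r⁻¹) * c⁻¹ = κ * (r * d * r⁻¹) := by
    calc _ = (c * r) * d * (c * r)⁻¹ := by group
      _ = r * (c * d * c⁻¹) * r⁻¹ := by rw [cr]; group
      _ = (r * κ) * d * r⁻¹ := by rw [e0]; group
      _ = _ := by rw [← kr]; group
  have e2 : c * (r⁻¹ * d * r) * c⁻¹ = κ * (r⁻¹ * d * r) := by
    calc _ = r⁻¹ * (r * c) * r⁻¹ * d * r * c⁻¹ := by group
      _ = r⁻¹ * (c * d * (r * c)⁻¹ * (r * c) * r * c⁻¹) := by rw [← cr]; group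
      _ = r⁻¹ * (c * d * c⁻¹) * (c * r) * c⁻¹ := by group
      _ = r⁻¹ * (κ * r) * (r⁻¹ * d * r) := by rw [cr, e0]; group
      _ = _ := by rw [kr]; group
  have e3 : c * (d * (r * d * r⁻¹) * (r⁻¹ * d * r)) * c⁻¹ =
      κ * κ * κ * (d * (r * d * r⁻¹) * (r⁻¹ * d * r)) := by
    calc _ = (c * d * c⁻¹) * (c * (r * d * r⁻¹) * c⁻¹) * (c * (r⁻¹ * d * r) * c⁻¹) := by group
      _ = κ * (d * κ) * ((r * d * r⁻¹) * κ) * (r⁻¹ * d * r) := by rw [e0, e1, e2]; group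
      _ = κ * (κ * d) * (κ * (r * d * r⁻¹)) * (r⁻¹ * d * r) := by rw [x.zc k m1, x.zc k hd]
      _ = κ * κ * (d * κ) * (r * d * r⁻¹) * (r⁻¹ * d * r) := by group
      _ = _ := by rw [← x.zc k hd]; group
  rw [cn, mul_inv_cancel_right] at e3
  have e4 : κ * κ * κ = 1 := mul_eq_right.1 e3.symm
  have e5 : κ = 1 := by
    by_contra c1
    exact not_mem_two x.two (ord3 e4 c1) (by decide) (by decide) (x.le k)
  rw [e5, one_mul] at e0
  exact (mul_inv_eq_iff_eq_mul.1 e0).symm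

theorem nm (h6 : Or6 G) {r : G} (h3 : orderOf r = 3) (hr : r ∈ 𝐍(D)) (hz : r ∈ 𝐍(Z)) {d : G}
    (hd : d ∈ D) : d * (r * d * r⁻¹) * (r⁻¹ * d * r) ∈ Z :=
  x.fp h6 h3 hr hz (mul_mem (mul_mem hd (P4.conj_mem hr hd))
    (by simpa using P4.conj_mem (inv_mem hr) hd)) (x.nfix h3 hr hz hd).symm

theorem DN : D ≤ 𝐍(Z) := fun d hd => mem_norm_of_conj_le fun u hu => by
  obtain ⟨c, hc, rfl⟩ := mem_conj'.1 hu
  rw [← x.zc hc hd, mul_inv_cancel_right]; exact hc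

theorem fin (h6 : Or6 G) (sq : ∀ d ∈ D, d * d ∈ Z) {a b : G} (aD : a ∈ 𝐍(D)) (aZ : a ∈ 𝐍(Z))
    (bD : b ∈ 𝐍(D)) (bZ : b ∈ 𝐍(Z))
    (h : ∀ r, r = a ∨ r = b ∨ r = a * b ∨ r = a * b⁻¹ → r ^ 3 ∈ D ∧ r ∉ D) : D ≤ Z := by
  haveI : (Z.subgroupOf 𝐍(Z)).Normal := normal_subgroupOf_of_le_normalizer le_rfl
  let p := QuotientGroup.mk' (Z.subgroupOf 𝐍(Z))
  have hp : ∀ g : 𝐍(Z), p g = 1 ↔ (g : G) ∈ Z := fun g => QuotientGroup.eq_one_iff g
  let V := (D.subgroupOf 𝐍(Z)).map p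
  have nV : ∀ g : 𝐍(Z), (g : G) ∈ 𝐍(D) → p g ∈ 𝐍(V) := fun g hg =>
    mem_norm_of_conj_le fun u hu => by
      obtain ⟨_, ⟨d, hd, rfl⟩, rfl⟩ := mem_conj'.1 hu
      exact ⟨g * d * g⁻¹, P4.conj_mem (G := G) hg hd, by simp⟩
  have el : El V := by
    rintro _ ⟨d, hd, rfl⟩
    rw [← map_mul]; exact (hp _).2 (sq d hd)
  have key : ∀ g : 𝐍(Z), (g : G) ∈ 𝐍(D) → (g : G) ^ 3 ∈ D → (g : G) ∉ D →
      ∀ v ∈ V, v * (p g * v * (p g)⁻¹) * ((p g)⁻¹ * v * p g) = 1 := by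
    rintro g gD g3 gn _ ⟨d, hd, rfl⟩
    have o3 : orderOf ((g ^ 4 : 𝐍(Z)) : G) = 3 := ord3 (lift3 h6 x.two g3) fun e => gn (by
      have := mul_mem (show ((g ^ 4 : 𝐍(Z)) : G) ∈ D from e ▸ one_mem D) (inv_mem g3)
      convert this using 1; simp only [SubgroupClass.coe_pow]; group)
    have h1 := (hp (d * (g ^ 4 * d * (g ^ 4)⁻¹) * ((g ^ 4)⁻¹ * d * g ^ 4))).2
      (x.nm h6 o3 (pow_mem gD 4) (g ^ 4).2 hd)
    have h2 : p (g ^ 3) * p d = p d * p (g ^ 3) :=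
      comm_of_el el ⟨g ^ 3, g3, rfl⟩ ⟨d, hd, rfl⟩
    simp only [map_mul, map_inv, map_pow] at h1 h2
    have h3 : p g ^ 4 * p d * (p g ^ 4)⁻¹ = p g * p d * (p g)⁻¹ := by
      calc _ = p g * (p g ^ 3 * p d) * (p g ^ 4)⁻¹ := by group
        _ = _ := by rw [h2]; group
    have h4 : (p g ^ 4)⁻¹ * p d * p g ^ 4 = (p g)⁻¹ * p d * p g := by
      calc _ = (p g ^ 4)⁻¹ * (p d * p g ^ 3) * p g := by group
        _ = _ := by rw [← h2]; group
    rwa [h3, h4] at h1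
  intro d hd
  let a' : 𝐍(Z) := ⟨a, aZ⟩
  let b' : 𝐍(Z) := ⟨b, bZ⟩
  refine (hp ⟨d, x.DN hd⟩).1 (end3 el (nV a' aD) (nV b' bD) ?_ _ ⟨_, hd, rfl⟩)
  rintro r (rfl | rfl | rfl | rfl)
  · exact key a' aD (h a (by tauto)).1 (h a (by tauto)).2
  · exact key b' bD (h b (by tauto)).1 (h b (by tauto)).2
  · rw [← map_mul]
    exact key (a' * b') (mul_mem aD bD) (h (a * b) (by tauto)).1 (h (a * b) (by tauto)).2
  · rw [← map_inv, ← map_mul]
    exact key (a' * b'⁻¹) (mul_mem aD (inv_mem bD)) (h (a * b⁻¹) (by tauto)).1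
      (h (a * b⁻¹) (by tauto)).2

end XS

/-- The last configuration: `|Q| = 16`, `|T| = 64`, `D` extraspecial. -/
theorem step4 (xs : XSStmt.{u}) (cx : Cx G) (hT : IsSyl 2 T ⊤) (h : Ty 3 T D y) {L Z : Subgroup G}
    {z : G} (ta : TyA T Q L) (x : XS D Z z) (sq : ∀ d ∈ D, d * d ∈ Z) (TZ : T ≤ 𝐂[z]) (zQ : z ∈ Q)
    (c0 : ∀ c ∈ Q, c ∈ 𝐂(T) → c ∈ Z) : False := by
  have nz : ∀ g : G, g * z * g⁻¹ ∈ Z → g ∈ 𝐍(Z) := fun g hg => mem_norm_of_conj_le fun u hu => by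
    obtain ⟨c, hc, rfl⟩ := mem_conj'.1 hu
    rcases x.mem c hc with e | e <;> rw [e]
    · simp
    · exact hg
  have nC := fun X : Subgroup G => H1.normalizer_le_normalizer_centralizer X
  have TN : T ≤ 𝐍(Z) := fun t ht => nz t (by rw [mem_cent1_iff_conj.1 (TZ ht)]; exact x.zZ)
  have yN : y ∈ 𝐍(Z) := nz y (x.ctr _ (P4.conj_mem h.nrm (x.le x.zZ))
    (P4.conj_mem (nC D h.nrm) (mem_cent_iff_cent1.2 x.cen)))
  obtain ⟨w, wL, w3, wT⟩ := ta.exists_w cx.or6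
  have wN : w ∈ 𝐍(Z) := nz w (c0 _ (P4.conj_mem (ta.nrm wL) zQ)
    (P4.conj_mem (nC T wT) (mem_cent_iff_cent1.2 TZ)))
  have Z1 : Z ≠ ⊥ := fun e => x.z1 (by simpa [e] using x.zZ)
  have Z2 : IsPGroup 2 Z := x.two.to_le x.le
  obtain ⟨x1, x2, x3⟩ := xs G cx T D Z y h Z1 Z2 TN yN
  have x4 := x3 w wN wT (odd3 w3)
  have OT : O2 𝐍(Z) ≤ T := (hT.of_le TN le_top).pCoreOf_le Nat.prime_two
  have ZO : Z ≤ O2 𝐍(Z) := le_pCoreOf ⟨le_normalizer, le_rfl⟩ Z2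
  have nO : 𝐍(Z) ≤ 𝐍(O2 𝐍(Z)) := (pCoreOf_normal 2 𝐍(Z)).2
  have OD : O2 𝐍(Z) = D := le_antisymm (fun o ho => x2 ⟨OT ho, ho⟩) fun d hd => by
    have h1 := ZO (x.nm cx.or6 h.ord h.nrm yN hd)
    have h2 := x1 (mem_XX' (y := y) hd)
    have h3 : y⁻¹ * d * y * d⁻¹ ∈ O2 𝐍(Z) := by
      have := P4.conj_mem (nO (inv_mem yN)) (x1 (mem_XX (y := y) hd))
      convert this using 1; group
    have dN := nO (TN (h.le hd))
    have h4 : d ^ 3 ∈ O2 𝐍(Z) := by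
      have := mul_mem (mul_mem (inv_mem (P4.conj_mem (mul_mem dN dN) h3))
        (inv_mem (P4.conj_mem dN h2))) h1
      convert this using 1; group
    have h5 := cx.or6.pow4 x.two hd
    have : d = (d ^ 3)⁻¹ := eq_inv_of_mul_eq_one_left (by rw [← h5, pow_succ' d 3])
    rw [this]; exact inv_mem h4
  obtain ⟨R, -, -, -, r3, r2⟩ := cx.shA Z1 Z2 fun g hg => mem_cent.2 fun c hc => x.fix hg hc
  have wR := ShA.odd_mem r2 wN w3
  have yR := ShA.odd_mem r2 yN h.ord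
  rw [OD] at r3 x4 nO
  obtain ⟨q, qT, qD⟩ := two_ex h.idx
  have i1 := h.inv q qT qD
  have i2 := x4 (mem_XX (y := w) qT)
  have y2 := sq_not_mem_two x.two h.ord
  have wD := nO wN
  have k0 : w * y ∈ D → w * y⁻¹ ∈ D → False := fun c c' => y2 (by
    have := mul_mem (inv_mem c') c
    convert this using 1; group)
  have k1 : w * y ∉ D := fun c => k0 c (by
    have := mul_mem (mul_mem (inv_mem (P4.conj_mem wD i1)) (inv_mem i2)) (P4.conj_mem (h.norm qT) c)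
    convert this using 1; group)
  have k2 : w * y⁻¹ ∉ D := fun c => k0 (by
    have := mul_mem (mul_mem (inv_mem i2) (P4.conj_mem (h.norm qT) c)) i1
    convert this using 1; group) c
  have DZ := x.fin cx.or6 sq wD wN h.nrm yN (by
    rintro r (rfl | rfl | rfl | rfl)
    · exact ⟨r3 _ wR, not_mem_two x.two w3 (by decide) (by decide)⟩
    · exact ⟨r3 _ yR, not_mem_two x.two h.ord (by decide) (by decide)⟩
    · exact ⟨r3 _ (mul_mem wR yR), k1⟩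
    · exact ⟨r3 _ (mul_mem wR (inv_mem yR)), k2⟩)
  exact h.ncen fun d hd => mem_cent1.2 (x.fix yN (DZ hd)).symm

theorem mem_two {Z : Subgroup G} (h : 𝐨(Z) = 2) : ∃ z ∈ Z, z ≠ 1 ∧ ∀ x ∈ Z, x = 1 ∨ x = z := by
  have i : (⊥ : Subgroup G).relIndex Z = 2 := by rw [relIndex_bot_left, h]
  obtain ⟨z, hz, z1⟩ := two_ex i
  refine ⟨z, hz, fun e => z1 (mem_bot.2 e), fun x hx => ?_⟩
  by_contra c
  push Not at c
  have := two_mul i hx (inv_mem hz) (fun e => c.1 (mem_bot.1 e)) (fun e => z1 (inv_mem_iff.1 e))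
  exact c.2 (mul_inv_eq_one.1 (mem_bot.1 this))

theorem step3 (xs : XSStmt.{u}) (cx : Cx G) (hT : IsSyl 2 T ⊤) (e : EC T Q) (h : Ty 3 T D y)
    (n : ¬ Q ≤ D) (yN : y ∉ 𝐍((Q ⊓ D : Subgroup G))) : False := by
  obtain ⟨q, hq, qD⟩ := SetLike.not_le_iff_exists.1 n
  have c2 := two_card (two_inf h.idx e.le n) inf_le_left
  have el0 : El (Q ⊓ D) := El.mono e.el inf_le_left
  have N0 : T ≤ 𝐍((Q ⊓ D : Subgroup G)) := H1.le_normalizer_inf e.nrm h.norm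
  have l0 : ∀ x, x ∈ Q → x ∈ D → x ∈ Q ⊓ D := fun _ a b => ⟨a, b⟩
  have l1 : Q ⊓ D ≤ Q := inf_le_left
  have l2 : Q ⊓ D ≤ D := inf_le_right
  generalize Q ⊓ D = A at *
  have Nc : ∀ g ∈ 𝐍(D), D ≤ 𝐍(A ^ᵍ g) := fun g hg => by
    rw [← conj_eq_of_mem_norm hg]; exact conj_le_norm_iff.2 (h.le.trans N0)
  have N1 := Nc y h.nrm
  have el1 := el_conj el0 y
  have BD : A ^ᵍ y ≤ D := conj_le_of_mem_norm l2 h.nrm
  have BT := BD.trans h.le
  have n1 : ¬ A ^ᵍ y ≤ Q := fun c => yN (mem_norm_of_conj_le fun x hx => l0 x (c hx) (BD hx))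
  have qN : q ∉ 𝐍(A ^ᵍ y) := fun c => yN (by
    have hd := h.inv q (e.le hq) qD
    have h1 : A ^ᵍ y = A ^ᵍ y⁻¹ := by
      rw [← conj_eq_of_mem_norm c, conj_conj,
        show q * y = q * y * q⁻¹ * y * y⁻¹ * q by group, ← conj_conj,
        conj_eq_of_mem_norm (N0 (e.le hq)), ← conj_conj,
        conj_eq_of_mem_norm (Nc _ (inv_mem h.nrm) hd)]
    have h2 : y * y ∈ 𝐍(A) := by rw [← conj_eq_self_iff, ← conj_conj, h1, conj_inv_conj]
    have := mul_mem h2 h2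
    rwa [show y * y * (y * y) = y * y * y * y by group, cube h.ord, one_mul] at this)
  have cB : 𝐨(A ^ᵍ y) = 𝐨(A) := card_conj A y
  generalize A ^ᵍ y = B at *
  have h1 := e.inf_sq BT el1 n1
  have h2 := H1.card_inf_mul_relIndex Q B
  have h3 : Q.relIndex B ≤ Q.relIndex T := relIndex_le_of_le_right BT FiniteIndex.index_ne_zero
  have h4 := e.idx_le
  have h5 : 𝐨(B) ≤ 𝐨((Q ⊓ B : Subgroup G)) * 4 := h2 ▸ Nat.mul_le_mul_left _ (h3.trans h4)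
  have q16 : 𝐨(Q) = 16 := e.eq16 (by nlinarith)
  have a8 : 𝐨(A) = 8 := by omega
  have f4 : ∀ t ∈ T, t ∉ Q → 𝐨((Q ⊓ 𝐂[t] : Subgroup G)) = 4 := fun t ht tQ =>
    Nat.pow_left_injective two_ne_zero ((e.fr t ht tQ).trans q16)
  have m4 : 𝐨((Q ⊓ B : Subgroup G)) ≤ 4 := by nlinarith
  by_cases m : 𝐨((Q ⊓ B : Subgroup G)) = 4
  · refine qN (mem_norm_of_conj_le fun x hx => ?_)
    obtain ⟨a, ha, rfl⟩ := mem_conj'.1 hx
    by_cases aQ : a ∈ Q
    · rw [comm_of_el e.el hq aQ, mul_inv_cancel_right]; exact ha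
    · have e1 : Q ⊓ B = Q ⊓ 𝐂[a] :=
        eq_of_le_of_card_ge (e.inf_le el1 ha) (by rw [m, f4 a (BT ha) aQ])
      have k1 : q * a * q⁻¹ * a⁻¹ ∈ Q := by
        have := mul_mem hq (P4.conj_mem (e.nrm (BT ha)) (inv_mem hq))
        convert this using 1; group
      have k2 : q * a * q⁻¹ * a⁻¹ ∈ 𝐂[a] := by
        have aa := inv_eq_of_mul_eq_one_right (el1 a ha)
        have := inv_eq_of_mul_eq_one_right (e.el _ k1)
        rw [mem_cent1_comm, mem_cent1_iff_conj]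
        calc _ = a * q * a * q⁻¹ * (a * a)⁻¹ := by group
          _ = (q * a⁻¹ * q⁻¹ * a⁻¹)⁻¹ := by rw [el1 a ha]; group
          _ = _ := by rw [aa] at this ⊢; exact this
      have : q * a * q⁻¹ * a⁻¹ ∈ Q ⊓ B := e1 ▸ ⟨k1, k2⟩
      simpa using mul_mem this.2 ha
  have m2 : 𝐨((Q ⊓ B : Subgroup G)) = 2 ∧ Q.relIndex B = 4 := by
    rw [cB, a8] at h2
    have := h3.trans h4
    generalize 𝐨((Q ⊓ B : Subgroup G)) = mm at *
    generalize Q.relIndex B = r at *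
    interval_cases mm <;> omega
  have i4 : Q.relIndex T = 4 := by omega
  obtain ⟨L, ta⟩ := e.a5 i4
  obtain ⟨z, zZ, z1, hz⟩ := mem_two m2.1
  have AB : A ⊓ B = Q ⊓ B := le_antisymm (inf_le_inf_right _ l1)
    fun x hx => ⟨l0 x hx.1 (BD hx.2), hx.2⟩
  have BA : B ≤ 𝐍(A) := BT.trans N0
  have eD : A ⊔ B = D := eq_of_le_of_card_ge (sup_le l2 BD) (by
    have k1 := card_sup_mul_card_inf BA
    have k2 := two_card h.idx h.le
    have k3 := H1.card_mul_relIndex e.le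
    rw [AB, m2.1, cB, a8] at k1
    rw [i4, q16] at k3
    omega)
  have ZQ : Q ≤ 𝐂(Q ⊓ B) := (le_cent_of_el e.el).trans (cent_anti inf_le_left)
  have ZB : B ≤ 𝐂(Q ⊓ B) := (le_cent_of_el el1).trans (cent_anti inf_le_right)
  have ZD : D ≤ 𝐂(Q ⊓ B) := eD ▸ sup_le (l1.trans ZQ) ZB
  have ZT : T ≤ 𝐂(Q ⊓ B) := fun t ht => by
    by_cases tD : t ∈ D
    · exact ZD tD
    · simpa using mul_mem (ZD (two_mul h.idx ht (e.le hq) tD qD)) (inv_mem (ZQ hq))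
  have cAB : ⁅A, B⁆ ≤ Q ⊓ B := AB ▸ le_inf (comm_le_left_iff.2 BA)
    (comm_le_right_iff.2 (l2.trans N1))
  have c0 : ∀ c ∈ Q, c ∈ 𝐂(B) → c ∈ Q ⊓ B := fun c cQ cC => by
    by_contra cZ
    have k : ∀ a ∈ B, a ∉ Q → ∀ v ∈ Q, a * v = v * a → v ∈ 𝐂(B) := fun a ha aQ v vQ c1 => by
      have i := two_of_card (e.inf_le el1 ha) (by rw [m2.1, f4 a (BT ha) aQ])
      by_cases vZ : v ∈ Q ⊓ B
      · exact cent_comm.1 ZB vZ
      · have := two_mul i ⟨vQ, mem_cent1.2 c1⟩ ⟨cQ, mem_cent1.2 (mem_cent.1 cC a ha)⟩ vZ cZ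
        simpa using mul_mem (cent_comm.1 ZB this) (inv_mem cC)
    obtain ⟨a, ha, aQ⟩ := ex_not m2.2
    obtain ⟨b, hb, bQ, ba⟩ := ex_ab m2.2 ha
    refine aQ (e.cent l1 c2 (BT ha) fun v hv => ?_)
    by_contra vn
    have vn' : v ∉ 𝐂(B) := fun c1 => vn (cent_le_cent1 ha c1)
    have k1 : ∀ a ∈ B, a ∉ Q → v * a * v⁻¹ = z * a := fun a ha aQ => by
      rcases hz _ (cAB (commutator_mem_commutator hv ha)) with c1 | c1
      · exact absurd (k a ha aQ v (l1 hv) (commutatorElement_eq_one_iff_mul_comm.1 c1).symm) vn'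
      · rw [← c1, commutatorElement_def]; group
    refine vn' (k _ (mul_mem hb ha) ba v (l1 hv) (mul_inv_eq_iff_eq_mul.1 ?_).symm)
    calc v * (b * a) * v⁻¹ = (v * b * v⁻¹) * (v * a * v⁻¹) := by group
      _ = z * (b * z) * a := by rw [k1 a ha aQ, k1 b hb bQ]; group
      _ = b * a := by rw [comm_of_el el1 hb zZ.2, ← mul_assoc, el1 z zZ.2, one_mul]
  have nZ : T ≤ 𝐍((Q ⊓ B : Subgroup G)) := ZT.trans (cent_le_norm _)
  have com : ⁅D, D⁆ ≤ Q ⊓ B := by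
    have hA : ⁅A, A⁆ ≤ Q ⊓ B := (comm_eq_bot_iff.2 (le_cent_of_el el0)).le.trans bot_le
    have hB : ⁅B, B⁆ ≤ Q ⊓ B := (comm_eq_bot_iff.2 (le_cent_of_el el1)).le.trans bot_le
    have nA := (l2.trans h.le).trans nZ
    have nB := BT.trans nZ
    rw [← eD]
    refine comm_sup_le nA nB ?_ ?_ <;> rw [commutator_comm]
    · exact comm_sup_le nA nB hA cAB
    · exact comm_sup_le nA nB (commutator_comm A B ▸ cAB) hB
  refine step4 xs cx hT h ta (Z := Q ⊓ B) (z := z) ⟨h.twoD, inf_le_right.trans BD, zZ, hz, z1,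
    ZD.trans (cent_le_cent1 zZ), fun d hd d' hd' => com (commutator_mem_commutator hd hd'),
    fun c hc cC => c0 c (e.cent l1 c2 (h.le hc) (l2.trans (mem_cent_iff_cent1.1 cC)))
      (cent_anti BD cC)⟩ (fun d hd => ?_) (ZT.trans (cent_le_cent1 zZ)) zZ.1
    fun c cQ cC => c0 c cQ (cent_anti BT cC)
  rw [← eD] at hd
  obtain ⟨a, ha, b, hb, rfl⟩ := (H1.mem_sup_iff_of_le_normalizer (l2.trans N1)).1 hd
  have := cAB (commutator_mem_commutator ha hb)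
  rwa [commutatorElement_def, inv_eq_of_mul_eq_one_right (el0 a ha),
    inv_eq_of_mul_eq_one_right (el1 b hb), mul_assoc (a * b)] at this

end A3

theorem a3' (xs : XSStmt.{u}) (cx : Cx G) {T Q D : Subgroup G} {y : G} (hT : IsSyl 2 T ⊤)
    (e : EC T Q) (h : Ty 3 T D y) (cen : 𝐂(D) ≤ D) : False :=
  A3.step3 xs cx hT e h (A3.step1 cx hT e h) (A3.step2 e h cen (A3.step1 cx hT e h))

theorem a3Stmt (xs : XSStmt.{u}) (f5 : FR5Stmt.{u}) (fa : FRAStmt.{u}) : A3Stmt.{u} :=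
  fun _ _ _ cx _ _ _ _ hT cen hQ h c => a3' xs cx hT (ec_of f5 fa cx.or6 cen hQ) h c

end Cfsg.Agent.P31
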