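/-
P31: an almost simple group with socle `A₅` is `A₅` or `S₅`.
-/
import Cfsg.Agent.P31.Defs
import Cfsg.Agent.H8.AltAut

set_option autoImplicit false
set_option linter.unusedSectionVars false

namespace Cfsg.Agent.P31

open Subgroup Cfsg Cfsg.Agent Cfsg.Agent.FT Equiv Equiv.Perm MulAction

universe u

namespace C5

/-- Conjugation by permutations. -/
abbrev ψ : Perm (Fin 5) →* MulAut A5 := MulAut.conjNormal

theorem ψ_inj : Function.Injective ψ := by
  rw [injective_iff_map_eq_one]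
  intro g hg
  have h3 : ∀ x : Perm (Fin 5), x * (swap 0 1 * swap 2 3) * x⁻¹ = swap 0 1 * swap 2 3 →
      x * (swap 0 1 * swap 2 4) * x⁻¹ = swap 0 1 * swap 2 4 →
      x * (swap 0 2 * swap 1 3) * x⁻¹ = swap 0 2 * swap 1 3 → x = 1 := by
    decide +kernel
  exact h3 g
    (congrArg Subtype.val (MulEquiv.congr_fun hg ⟨_, mem_alternatingGroup.2 (by decide)⟩))
    (congrArg Subtype.val (MulEquiv.congr_fun hg ⟨_, mem_alternatingGroup.2 (by decide)⟩))
    (congrArg Subtype.val (MulEquiv.congr_fun hg ⟨_, mem_alternatingGroup.2 (by decide)⟩))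

theorem mem_range (β : MulAut A5) : β ∈ ψ.range := by
  have h5 : 5 ≤ Nat.card (Fin 5) := by simp
  let t : A5 := ⟨swap 1 2 * swap 1 3, by simp⟩
  have ht : IsThreeCycle (t : Perm (Fin 5)) :=
    isThreeCycle_swap_mul_swap_same (by decide) (by decide) (by decide)
  have b3 : orderOf ((β t : A5) : Perm (Fin 5)) = 3 := by
    rw [orderOf_coe, MulEquiv.orderOf_eq, ← orderOf_coe, ht.orderOf]
  have h3 : IsThreeCycle ((β t : A5) : Perm (Fin 5)) := by
    have h1 := cycleType_of_pow_prime_eq_one (σ := ((β t : A5) : Perm (Fin 5))) (p := 3) (by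
      rw [← b3, pow_orderOf_eq_one])
    have h2 := sum_cycleType_le ((β t : A5) : Perm (Fin 5))
    rw [h1, Multiset.sum_replicate, smul_eq_mul, Fintype.card_fin] at h2
    have h4 : 0 < ((β t : A5) : Perm (Fin 5)).cycleType.card := by
      rw [card_cycleType_pos]
      intro e
      rw [e, orderOf_one] at b3
      omega
    change _ = _
    rw [h1, show ((β t : A5) : Perm (Fin 5)).cycleType.card = 1 by omega]; rfl
  have htr := alternatingGroup.isPretransitive_of_three_le_card (Fin 5) (by simp)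
  obtain ⟨ω, hω⟩ := H8.exists_fixed_of_index_eq h5
    ((stabilizer (alternatingGroup (Fin 5)) (0 : Fin 5)).map β.toMonoidHom) (by
      rw [← index_stabilizer_of_transitive (alternatingGroup (Fin 5)) (0 : Fin 5)]
      exact Subgroup.index_map_equiv _ β) ⟨t, show (t : Perm (Fin 5)) 0 = 0 by decide, rfl⟩ h3
  obtain ⟨σ, -, hσ⟩ := (H8.exists_perm_inducing_iff (alternatingGroup (Fin 5)) htr 0 β).2
    ⟨ω, fun g hg => hω _ ⟨g, hg, rfl⟩⟩
  exact ⟨σ, MulEquiv.ext fun g => Subtype.ext (hσ g).symm⟩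

end C5

theorem fin_s5' {G : Type*} [Group G] [Finite G] (M : Subgroup G) [M.Normal] (hC : 𝐂(M) = ⊥)
    (e : M ≃* alternatingGroup (Fin 5)) (h : M ≠ ⊤) : Nonempty (G ≃* Perm (Fin 5)) := by
  let φ : G →* MulAut A5 := (MulAut.congr e).toMonoidHom.comp MulAut.conjNormal
  have inj : Function.Injective φ := by
    rw [injective_iff_map_eq_one]
    intro g hg
    have h1 : (MulAut.conjNormal g : MulAut M) = 1 := (MulAut.congr e).injective
      (hg.trans (map_one _).symm)
    rw [← mem_bot, ← hC]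
    intro m hm
    have := congrArg Subtype.val (MulEquiv.congr_fun h1 ⟨m, hm⟩)
    rw [MulAut.conjNormal_apply, mul_inv_eq_iff_eq_mul] at this
    exact this.symm
  have hA : ∀ a : A5, φ (e.symm a : M) = C5.ψ a := fun a => MulEquiv.ext fun x => by
    simp only [φ, MulEquiv.toMonoidHom_eq_coe, MonoidHom.coe_comp, MonoidHom.coe_coe,
      Function.comp_apply, MulAut.conjNormal_val]
    simp
  obtain ⟨g, hg⟩ : ∃ g, g ∉ M := by
    by_contra! hc
    exact h (eq_top_iff.2 fun g _ => hc g)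
  obtain ⟨σ, hσ⟩ := C5.mem_range (φ g)
  have hs : σ ∉ alternatingGroup (Fin 5) := fun h =>
    hg (inj ((hA ⟨σ, h⟩).trans hσ) ▸ (e.symm ⟨σ, h⟩).2)
  have : φ.range = C5.ψ.range := by
    refine le_antisymm (fun β _ => C5.mem_range β) ?_
    rintro _ ⟨τ, rfl⟩
    by_cases h : τ ∈ alternatingGroup (Fin 5)
    · exact ⟨_, hA ⟨τ, h⟩⟩
    · have h1 : τ * σ ∈ alternatingGroup (Fin 5) :=
        (mul_mem_iff_of_index_two alternatingGroup.index_eq_two).2 (iff_of_false h hs)
      exact ⟨(e.symm ⟨_, h1⟩ : M) * g⁻¹, by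
        rw [map_mul, hA, map_inv, ← hσ, ← map_inv, ← map_mul, mul_inv_cancel_right]⟩
  exact ⟨(MonoidHom.ofInjective inj).trans
    ((MulEquiv.subgroupCongr this).trans (MonoidHom.ofInjective C5.ψ_inj).symm)⟩

theorem aut5Stmt : Aut5Stmt.{u} := fun _ _ _ S _ ⟨e⟩ hC h => fin_s5' S hC e h

end Cfsg.Agent.P31
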