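/-
P31, FinD: a normal 2-subgroup of a group with element orders at most 6 which contains a dihedral
group of order 10 is elementary abelian.
-/
import Cfsg.Agent.P4.Fpf
import Cfsg.Prelude.Def_Transfer

set_option autoImplicit false
set_option linter.unusedSectionVars false

namespace Cfsg.Agent.P31

open Subgroup Cfsg Cfsg.Agent Cfsg.Agent.FT
open scoped commutatorElement

universe u

namespace D9

variable {G : Type u} [Group G] [Finite G] (o6 : ∀ g : G, orderOf g ≤ 6) {K : Subgroup G}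
  (hK : IsPGroup 2 K)

theorem comm_of_sq {x y : G} (hx : x * x = 1) (hy : y * y = 1) (h : x * y * (x * y) = 1) :
    x * y = y * x := by
  calc x * y = (x * y)⁻¹ := (inv_eq_of_mul_eq_one_right h).symm
    _ = y * x := by rw [mul_inv_rev, inv_eq_of_mul_eq_one_right hx, inv_eq_of_mul_eq_one_right hy]

include o6 hK

theorem fpf {g : G} (hg : orderOf g = 5) : ∀ a ∈ K, Commute g a → a = 1 := fun a ha c => by
  obtain ⟨n, hn⟩ := hK ⟨a, ha⟩
  obtain ⟨j, -, hj⟩ := (Nat.dvd_prime_pow Nat.prime_two).1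
    (orderOf_dvd_of_pow_eq_one (show a ^ 2 ^ n = 1 from congrArg Subtype.val hn))
  have h1 := c.orderOf_mul_eq_mul_orderOf_of_coprime (by
    rw [hg, hj]; exact Nat.Coprime.pow_right j (by norm_num))
  have h2 := o6 (g * a)
  have h3 := orderOf_pos a
  rw [hg] at h1
  clear hj
  exact orderOf_eq_one_iff.1 (by omega)

theorem sq4 [n : K.Normal] {t k : G} (ht : t * t = 1) (hk : k ∈ K) :
    k * (t * k * t) * (k * (t * k * t)) = 1 := by
  have h1 : k * (t * k * t) ∈ K := by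
    have := mul_mem hk (n.conj_mem k hk t)
    rwa [inv_eq_of_mul_eq_one_right ht] at this
  obtain ⟨m, hm⟩ := hK ⟨_, h1⟩
  have h2 : (k * t) ^ 2 = k * (t * k * t) := by rw [sq]; group
  have h3 : (k * t) ^ 2 ^ (m + 1) = 1 := by
    rw [pow_succ', pow_mul, h2]; exact congrArg Subtype.val hm
  obtain ⟨j, -, hj⟩ := (Nat.dvd_prime_pow Nat.prime_two).1 (orderOf_dvd_of_pow_eq_one h3)
  have h4 : j ≤ 2 := by
    by_contra e
    have := Nat.pow_le_pow_right two_pos (show 3 ≤ j by omega)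
    have := o6 (k * t)
    omega
  rw [← h2, ← pow_add]
  exact orderOf_dvd_iff_pow_eq_one.1 (hj ▸ Nat.pow_dvd_pow 2 h4)

theorem ab [n : K.Normal] {f t : G} (hf : orderOf f = 5) (ht : t * t = 1) (hi : t * f * t = f⁻¹)
    (hc : ∀ a ∈ K, ∀ b ∈ K, a * b = b * a) : ∀ a ∈ K, a * a = 1 := fun a ha => by
  have key : ∀ s : G, s * s = 1 → s * (a * a) * s = (a * a)⁻¹ := fun s hs => by
    have h1 := sq4 o6 hK hs ha
    have h2 : s * a * s ∈ K := by
      have := n.conj_mem a ha s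
      rwa [inv_eq_of_mul_eq_one_right hs] at this
    refine eq_inv_of_mul_eq_one_right ?_
    calc a * a * (s * (a * a) * s) = a * a * (s * a * (s * s) * a * s) := by rw [hs]; group
      _ = a * (a * (s * a * s)) * (s * a * s) := by group
      _ = 1 := by rw [hc a ha _ h2, ← h1]; group
  have h1 : t * f * (t * f) = 1 := by rw [← mul_assoc, hi, inv_mul_cancel]
  have h2 := key _ h1
  rw [← key t ht] at h2
  refine fpf o6 hK hf _ (mul_mem ha ha) ?_
  have h3 : t * f = f⁻¹ * t := by rw [← hi, mul_assoc (t * f), ht, mul_one]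
  nth_rw 2 [h3] at h2
  have h4 : f * (a * a) * f⁻¹ = a * a := by
    calc f * (a * a) * f⁻¹ = t⁻¹ * (t * f * (a * a) * (f⁻¹ * t)) * t⁻¹ := by group
      _ = a * a := by rw [h2]; group
  exact mul_inv_eq_iff_eq_mul.1 h4

theorem cls [n : K.Normal] {f t : G} (hf : orderOf f = 5) (ht : t * t = 1) (hi : t * f * t = f⁻¹)
    (U : Subgroup G) [U.Normal] (UK : U ≤ K) (Uc : ∀ u ∈ U, ∀ a ∈ K, a * u = u * a)
    (U2 : ∀ u ∈ U, u * u = 1) (hc : ∀ a ∈ K, ∀ b ∈ K, ⁅a, b⁆ ∈ U) :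
    ∀ a ∈ K, ∀ b ∈ K, a * b = b * a := by
  set π := QuotientGroup.mk' U with hπ
  have ti : t⁻¹ = t := inv_eq_of_mul_eq_one_right ht
  have cK : ∀ g, ∀ a ∈ K, g * a * g⁻¹ ∈ K := fun g a ha => n.conj_mem a ha g
  have cK' : ∀ g, ∀ a ∈ K, g⁻¹ * a * g ∈ K := fun g a ha => by simpa using cK g⁻¹ a ha
  have tK : ∀ a ∈ K, t * a * t ∈ K := fun a ha => by simpa [ti] using cK t a ha
  have pc : ∀ a ∈ K, ∀ b ∈ K, π a * π b = π b * π a := fun a ha b hb => by
    rw [← commutatorElement_eq_one_iff_mul_comm, ← map_commutatorElement]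
    exact (QuotientGroup.eq_one_iff _).2 (hc a ha b hb)
  have p4 : ∀ a ∈ K, ∀ b ∈ K, ∀ c d : G, π (c * a * (b * d)) = π (c * b * (a * d)) :=
    fun a ha b hb c d => by
      simp only [map_mul]
      calc _ = π c * (π a * π b) * π d := by group
        _ = _ := by rw [pc a ha b hb]; group
  let W : Set G := {x | x ∈ K ∧ ∃ k ∈ K, π (k * (t * k * t)) = π x}
  have W2 : ∀ x ∈ W, x * x = 1 := by
    rintro x ⟨hx, k, hk, e⟩
    obtain ⟨u, hu, rfl⟩ := (QuotientGroup.mk'_eq_mk' U).1 e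
    have h1 := mul_mem hk (tK k hk)
    calc _ = k * (t * k * t) * (u * (k * (t * k * t))) * u := by group
      _ = k * (t * k * t) * (k * (t * k * t)) * (u * u) := by rw [← Uc u hu _ h1]; group
      _ = 1 := by rw [sq4 o6 hK ht hk, U2 u hu, one_mul]
  have tm : ∀ a b : G, t * (a * b) * t = t * a * t * (t * b * t) := fun a b => by
    calc _ = t * a * (t * t) * b * t := by rw [ht]; group
      _ = _ := by group
  have Wm : ∀ x ∈ W, ∀ y ∈ W, x * y ∈ W := by
    rintro x ⟨hx, k, hk, e⟩ y ⟨hy, l, hl, e'⟩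
    refine ⟨mul_mem hx hy, k * l, mul_mem hk hl, ?_⟩
    rw [map_mul π x, ← e, ← e', ← map_mul, tm, p4 l hl _ (tK k hk)]
  have Wc : ∀ x ∈ W, ∀ y ∈ W, x * y = y * x := fun x hx y hy =>
    comm_of_sq (W2 x hx) (W2 y hy) (W2 _ (Wm x hx y hy))
  have tf : t * f = f⁻¹ * t := by rw [← hi, mul_assoc (t * f), ht, mul_one]
  have tf' : t * f⁻¹ = f * t := by
    calc t * f⁻¹ = f * (f⁻¹ * t) * f⁻¹ := by group
      _ = f * t := by rw [← tf]; group
  have Wf : ∀ x ∈ W, f * x * f⁻¹ * (f⁻¹ * x * f) ∈ W := by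
    rintro x ⟨hx, k, hk, e⟩
    refine ⟨mul_mem (cK f x hx) (cK' f x hx), f * k * f⁻¹ * (f⁻¹ * k * f),
      mul_mem (cK f k hk) (cK' f k hk), ?_⟩
    have e1 : t * (f * k * f⁻¹) * t = f⁻¹ * (t * k * t) * f := by
      calc _ = (t * f) * k * (f⁻¹ * t) := by group
        _ = (f⁻¹ * t) * k * (t * f) := by rw [← tf]
        _ = _ := by group
    have e2 : t * (f⁻¹ * k * f) * t = f * (t * k * t) * f⁻¹ := by
      calc _ = (t * f⁻¹) * k * (f * t) := by group
        _ = (f * t) * k * (t * f⁻¹) := by rw [← tf']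
        _ = _ := by group
    have e3 : π (f * x * f⁻¹ * (f⁻¹ * x * f)) =
        π (f * (k * (t * k * t)) * f⁻¹ * (f⁻¹ * (k * (t * k * t)) * f)) := by
      simp only [map_mul π _ x, map_mul π (f * x), map_mul π (f * x * f⁻¹), map_mul π (f⁻¹ * x),
        ← e]
      simp only [map_mul]
    rw [e3, tm, e1, e2]
    have a1 := cK' f k hk
    have a2 := cK' f _ (tK k hk)
    have a3 := cK f _ (tK k hk)
    calc _ = π (f * k * f⁻¹ * ((f⁻¹ * k * f) * (f⁻¹ * (t * k * t) * f)) *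
          (f * (t * k * t) * f⁻¹ * 1)) := by congr 1; group
      _ = _ := by rw [p4 _ (mul_mem a1 a2) _ a3]; congr 1; group
  have sym : ∀ a ∈ K, ∀ b ∈ K, ⁅a, b⁆ = ⁅b, a⁆ := fun a ha b hb => by
    rw [← commutatorElement_inv b a, inv_eq_of_mul_eq_one_right (U2 _ (hc b hb a ha))]
  have B1 : ∀ x ∈ W, ∀ y ∈ W, ⁅x, f * y * f⁻¹⁆ = f⁻¹ * ⁅y, f * x * f⁻¹⁆ * f := fun x hx y hy => by
    have h1 := Wc x hx _ (Wf y hy)
    have a1 := cK f y hy.1
    have a2 := cK' f y hy.1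
    have h2 : ⁅x, f * y * f⁻¹⁆ = ⁅f⁻¹ * y * f, x⁆ := by
      generalize f * y * f⁻¹ = a at *
      generalize f⁻¹ * y * f = b at *
      have h3 := Uc _ (hc b a2 x hx.1) a a1
      calc ⁅x, a⁆ = (x * (a * b)) * b⁻¹ * x⁻¹ * a⁻¹ := by group
        _ = (a * ⁅b, x⁆) * (x * b) * b⁻¹ * x⁻¹ * a⁻¹ := by rw [h1]; group
        _ = ⁅b, x⁆ := by rw [h3]; group
    rw [h2]; group
  have f2 : orderOf (f * f) = 5 := by
    rw [← sq, orderOf_pow' _ two_ne_zero, hf]; rfl
  have B0 : ∀ x ∈ W, ∀ y ∈ W, x * (f * y * f⁻¹) = f * y * f⁻¹ * x := fun x hx y hy => by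
    refine commutatorElement_eq_one_iff_mul_comm.1
      (fpf o6 hK f2 _ (UK (hc _ hx.1 _ (cK f y hy.1))) ?_)
    have h1 := B1 x hx y hy
    rw [B1 y hy x hx] at h1
    generalize ⁅x, f * y * f⁻¹⁆ = c at h1
    calc f * f * c = f * f * (f⁻¹ * (f⁻¹ * c * f) * f) := by rw [← h1]
      _ = c * (f * f) := by group
  have dec : ∀ a ∈ K, ∃ x ∈ W, ∃ y ∈ W, a = x * (f * y * f⁻¹) := fun a ha => by
    obtain ⟨m, hm, rfl⟩ := P4.fpf_surj (D := K) (x := f * f) (le_normalizer_of_normal (mem_top _))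
      (fpf o6 hK f2) ha
    have hk := tK m hm
    have e : t * (t * m * t) * t = m := by
      calc _ = (t * t) * m * (t * t) := by group
        _ = m := by rw [ht]; group
    have hx : t * m * t * m ∈ W := ⟨mul_mem hk hm, _, hk, by rw [e]⟩
    have hl := cK' f _ hk
    refine ⟨_, hx, _, ⟨mul_mem hl (tK _ hl), _, hl, rfl⟩, ?_⟩
    rw [← inv_eq_of_mul_eq_one_right (W2 _ hx)]
    have e2 : t * (f⁻¹ * (t * m * t) * f) * t = f * m * f⁻¹ := by
      calc _ = (t * f⁻¹) * (t * m * t) * (f * t) := by group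
        _ = (f * t) * (t * m * t) * (t * f⁻¹) := by rw [← tf']
        _ = f * (t * (t * m * t) * t) * f⁻¹ := by group
        _ = _ := by rw [e]
    rw [e2]; group
  intro a ha b hb
  obtain ⟨x, hx, y, hy, rfl⟩ := dec a ha
  obtain ⟨x', hx', y', hy', rfl⟩ := dec b hb
  have c1 : Commute x x' := Wc x hx x' hx'
  have c2 : Commute x (f * y' * f⁻¹) := B0 x hx y' hy'
  have c3 : Commute x' (f * y * f⁻¹) := B0 x' hx' y hy
  have c4 : Commute (f * y * f⁻¹) (f * y' * f⁻¹) := by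
    calc f * y * f⁻¹ * (f * y' * f⁻¹) = f * (y * y') * f⁻¹ := by group
      _ = _ := by rw [Wc y hy y' hy']; group
  exact ((c1.mul_right c2).mul_left (c3.symm.mul_right c4)).eq

omit o6 hK in
theorem main (G : Type u) [Group G] [Finite G] : (∀ g : G, orderOf g ≤ 6) → ∀ (K : Subgroup G)
    [K.Normal], IsPGroup 2 K → ∀ f t : G, orderOf f = 5 → t * t = 1 → t * f * t = f⁻¹ →
    ∀ a ∈ K, a * a = 1 := by
  refine L.induction_on_card (P := fun G _ _ => (∀ g : G, orderOf g ≤ 6) → ∀ (K : Subgroup G)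
    [K.Normal], IsPGroup 2 K → ∀ f t : G, orderOf f = 5 → t * t = 1 → t * f * t = f⁻¹ →
    ∀ a ∈ K, a * a = 1) G ?_
  intro G _ _ ih o6 K n hK f t hf ht hi
  by_cases h0 : K = ⊥
  · intro a ha; rw [h0, mem_bot] at ha; simp [ha]
  let U : Subgroup G :=
    { carrier := {u | u ∈ K ∧ (∀ a ∈ K, a * u = u * a) ∧ u * u = 1}
      one_mem' := ⟨one_mem _, by simp, by simp⟩
      mul_mem' := by
        rintro u v ⟨h1, h2, h3⟩ ⟨h4, h5, h6⟩
        refine ⟨mul_mem h1 h4, fun a ha => by rw [← mul_assoc, h2 a ha, mul_assoc, h5 a ha, mul_assoc],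
          ?_⟩
        calc u * v * (u * v) = u * (v * u) * v := by group
          _ = (u * u) * (v * v) := by rw [h2 v h4]; group
          _ = 1 := by rw [h3, h6, one_mul]
      inv_mem' := by
        rintro u ⟨h1, h2, h3⟩
        rw [Set.mem_setOf_eq, inv_eq_of_mul_eq_one_right h3]
        exact ⟨h1, h2, h3⟩ }
  haveI : U.Normal := ⟨by
    rintro u ⟨h1, h2, h3⟩ g
    refine ⟨n.conj_mem u h1 g, fun a ha => ?_, ?_⟩
    · have := h2 _ (n.conj_mem a ha g⁻¹)
      calc a * (g * u * g⁻¹) = g * (g⁻¹ * a * g⁻¹⁻¹ * u) * g⁻¹ := by group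
        _ = _ := by rw [this]; group
    · calc g * u * g⁻¹ * (g * u * g⁻¹) = g * (u * u) * g⁻¹ := by group
        _ = 1 := by rw [h3]; group⟩
  have U1 : U ≠ ⊥ := by
    obtain ⟨z, h1, h2, h3, h4⟩ := P4.exists_invol_center hK ⟨le_rfl, le_normalizer⟩ h0
    exact fun e => h3 (mem_bot.1 (e.le ⟨h1, mem_centralizer_iff.1 h2, h4⟩))
  set π := QuotientGroup.mk' U
  haveI := n.map π (QuotientGroup.mk'_surjective U)
  haveI := Fact.mk Nat.prime_five
  have h1 := ih (G ⧸ U) (L.card_quotient_lt U U1) (fun g => by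
      obtain ⟨g, rfl⟩ := QuotientGroup.mk'_surjective U g
      exact (Nat.le_of_dvd (orderOf_pos g) (orderOf_map_dvd _ g)).trans (o6 g))
    (K.map π) (hK.map π) (π f) (π t) (orderOf_eq_prime (by
      rw [← map_pow, ← hf, pow_orderOf_eq_one, map_one]) fun e => by
        have h2 := orderOf_dvd_of_pow_eq_one ((sq f).trans ((QuotientGroup.eq_one_iff f).1 e).2.2)
        rw [hf] at h2; omega)
    (by rw [← map_mul, ht, map_one]) (by rw [← map_mul, ← map_mul, hi, map_inv])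
  refine ab o6 hK hf ht hi (cls o6 hK hf ht hi U (fun _ h => h.1) (fun _ h => h.2.1)
    (fun _ h => h.2.2) fun a ha b hb => (QuotientGroup.eq_one_iff _).1 ?_)
  change π _ = 1
  rw [map_commutatorElement, commutatorElement_eq_one_iff_mul_comm]
  exact comm_of_sq (h1 _ (mem_map_of_mem π ha)) (h1 _ (mem_map_of_mem π hb))
    (map_mul π a b ▸ h1 _ (mem_map_of_mem π (mul_mem ha hb)))

end D9

theorem fin_d10 {G : Type u} [Group G] [Finite G] (o6 : ∀ g : G, orderOf g ≤ 6) (K : Subgroup G)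
    [K.Normal] (hK : IsPGroup 2 K) {f t : G} (hf : orderOf f = 5) (ht : t * t = 1)
    (hi : t * f * t = f⁻¹) : IsElementaryAbelian 2 K := by
  have h := D9.main G o6 K hK f t hf ht hi
  exact ⟨⟨⟨fun a b => Subtype.ext (D9.comm_of_sq (h a a.2) (h b b.2) (h _ (mul_mem a.2 b.2)))⟩⟩,
    fun a ha => (sq a).trans (h a ha)⟩

end Cfsg.Agent.P31
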