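import Cfsg.Agent.P31.XS
import Cfsg.Agent.P31.FinD
import Cfsg.Agent.H2.SL23

/-! S4007: free action on elementary cores. -/

set_option autoImplicit false
set_option linter.unusedSectionVars false

namespace Cfsg.Agent.P31

open Subgroup Cfsg Cfsg.Agent Cfsg.Agent.FT Cfsg.Agent.P6
open scoped commutatorElement

universe u

namespace X6

variable {G : Type u} [Group G] [Finite G]

theorem El.cent {D : Subgroup G} (h : El D) : D ≤ 𝐂(D) := fun a ha => mem_cent.2 fun b hb =>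
  D9.comm_of_sq (h b hb) (h a ha) (h _ (mul_mem hb ha))

theorem El.two {D : Subgroup G} (h : El D) : IsPGroup 2 D := fun d =>
  ⟨1, Subtype.ext (by simpa [pow_two] using h d d.2)⟩

theorem card16 (h6 : Or6 G) {D : Subgroup G} (h2 : IsPGroup 2 D) (h0 : D ≠ ⊥) {y : G}
    (hy : orderOf y = 5) (hn : y ∈ 𝐍(D)) : ∃ k, 0 < k ∧ 𝐨(D) = 16 ^ k := by
  haveI : Fact (Nat.Prime 2) := ⟨Nat.prime_two⟩
  haveI : Fact (Nat.Prime 5) := ⟨by norm_num⟩
  have h := H2.card_modEq_card_inf_centralizer (p := 5) (P := zpowers y) (N := D)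
    (IsPGroup.of_card (n := 1) (by rw [Nat.card_zpowers, hy, pow_one])) (zpowers_le.2 hn)
  rw [cent_zpowers, show D ⊓ 𝐂[y] = ⊥ from eq_bot_iff.2 fun a ha =>
    D9.fpf h6 h2 hy a ha.1 (mem_cent1_iff_commute.1 ha.2), card_bot] at h
  obtain ⟨n, e⟩ := h2.exists_card_eq
  have n0 : n ≠ 0 := fun c => h0 (card_eq_one.1 (by rw [e, c, pow_zero]))
  rw [e, ← Nat.div_add_mod n 4, pow_add, pow_mul] at h
  have h16 : (2 ^ 4) ^ (n / 4) ≡ 1 [MOD 5] := by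
    simpa using Nat.ModEq.pow (n / 4) (show 2 ^ 4 ≡ 1 [MOD 5] by decide)
  have h3 := ((h16.mul_right (2 ^ (n % 4))).symm.trans h)
  have h4 : n % 4 = 0 := by
    have : n % 4 < 4 := Nat.mod_lt _ (by norm_num)
    generalize n % 4 = r at h3 this
    interval_cases r <;> simp_all [Nat.ModEq]
  exact ⟨n / 4, by omega, by rw [e, show (16 : ℕ) = 2 ^ 4 by norm_num, ← pow_mul]; congr 1; omega⟩

theorem card_le_sq {D : Subgroup G} (el : El D) {t : G} (tn : t ∈ 𝐍(D)) (tt : t * t ∈ 𝐂(D)) :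
    𝐨(D) ≤ 𝐨(D ⊓ 𝐂[t]) ^ 2 := by
  let φ : D →* (D ⊓ 𝐂[t] : Subgroup G) := MonoidHom.mk' (fun d => ⟨d * (t * d * t⁻¹),
    mul_mem d.2 (cj tn d.2), mem_cent1_comm.1 (mem_cent1_iff_conj.2 (by
      calc _ = t * d * t⁻¹ * (t * t * d * (t * t)⁻¹) := by group
        _ = _ := by
          rw [← mem_cent.1 tt _ d.2, mul_inv_cancel_right, mem_cent.1 (El.cent el d.2) _ (cj tn d.2)]))⟩)
    fun a b => Subtype.ext (by
      have := mem_cent.1 (El.cent el b.2) _ (cj tn a.2)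
      change (a : G) * b * (t * (a * b) * t⁻¹) = a * (t * a * t⁻¹) * (b * (t * b * t⁻¹))
      calc _ = (a : G) * (b * (t * a * t⁻¹)) * (t * b * t⁻¹) := by group
        _ = _ := by rw [← this]; group)
  have h1 : Nat.card φ.ker ≤ 𝐨(D ⊓ 𝐂[t]) := by
    refine Nat.card_le_card_of_injective 
      (fun k => ⟨k.1.1, k.1.2, mem_cent1_comm.1 (mem_cent1_iff_conj.2 ?_)⟩)
      fun a b e => Subtype.ext (Subtype.ext (congrArg (fun w : (D ⊓ 𝐂[t] : Subgroup G) => w.1) e))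
    have : (k.1.1 : G) * (t * k.1.1 * t⁻¹) = 1 := congrArg Subtype.val k.2
    rw [← inv_eq_of_mul_eq_one_right this, inv_eq_of_mul_eq_one_right (el _ k.1.2)]
  have h2 : Nat.card φ.range ≤ 𝐨(D ⊓ 𝐂[t]) :=
    Nat.card_le_card_of_injective _ Subtype.val_injective
  rw [← φ.ker.card_mul_index, index_ker, pow_two]
  exact Nat.mul_le_mul h1 h2

theorem free (h6 : Or6 G) {D : Subgroup G} (el : El D) {t y : G} (tn : t ∈ 𝐍(D))
    (tt : t * t ∈ D) (hy : orderOf y = 5) (hn : y ∈ 𝐍(D)) (hi : t * y * t⁻¹ * y ∈ D) :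
    𝐨(D ⊓ 𝐂[t]) ^ 2 = 𝐨(D) := by
  refine le_antisymm ?_ (card_le_sq el tn (El.cent el tt))
  have e : D ⊓ 𝐂[y * t * y⁻¹] = (D ⊓ 𝐂[t]) ^ᵍ y := by
    rw [conj_inf, conj_eq_of_mem_norm hn, cent1_conj]
  have h1 := card_sup_mul_card_inf (A := D ⊓ 𝐂[t]) (B := D ⊓ 𝐂[y * t * y⁻¹])
    (inf_le_left.trans ((El.cent el).trans ((cent_anti inf_le_left).trans (cent_le_norm _))))
  have h2 : D ⊓ 𝐂[t] ⊓ (D ⊓ 𝐂[y * t * y⁻¹]) = ⊥ := eq_bot_iff.2 fun c hc => by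
    refine D9.fpf h6 (El.two el) (g := y ^ 2) (by rw [orderOf_pow, hy]; norm_num) c hc.1.1
      (mem_cent1_iff_commute.1 ?_).symm
    have := mul_mem (mul_mem (mem_cent1_comm.1 hc.2.2) (inv_mem (mem_cent1_comm.1 hc.1.2)))
      (cent_le_cent1 hc.1.1 (El.cent el hi))
    rwa [show y * t * y⁻¹ * t⁻¹ * (t * y * t⁻¹ * y) = y ^ 2 by rw [pow_two]; group] at this
  rw [h2, card_bot, mul_one, e, card_conj, ← pow_two, ← e] at h1
  rw [← h1]
  exact card_le_of_le (sup_le inf_le_left inf_le_left)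

theorem Ty.sq {p : ℕ} {T D : Subgroup G} {y : G} (h : Ty p T D y) {a b : G} (ha : a ∈ T)
    (hb : b ∈ T) (na : a ∉ D) (nb : b ∉ D) : a * b ∈ D :=
  mem_subgroupOf.1 ((mul_mem_iff_of_index_two (H := D.subgroupOf T) h.idx (a := ⟨a, ha⟩)
    (b := ⟨b, hb⟩)).2 (iff_of_false na nb))

theorem Ty.nT {p : ℕ} {T D : Subgroup G} {y : G} (h : Ty p T D y) : T ≤ 𝐍(D) :=
  (normal_subgroupOf_iff_le_normalizer h.le).1 (normal_of_index_eq_two h.idx)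

theorem a5_inv0 (t : Equiv.Perm (Fin 5)) : Equiv.Perm.sign t = 1 → t * t = 1 → t ≠ 1 →
    ∃ y : Equiv.Perm (Fin 5), Equiv.Perm.sign y = 1 ∧ y ^ 5 = 1 ∧ y ≠ 1 ∧ t * y * t⁻¹ * y = 1 := by
  revert t; decide +kernel

theorem a5_inv (t : A5) (tt : t * t = 1) (t1 : t ≠ 1) :
    ∃ y : A5, y ^ 5 = 1 ∧ y ≠ 1 ∧ t * y * t⁻¹ * y = 1 := by
  obtain ⟨y, h1, h2, h3, h4⟩ := a5_inv0 t t.2 (congrArg Subtype.val tt) fun e => t1 (Subtype.ext e)
  exact ⟨⟨y, h1⟩, Subtype.ext h2, fun e => h3 (congrArg Subtype.val e), Subtype.ext h4⟩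

theorem exists_five (h6 : Or6 G) {T D L : Subgroup G} (h : TyA T D L) {t : G} (ht : t ∈ T)
    (nt : t ∉ D) : t * t ∈ D ∧ ∃ y ∈ L, orderOf y = 5 ∧ t * y * t⁻¹ * y ∈ D := by
  haveI : Fact (Nat.Prime 5) := ⟨by norm_num⟩
  obtain ⟨f, sj, k⟩ := h.iso
  have t1 : f ⟨t, h.leL ht⟩ ≠ 1 := fun e => nt ((k _).1 e)
  have t4 : f ⟨t, h.leL ht⟩ ^ 4 = 1 := by
    rw [← map_pow, ← map_one f]; exact congrArg f (Subtype.ext (h6.pow4 h.two ht))
  have t2 : f ⟨t, h.leL ht⟩ * f ⟨t, h.leL ht⟩ = 1 := by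
    rcases a5_pow (f ⟨t, h.leL ht⟩) with e | e | e
    · rwa [← pow_two]
    · exact absurd (eq_one_of e t4 (by norm_num)) t1
    · exact absurd (eq_one_of e t4 (by norm_num)) t1
  obtain ⟨y, y5, y1, yi⟩ := a5_inv _ t2 t1
  obtain ⟨y, rfl⟩ := sj y
  have e6 : f (y ^ 6) = f y := by rw [map_pow, pow_succ, y5, one_mul]
  refine ⟨(k (⟨t, h.leL ht⟩ * ⟨t, h.leL ht⟩)).1 (by rw [map_mul, t2]), (y ^ 6 : L), (y ^ 6).2,
    orderOf_eq_prime ?_ fun e => y1 ?_,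
    (k (⟨t, h.leL ht⟩ * y ^ 6 * ⟨t, h.leL ht⟩⁻¹ * y ^ 6)).1 (by
      rw [map_mul, map_mul, map_mul, map_inv, e6, yi])⟩
  · have := h.el _ ((k (y ^ 5)).1 (by rw [map_pow, y5]))
    rw [Subgroup.coe_pow, ← pow_add] at this
    rw [Subgroup.coe_pow, ← pow_mul, show 6 * 5 = (5 + 5) * 3 by norm_num, pow_mul, this, one_pow]
  · rw [← e6, ← map_one f]; exact congrArg f (Subtype.ext e)

end X6

open X6

theorem fr5Stmt : FR5Stmt.{u} := fun _ _ _ h6 _ _ _ t el =>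
  ⟨card16 h6 (El.two el) (fun e => t.ncen (e.le.trans bot_le)) t.ord t.nrm, fun _ hu nu =>
    free h6 el (Ty.nT t hu) (Ty.sq t hu hu nu nu) t.ord t.nrm (t.inv _ hu nu)⟩

theorem fraStmt : FRAStmt.{u} := fun _ _ _ h6 T D L h h0 => by
  refine ⟨?_, fun t ht nt => ?_⟩
  · obtain ⟨t, ht, nt⟩ := SetLike.not_le_iff_exists.1 fun e : T ≤ D => by
      have := h.idx
      rw [relIndex_eq_one.2 e] at this
      omega
    obtain ⟨-, y, hy, y5, -⟩ := exists_five h6 h ht nt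
    exact card16 h6 (El.two h.el) h0 y5 (h.nrm hy)
  · obtain ⟨tt, y, hy, y5, yi⟩ := exists_five h6 h ht nt
    exact free h6 h.el (h.nrm (h.leL ht)) tt y5 (h.nrm hy) yi

end Cfsg.Agent.P31
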