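import Cfsg.Agent.P31.Defs
import Cfsg.Agent.P31.AN
import Cfsg.Agent.H2.Amal4

/-!
Basic facts on types of order 3; the noncentral amalgam statement.
-/

set_option autoImplicit false
set_option linter.unusedSectionVars false

namespace Cfsg.Agent.P31

open Subgroup Cfsg Cfsg.Agent Cfsg.Agent.FT H1 H2
open Cfsg.Agent.H2.AM (oz mul_mem_iff_two mul_mem_two conj_zpowers_le)
open scoped commutatorElement Pointwise

universe u

variable {G : Type u} [Group G] [Finite G]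

theorem norm_of_idx2 {D T : Subgroup G} (h0 : D ≤ T) (hi : D.relIndex T = 2) : T ≤ 𝐍(D) :=
  fun t ht => mem_normalizer_of_conj_smul_le (conj_smul_le_iff.2 fun d hd => mem_conj_smul.2 (by
    rw [inv_inv, mul_mem_iff_two hi (mul_mem ht (h0 hd)) (inv_mem ht), inv_mem_iff,
      Subgroup.mul_mem_cancel_right _ hd]))

theorem notMem_of_ord3 {T : Subgroup G} (hT : IsPGroup 2 T) {y : G} (hy : orderOf y = 3) :
    y ∉ T := fun e => by
  obtain ⟨k, hk⟩ := hT ⟨y, e⟩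
  have e1 : y ^ 2 ^ k = 1 := by simpa using congrArg Subtype.val hk
  have := orderOf_dvd_of_pow_eq_one e1
  rw [hy] at this
  exact absurd (Nat.Prime.dvd_of_dvd_pow Nat.prime_three this) (by norm_num)

namespace Ty

variable {T D : Subgroup G} {y : G} (h : Ty 3 T D y)
include h

theorem y3 : y ^ 3 = 1 := h.ord ▸ pow_orderOf_eq_one y

theorem y3' : y * y * y = 1 := by rw [← pow_three', h.y3]

theorem yT : y ∉ T := notMem_of_ord3 h.two h.ord

theorem normD : T ≤ 𝐍(D) := norm_of_idx2 h.le h.idx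

theorem normP : T ⊔ zpowers y ≤ 𝐍(D) := sup_le h.normD (zpowers_le.2 h.nrm)

theorem ne_bot : D ≠ ⊥ := fun e => h.ncen (e ▸ bot_le)

theorem exists_u : ∃ u ∈ T, u ∉ D := SetLike.not_le_iff_exists.1 fun e => by
  have := h.idx
  rw [relIndex_eq_one.2 e] at this
  exact absurd this (by norm_num)

theorem normK : T ≤ 𝐍((zpowers y ⊔ D : Subgroup G)) := by
  obtain ⟨u, hu, hu'⟩ := h.exists_u
  rw [← sup_zpowers_eq_of_relIndex_prime Nat.prime_two h.le h.idx hu hu']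
  refine sup_le (le_sup_right.trans le_normalizer) (zpowers_le.2
    (mem_normalizer_of_conj_smul_le ?_))
  rw [smul_sup, mem_normalizer_iff_conj_smul.1 (h.normD hu)]
  refine sup_le (conj_zpowers_le.2 ?_) le_sup_right
  have := mul_mem (mem_sup_right (h.inv u hu hu') : _ ∈ zpowers y ⊔ D)
    (mem_sup_left (inv_mem (mem_zpowers y)))
  rwa [mul_inv_cancel_right] at this

theorem iK : D.relIndex (zpowers y ⊔ D) = 3 := by
  rw [relIndex_sup_of_le_normalizer (zpowers_le.2 h.nrm)]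
  refine (Nat.prime_three.eq_one_or_self_of_dvd _ ((relIndex_dvd_card _ _).trans ?_)).resolve_left
    fun c => h.yT (h.le (relIndex_eq_one.1 c (mem_zpowers y)))
  rw [Nat.card_zpowers, h.ord]

theorem i3 : T.relIndex (T ⊔ zpowers y) = 3 := by
  have e1 : T ⊔ zpowers y = T ⊔ (zpowers y ⊔ D) := by
    rw [← sup_assoc, sup_right_comm, sup_eq_left.2 h.le]
  have c1 := card_sup_eq_mul_relIndex h.normK
  rw [← e1, ← card_mul_relIndex (le_sup_left : T ≤ T ⊔ zpowers y), ← inf_relIndex_right T (_ ⊔ D),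
    eq_of_relIndex_prime Nat.prime_three (le_inf h.le le_sup_right) inf_le_right h.iK fun c =>
      h.yT ((le_sup_left.trans (c.trans inf_le_left)) (mem_zpowers y)), h.iK] at c1
  exact Nat.eq_of_mul_eq_mul_left Nat.card_pos c1

theorem yN : y ∉ 𝐍(T) := fun c => h.yT (by
  obtain ⟨u, hu, hu'⟩ := h.exists_u
  have h1 := conj_mem_of_le_normalizer le_rfl c (inv_mem hu)
  have h2 := mul_mem (inv_mem (mul_mem hu h1)) (h.le (h.inv u hu hu'))
  have h3 := mul_mem h2 h2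
  rwa [show (u * (y * u⁻¹ * y⁻¹))⁻¹ * (u * y * u⁻¹ * y) * ((u * (y * u⁻¹ * y⁻¹))⁻¹ *
    (u * y * u⁻¹ * y)) = y * y * y * y by group, h.y3', one_mul] at h3)

theorem nB : ¬ T ⊔ zpowers y ≤ 𝐍(T) := fun c => h.yN (c (mem_sup_right (mem_zpowers y)))

theorem core : pCoreOf 2 (T ⊔ zpowers y) = D :=
  eq_of_relIndex_prime Nat.prime_two
    ((SnIn.of_normal (h.le.trans le_sup_left) h.normP).le_pCoreOf (h.two.to_le h.le))
    (pCoreOf_le_of_sylow le_sup_left h.two (by rw [h.i3]; norm_num)) h.idx fun c => h.nB (by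
      rw [le_antisymm c (pCoreOf_le_of_sylow le_sup_left h.two (by rw [h.i3]; norm_num))]
      nth_rewrite 1 [← le_antisymm c (pCoreOf_le_of_sylow le_sup_left h.two
        (by rw [h.i3]; norm_num))]
      exact le_normalizer_pCoreOf 2 _)

/-- A normal `2`-subgroup of `⟨T, y⟩` lies in `D`. -/
theorem le_D {N : Subgroup G} (h1 : N ≤ T) (h2 : T ≤ 𝐍(N)) (h3 : y ∈ 𝐍(N)) : N ≤ D :=
  h.core ▸ (SnIn.of_normal (h1.trans le_sup_left) (sup_le h2 (zpowers_le.2 h3))).le_pCoreOf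
    (h.two.to_le h1)

/-- If `d * y` centralizes `D` with `d ∈ D`, contradiction. -/
theorem not_cen_mul (h6 : Or6 G) {d : G} (hd : d ∈ D) : d * y ∉ 𝐂(D) := fun c => h.ncen fun x hx => by
  have c4 : (d * y) ^ 4 ∈ 𝐂(D) := pow_mem c 4
  have d4 := h6.pow4 h.two (h.le hd)
  have cd : Commute d (d * y) := c d hd
  have e : y = d⁻¹ * (d * y) := by group
  have e4 : y ^ 4 = (d * y) ^ 4 := by
    conv_lhs => rw [e, cd.inv_left.mul_pow, inv_pow, d4, inv_one, one_mul]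
  rw [← e4, pow_succ, h.y3, one_mul] at c4
  exact mem_centralizer_singleton_iff.2 (c4 x hx)

theorem mem_D (h6 : Or6 G) {z : G} (hz : z ∈ T) (hc : z ∈ 𝐂(D)) : z ∈ D := by
  by_contra hn
  have h1 : y * z⁻¹ * y⁻¹ ∈ 𝐂(D) :=
    conj_mem_of_le_normalizer (normalizer_le_normalizer_centralizer D) h.nrm (inv_mem hc)
  refine h.not_cen_mul h6 (h.inv z hz hn) ?_
  have := mul_mem hc h1
  rwa [show z * (y * z⁻¹ * y⁻¹) = z * y * z⁻¹ * y * y * (y * y * y)⁻¹ by group, h.y3', inv_one,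
    mul_one] at this

theorem par (h6 : Or6 G) (hc : ¬ Cen T y) : AN.Par T (T ⊔ zpowers y) :=
  ⟨h.two, le_sup_left, h.i3, h.core.symm ▸ h.idx, h.nB,
    h.core.symm ▸ fun z hz => h.mem_D h6 hz.1 (centralizer_le h.le hz.2.1),
    fun c => hc fun z h1 h2 h3 => c (mem_sup_right (mem_zpowers y)) z ⟨h1, h3, h2⟩⟩

end Ty

theorem NoN.ne {T D1 D2 : Subgroup G} {y1 y2 : G} (hN : NoN T y1 y2) (h1 : Ty 3 T D1 y1)
    (h2 : Ty 3 T D2 y2) : D1 ≠ D2 := fun e =>
  h1.ne_bot (hN D1 h1.le h1.normD h1.nrm (e ▸ h2.nrm))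

theorem NoN.inf {T D1 D2 : Subgroup G} {y1 y2 : G} (hN : NoN T y1 y2) (h1 : Ty 3 T D1 y1)
    (h2 : Ty 3 T D2 y2) : (T ⊔ zpowers y1) ⊓ (T ⊔ zpowers y2) = T :=
  eq_of_relIndex_prime Nat.prime_three (le_inf le_sup_left le_sup_left) inf_le_right h2.i3 fun c =>
    h1.ne_bot (hN D1 h1.le h1.normD h1.nrm
      (h1.normP (c (mem_sup_right (mem_zpowers y2))).1))

theorem NoN.symm {T : Subgroup G} {y1 y2 : G} (hN : NoN T y1 y2) : NoN T y2 y1 :=
  fun N a b c d => hN N a b d c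

/-- Both noncentral. -/
theorem gan (h6 : Or6 G) {T D1 D2 : Subgroup G} {y1 y2 : G} (h1 : Ty 3 T D1 y1)
    (h2 : Ty 3 T D2 y2) (hN : NoN T y1 y2) (c1 : ¬ Cen T y1) (c2 : ¬ Cen T y2) :
    El D1 ∧ El D2 := by
  have e := hN.inf h1 h2
  have a : AN.Am (T ⊔ zpowers y1) (T ⊔ zpowers y2) :=
    ⟨e.symm ▸ h1.par h6 c1, e.symm ▸ h2.par h6 c2, fun U a b c => hN U (e ▸ a)
      (le_sup_left.trans b) (b (mem_sup_right (mem_zpowers _))) (c (mem_sup_right (mem_zpowers _)))⟩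
  exact ⟨h1.core ▸ a.sq, h2.core ▸ a.symm.sq⟩

theorem ganStmt : GANStmt.{u} := fun _ _ _ h6 _ _ _ _ _ h1 h2 hN _ _ c1 c2 =>
  gan h6 h1 h2 hN c1 c2

end Cfsg.Agent.P31
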