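/-
P31, PU: pushing up.
-/
import Cfsg.Agent.P31.Ty

set_option autoImplicit false
set_option linter.unusedSectionVars false

namespace Cfsg.Agent.P31

open Subgroup Cfsg Cfsg.Agent Cfsg.Agent.FT Cfsg.Agent.P6
open scoped commutatorElement

universe u

namespace U9

variable {G : Type u} [Group G] [Finite G] {T D : Subgroup G} {s y : G}

theorem comm_of_sq {x y : G} (hx : x * x = 1) (hy : y * y = 1) (h : x * y * (x * y) = 1) :
    x * y = y * x := by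
  calc x * y = (x * y)⁻¹ := (inv_eq_of_mul_eq_one_right h).symm
    _ = y * x := by rw [mul_inv_rev, inv_eq_of_mul_eq_one_right hx, inv_eq_of_mul_eq_one_right hy]

theorem el_comm (h : El D) {a b : G} (ha : a ∈ D) (hb : b ∈ D) : a * b = b * a :=
  comm_of_sq (h a ha) (h b hb) (h _ (mul_mem ha hb))

theorem el_conj (h : El D) (g : G) : El (D ^ᵍ g) := by
  rintro _ ⟨a, ha, rfl⟩
  calc g * a * g⁻¹ * (g * a * g⁻¹) = g * (a * a) * g⁻¹ := by group
    _ = 1 := by rw [h a ha]; group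

theorem ty_conj {p : ℕ} (h : Ty p T D y) (hs : s ∈ 𝐍(T)) : Ty p T (D ^ᵍ s) (s * y * s⁻¹) where
  two := h.two
  le := conj_le_of_mem_norm h.le hs
  idx := by rw [← conj_eq_of_mem_norm hs, relIndex_conj, h.idx]
  ord := (H3.orderOf_eq_of_isConj (isConj_iff.2 ⟨s, rfl⟩)).symm.trans h.ord
  nrm := norm_conj D s ▸ conj_mem_conj h.nrm s
  inv := fun u hu h1 => by
    rw [← conj_eq_of_mem_norm hs] at hu
    have := h.inv _ (mem_conj.1 hu) fun e => h1 (mem_conj.2 e)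
    refine mem_conj.2 ?_
    rwa [show s⁻¹ * (u * (s * y * s⁻¹) * u⁻¹ * (s * y * s⁻¹)) * s =
      s⁻¹ * u * s * y * (s⁻¹ * u * s)⁻¹ * y by group]
  ncen := fun e => h.ncen (conj_le_conj_iff.1 (cent1_conj y s ▸ e))

/-- Two elementary subgroups interchanged by `s`. -/
theorem swap (h6 : Or6 G) (hT : IsPGroup 2 T) (DT : D ≤ T) (nD : T ≤ 𝐍(D)) (el : El D)
    (hs : s ∈ 𝐍(T)) (ss : s * s ∈ D ⊔ D ^ᵍ s) (ne : ¬ D ≤ D ^ᵍ s) :
    ∃ e ∈ D, e ∉ D ^ᵍ s ∧ ∃ f ∈ D ^ᵍ s, f ∉ D ∧ e * f = f * e := by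
  have D'T := conj_le_of_mem_norm DT hs
  have nD' : T ≤ 𝐍(D ^ᵍ s) := by
    rw [norm_conj, ← conj_eq_of_mem_norm hs]; exact conj_mono nD s
  obtain ⟨a, ha, b, hb, e⟩ := (mem_sup_of_norm (D'T.trans nD)).1 ss
  have e1 : D ^ᵍ (a * s) = D ^ᵍ s := by rw [← conj_conj, conj_eq_of_mem_norm (nD' (DT ha))]
  have z1 : a * s * (a * s) ∈ D ^ᵍ s := by
    have := mul_mem ((mem_normalizer_iff.1 (nD' (DT ha)) _).1 (conj_mem_conj ha s)) hb
    rw [inv_eq_of_mul_eq_one_right (el a ha)] at this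
    rwa [show a * s * (a * s) = a * (s * a * s⁻¹) * (s * s) by group, ← e, ← mul_assoc]
  rw [← e1] at z1 ne D'T ⊢
  generalize a * s = r at *
  have z2 : r * r ∈ D := by simpa [mul_assoc] using mem_conj.1 z1
  obtain ⟨c, hc, h1⟩ := SetLike.not_le_iff_exists.1 ne
  have hf := conj_mem_conj hc r
  refine ⟨c, hc, h1, _, hf, fun k => h1 (mem_conj.2 ?_), ?_⟩
  · have := mul_mem (mul_mem (inv_mem z2) k) z2
    rwa [show (r * r)⁻¹ * (r * c * r⁻¹) * (r * r) = r⁻¹ * c * r by group] at this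
  have c1 := el_comm el hc z2
  have c2 := el_comm (el_conj el r) hf z1
  have c3 := el _ z2
  have h4 : (c * r) ^ 4 = c * (r * c * r⁻¹) * (c * (r * c * r⁻¹)) := by
    have h2 : (c * r) ^ 4 = c * (r * c * r⁻¹) * (r * r) * (c * (r * c * r⁻¹) * (r * r)) := by
      simp only [pow_succ, pow_zero]; group
    rw [h2]
    generalize r * c * r⁻¹ = f at *
    generalize r * r = z at *
    calc _ = c * f * (z * c) * f * z := by group
      _ = c * f * c * (z * f) * z := by rw [← c1]; group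
      _ = c * f * (c * f) * (z * z) := by rw [← c2]; group
      _ = _ := by rw [c3, mul_one]
  refine comm_of_sq (el c hc) (el_conj el r _ hf) ?_
  rw [← h4]
  refine h6.no8 ?_
  rw [show 8 = 4 * 2 from rfl, pow_mul, h4, ← sq, ← pow_mul]
  exact h6.pow4 hT (mul_mem (DT hc) (D'T hf))

theorem bound (DT : D ≤ T) (el : El D) (hs : s ∈ 𝐍(T)) {t : G} (ht : t ∈ D ^ᵍ s) :
    𝐨((D ⊓ D ^ᵍ s : Subgroup G)) * D.relIndex (D ^ᵍ s) = 𝐨(D) ∧ D.relIndex (D ^ᵍ s) ≤ D.relIndex T ∧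
      D ⊓ D ^ᵍ s ≤ D ⊓ 𝐂[t] :=
  ⟨by rw [H1.card_inf_mul_relIndex, card_conj],
    relIndex_le_of_le_right (conj_le_of_mem_norm DT hs) index_ne_zero_of_finite,
    inf_le_inf_left _ fun a ha => mem_cent1.2 (el_comm (el_conj el s) ht ha)⟩

end U9

open U9 in
theorem puStmt (ga : GAStmt.{u}) (ab : ABStmt.{u}) (f5 : FR5Stmt.{u}) (fa : FRAStmt.{u}) :
    PUStmt.{u} := by
  intro G _ _ cx T D s hT sN sT ss k
  have sup2 : IsPGroup 2 (zpowers s ⊔ T : Subgroup G) := by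
    refine isPGroup_sup ?_ hT.pgrp (zpowers_le.2 sN)
    have : s ^ 2 ^ 3 = 1 := by
      rw [show 2 ^ 3 = 2 * 4 from rfl, pow_mul, sq]
      exact cx.or6.pow4 hT.pgrp ss
    obtain ⟨j, -, hj⟩ := (Nat.dvd_prime_pow Nat.prime_two).1 (orderOf_dvd_of_pow_eq_one this)
    exact H8.isPGroup_zpowers_of_orderOf hj
  have sD : s ∉ 𝐍(D) := fun e => sT ((hT.eq_of_le Nat.prime_two le_sup_right
    (sup_le (zpowers_le.2 e) hT.le) sup2).le (mem_sup_left (mem_zpowers s)))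
  have n1 : ¬ D ^ᵍ s ≤ D := fun e => sD (mem_norm_of_conj_le e)
  have n2 : ¬ D ≤ D ^ᵍ s := fun e => n1 (H1.eq_of_le_of_card_le e (card_conj D s).le).ge
  obtain ⟨t, t1, t2⟩ := SetLike.not_le_iff_exists.1 n1
  rcases k with ⟨y, h⟩ | ⟨y, h, el⟩ | ⟨L, h, h0⟩
  · have h' := ty_conj h sN
    have mm : ∀ {E : Subgroup G}, E.relIndex T = 2 → ∀ {a b : G}, a ∈ T → b ∈ T →
        (a * b ∈ E ↔ (a ∈ E ↔ b ∈ E)) := fun {E} i {a b} ha hb =>
      mul_mem_iff_of_index_two (H := E.subgroupOf T) i (a := ⟨a, ha⟩) (b := ⟨b, hb⟩)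
    by_cases no : NoN T y (s * y * s⁻¹)
    · have el := (ga G cx T _ _ _ _ h h' no).1
      obtain ⟨e, e1, e2, f, f1, f2, c⟩ := swap cx.or6 h.two h.le hT.le el sN (by
        by_cases k : s * s ∈ D
        · exact mem_sup_left k
        · have := mul_mem (mem_sup_left (T := D ^ᵍ s) ((mm h.idx ss (h'.le t1)).2 (by tauto)))
            (mem_sup_right (S := D) (inv_mem t1))
          simpa using this) n2
      refine f2 (h.mem_D cx.or6 (h'.le f1) (mem_cent.2 fun d hd => ?_))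
      by_cases k : d ∈ D ^ᵍ s
      · exact el_comm (el_conj el s) k f1
      · have := el_comm (el_conj el s) ((mm h'.idx (h.le hd) (h.le e1)).2 (by tauto)) f1
        rw [mul_assoc, c, ← mul_assoc, ← mul_assoc] at this
        exact mul_right_cancel this
    let C := sSup {N : Subgroup G | N ≤ T ∧ T ≤ 𝐍(N) ∧ y ∈ 𝐍(N) ∧ s * y * s⁻¹ ∈ 𝐍(N)}
    have CT : C ≤ T := sSup_le fun _ h => h.1
    have C0 : C ≠ ⊥ := fun e => no fun N a b c d => le_bot_iff.1 (e ▸ le_sSup ⟨a, b, c, d⟩)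
    have TC : T ≤ 𝐍(C) := H2.le_normalizer_sSup' fun _ h => h.2.1
    have yC : y ∈ 𝐍(C) := zpowers_le.1 (H2.le_normalizer_sSup' fun _ h => zpowers_le.2 h.2.2.1)
    have sC : s ∈ 𝐍(C) := mem_norm_of_conj_le (conj_le_iff.2 (sSup_le fun N hN => conj_le_iff.1 (by
      have a : T ≤ 𝐍(N ^ᵍ s) := by
        rw [norm_conj, ← conj_eq_of_mem_norm sN]; exact conj_mono hN.2.1 s
      refine le_sSup ⟨conj_le_of_mem_norm hN.1 sN, a, ?_, norm_conj N s ▸ conj_mem_conj hN.2.2.1 s⟩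
      have b : s * (s * y * s⁻¹) * s⁻¹ ∈ 𝐍(N ^ᵍ s) := norm_conj N s ▸ conj_mem_conj hN.2.2.2 s
      have := mul_mem (mul_mem (inv_mem (a ss)) b) (a ss)
      rwa [show (s * s)⁻¹ * (s * (s * y * s⁻¹) * s⁻¹) * (s * s) = y by group] at this)))
    have nO : 𝐍(C) ≤ 𝐍(O2 𝐍(C)) := (pCoreOf_normal 2 _).2
    have O2p : IsPGroup 2 (O2 𝐍(C)) := H2.isPGroup_pCoreOf 2 _
    have OD : O2 𝐍(C) ≤ D := by
      have p : IsPGroup 2 (D ⊔ O2 𝐍(C) : Subgroup G) :=
        isPGroup_sup (h.two.to_le h.le) O2p ((h.le.trans TC).trans nO)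
      by_contra e
      have lt := lt_inf_norm_of_isNilpotent (isNilpotent_of_isPGroup Nat.prime_two p)
        (left_lt_sup.2 e)
      have nK : ∀ X : Subgroup G, X ≤ 𝐍(D) → X ≤ 𝐍(C) → X ≤ 𝐍(((D ⊔ O2 𝐍(C)) ⊓ 𝐍(D) : Subgroup G)) :=
        fun X a b => H1.le_normalizer_inf (H1.le_normalizer_sup a (b.trans nO))
          (a.trans le_normalizer)
      exact lt.not_ge (h.le_D (hT.le_of_le_norm Nat.prime_two (p.to_le inf_le_left) inf_le_right
        (nK T hT.le TC)) (nK T hT.le TC)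
        (zpowers_le.1 (nK _ (zpowers_le.2 h.nrm) (zpowers_le.2 yC))))
    refine n1 ?_
    rintro _ ⟨d, hd, rfl⟩
    have := mul_mem (OD (ab G cx C _ C0 (h.two.to_le CT) sup2 (sup_le (zpowers_le.2 sC) TC) s
      (mem_sup_left (mem_zpowers s)) d (mem_sup_right (h.le hd)))) hd
    simpa [commutatorElement_def] using this
  · obtain ⟨⟨k, k0, hk⟩, hc⟩ := f5 G cx.or6 T D y h el
    obtain ⟨b1, b2, b3⟩ := bound h.le el sN t1
    have c := hc t (conj_le_of_mem_norm h.le sN t1) t2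
    have b4 := card_le_of_le b3
    have : 16 ^ 1 ≤ 16 ^ k := Nat.pow_le_pow_right (by norm_num) k0
    rw [h.idx] at b2
    have b5 := Nat.mul_le_mul b4 b2
    rw [b1, ← hk, ← c] at *
    nlinarith
  · obtain ⟨⟨k, k0, hk⟩, hc⟩ := fa G cx.or6 T D L h h0
    have D'T := conj_le_of_mem_norm h.le sN
    obtain ⟨b1, b2, b3⟩ := bound h.le h.el sN t1
    have c := hc t (D'T t1) t2
    have b4 := card_le_of_le b3
    have : 16 ^ 1 ≤ 16 ^ k := Nat.pow_le_pow_right (by norm_num) k0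
    rw [h.idx] at b2
    have a1 : 𝐨((D ⊓ 𝐂[t] : Subgroup G)) = 4 := by nlinarith
    have a2 : 𝐨(D) = 16 := by rw [← c, a1]; rfl
    have a3 : 𝐨((D ⊓ D ^ᵍ s : Subgroup G)) = 4 := by nlinarith
    have a4 : D.relIndex (D ^ᵍ s) = 4 := by nlinarith
    have a5 : D ⊔ D ^ᵍ s = T := by
      refine H1.eq_of_le_of_card_le (sup_le h.le D'T) (le_of_eq ?_)
      rw [← H1.card_mul_relIndex h.le, ← H1.card_mul_relIndex (le_sup_left : D ≤ D ⊔ D ^ᵍ s),
        relIndex_sup_of_norm (D'T.trans hT.le), a4, h.idx]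
    obtain ⟨e, e1, e2, f, f1, f2, c⟩ := swap cx.or6 h.two h.le hT.le h.el sN (a5 ▸ ss) n2
    have a6 := hc f (D'T f1) f2
    have a7 := H1.eq_of_le_of_card_le (bound h.le h.el sN f1).2.2 (by nlinarith)
    exact e2 (a7.ge ⟨e1, mem_cent1.2 c.symm⟩).2

end Cfsg.Agent.P31
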