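/-
P31, Case A from (ii), A3 and the case of two `A₅`-types.
-/
import Cfsg.Agent.P31.PU
import Cfsg.Agent.P31.FR

set_option autoImplicit false
set_option linter.unusedSectionVars false

namespace Cfsg.Agent.P31

open Subgroup Cfsg Cfsg.Agent Cfsg.Agent.FT Cfsg.Agent.P6

universe u

def TwoAStmt : Prop := ∀ (G : Type u) [Group G] [Finite G], Cx G → IsSimpleGroup G →
  ¬ IsMulCommutative G → ∀ (T Q D L L' : Subgroup G), IsSyl 2 T ⊤ → TyA T Q L → 𝐂(Q) ≤ Q →
  TyA T D L' → 𝐂(D) ≤ D → D ≠ Q → P29.HasSE G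

namespace C9

variable {G : Type u} [Group G] [Finite G] {T Q D L : Subgroup G} {x n : G}

theorem tyA_conj (h : TyA T Q L) (hn : n ∈ 𝐍(T)) : TyA T (Q ^ᵍ n) (L ^ᵍ n) where
  two := h.two
  le := conj_le_of_mem_norm h.le hn
  idx := by rw [← conj_eq_of_mem_norm hn, relIndex_conj, h.idx]
  leL := by rw [← conj_eq_of_mem_norm hn]; exact conj_mono h.leL n
  nrm := conj_le_norm_iff.2 h.nrm
  iso := by
    obtain ⟨f, hf, k⟩ := h.iso
    let e : (L ^ᵍ n : Subgroup G) →* L :=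
      { toFun := fun a => ⟨n⁻¹ * a * n, mem_conj.1 a.2⟩
        map_one' := Subtype.ext (by simp)
        map_mul' := fun a b => Subtype.ext (by simp only [coe_mul]; group) }
    refine ⟨f.comp e, hf.comp fun b => ⟨⟨_, conj_mem_conj b.2 n⟩, Subtype.ext ?_⟩, fun a => ?_⟩
    · change n⁻¹ * (n * b * n⁻¹) * n = b
      group
    · rw [MonoidHom.comp_apply, k, mem_conj]; rfl
  el := U9.el_conj h.el n

theorem uniq5 (h6 : Or6 G) (h : Ty 5 T Q x) (el : El Q) (DT : D ≤ T) (eD : El D)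
    (hc : 𝐨(D) = 𝐨(Q)) : D = Q := by
  refine H1.eq_of_le_of_card_le ?_ hc.ge
  by_contra e
  obtain ⟨t, t1, t2⟩ := SetLike.not_le_iff_exists.1 e
  obtain ⟨⟨k, k0, hk⟩, h1⟩ := fr5Stmt G h6 T Q x h el
  have c := h1 t (DT t1) t2
  have b1 := H1.card_inf_mul_relIndex Q D
  have b2 : Q.relIndex D ≤ Q.relIndex T := relIndex_le_of_le_right DT index_ne_zero_of_finite
  have b4 := card_le_of_le (show Q ⊓ D ≤ Q ⊓ 𝐂[t] from
    inf_le_inf_left _ fun a ha => mem_cent1.2 (U9.el_comm eD t1 ha))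
  have : 16 ^ 1 ≤ 16 ^ k := Nat.pow_le_pow_right (by norm_num) k0
  rw [h.idx] at b2
  have b5 := Nat.mul_le_mul b4 b2
  rw [b1, hc, ← c] at b5
  rw [← hk, ← c] at this
  nlinarith

theorem mis (h6 : Or6 G) (h : Ty 5 T Q x) (el : El Q) (h' : TyA T D L) (h0 : D ≠ ⊥) : False := by
  obtain ⟨⟨k, -, hk⟩, -⟩ := fr5Stmt G h6 T Q x h el
  obtain ⟨⟨j, -, hj⟩, -⟩ := fraStmt G h6 T D L h' h0
  have a := H1.card_mul_relIndex h.le
  have b := H1.card_mul_relIndex h'.le
  rw [h.idx, hk] at a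
  rw [h'.idx, hj, ← a] at b
  have : 2 ^ (4 * j + 2) = 2 ^ (4 * k + 1) := by
    rw [pow_add, pow_add, pow_mul, pow_mul]; exact b
  have := Nat.pow_right_injective le_rfl this
  omega

end C9

open C9 in
theorem caseA_of (ii : IIStmt.{u}) (a3 : A3Stmt.{u}) (tw : TwoAStmt.{u}) : CaseAStmt.{u} := by
  intro G _ _ cx hs na T Q hT hQ k
  have nb : ∀ D : Subgroup G, 𝐂(D) ≤ D → D ≠ ⊥ := fun D h e => by
    rw [e, cent_bot] at h
    exact bot_ne_top (le_antisymm bot_le h)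
  have QT : Q < T := by
    rcases k with ⟨x, h, -⟩ | ⟨L, h⟩
    · exact h.le.lt_of_ne fun e => by have := h.idx; rw [e, relIndex_self] at this; omega
    · exact h.le.lt_of_ne fun e => by have := h.idx; rw [e, relIndex_self] at this; omega
  have hM : 𝐍(Q) ≠ ⊤ := fun e =>
    ((normal_iff_top_le.2 e.ge).eq_bot_or_eq_top).elim (nb Q hQ) (QT.trans_le le_top).ne
  rcases k with ⟨x, h, el⟩ | ⟨L, h⟩
  · refine ii G cx T _ hT hM (fun n hn => conj_eq_self_iff.1 (uniq5 cx.or6 h el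
      (conj_le_of_mem_norm h.le hn) (U9.el_conj el n) (card_conj Q n)))
      (fun D y a b => (a3 G cx T Q D y hT hQ (Or.inl ⟨x, h, el⟩) a b).elim)
      (fun D y a b _ => ?_) (fun D L a b => (mis cx.or6 h el a (nb D b)).elim)
    have c1 := H1.card_mul_relIndex h.le
    have c2 := H1.card_mul_relIndex a.le
    rw [h.idx] at c1
    rw [a.idx] at c2
    exact uniq5 cx.or6 h el a.le b (by omega) ▸ a.nrm
  by_contra ns
  have u : ∀ D L', TyA T D L' → 𝐂(D) ≤ D → D = Q := fun D L' a b => by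
    by_contra e
    exact ns (tw G cx hs na T Q D L L' hT h hQ a b e)
  exact ns (ii G cx T _ hT hM (fun n hn => conj_eq_self_iff.1 (u _ _ (tyA_conj h hn)
      (by rw [cent_conj]; exact conj_mono hQ n)))
    (fun D y a b => (a3 G cx T Q D y hT hQ (Or.inr ⟨L, h⟩) a b).elim)
    (fun D y a b _ => (mis cx.or6 a b h (nb Q hQ)).elim) fun D L' a b => u D L' a b ▸ a.nrm)

end Cfsg.Agent.P31
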