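import Cfsg.Agent.P31.CaseB1
import Cfsg.Agent.H2.Amal9

/-!
Case B.
-/

set_option autoImplicit false
set_option linter.unusedSectionVars false

namespace Cfsg.Agent.P31

open Subgroup Cfsg Cfsg.Agent Cfsg.Agent.FT H1 H2
open Cfsg.Agent.H2.AM (mul_mem_iff_two mul_mem_two)
open scoped commutatorElement Pointwise

universe u

variable {G : Type u} [Group G] [Finite G]

namespace CB

theorem O_eq (cx : Cx G) {T D : Subgroup G} {y : G} (hT : IsSyl 2 T ⊤) (t : Ty 3 T D y) :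
    O2 𝐍(D) = D := by
  have p := t.two.to_le t.le
  refine le_antisymm (le_trans (le_inf ?_ le_rfl)
    (xsStmt G cx T D D y t t.ne_bot p t.normD t.nrm).2.1) (le_pCoreOf ⟨le_normalizer, le_rfl⟩ p)
  have := hT.eq_of_le Nat.prime_two (le_sup_left : T ≤ T ⊔ O2 𝐍(D)) le_top
    (isPGroup_sup t.two (X6.O_two _) (t.normD.trans (X6.O_nrm _)))
  exact le_sup_right.trans this.le

theorem shA (cx : Cx G) {T D : Subgroup G} {y : G} (hT : IsSyl 2 T ⊤) (t : Ty 3 T D y) :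
    ∃ R : Subgroup G, (∀ r ∈ R, r ^ 3 ∈ D) ∧ ∀ w ∈ 𝐍(D), orderOf w = 3 → w ∈ R := by
  have e := O_eq cx hT t
  have p := t.two.to_le t.le
  rcases cx.sh D t.ne_bot p with ⟨R, -, -, -, h3, h2⟩ | h | ⟨⟨f, fs, k⟩, -⟩
  · exact ⟨R, e ▸ h3, fun w hw ho => X6.odd_mem_R (ho ▸ by decide) (h2 w hw)⟩
  · exfalso
    have q := X6.qd_B h
    have c : (O2 𝐍(D)).relIndex 𝐍(D) ∣ 10 := by
      rcases h with h | h
      · rw [h]; norm_num
      · rw [h.1]
    have c2 : D.relIndex (zpowers y ⊔ D) ∣ D.relIndex 𝐍(D) := by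
      rw [← relIndex_mul_relIndex D (zpowers y ⊔ D) 𝐍(D) le_sup_right
        (sup_le (zpowers_le.2 t.nrm) le_normalizer)]
      exact dvd_mul_right _ _
    rw [e] at c
    rw [t.iK] at c2
    exact absurd (c2.trans c) (by norm_num)
  · exfalso
    have c : D.relIndex 𝐍(D) = 60 := by
      rw [← X6.a5_card, ← Nat.card_congr (QuotientGroup.quotientKerEquivOfSurjective f fs).toEquiv]
      have : f.ker = D.subgroupOf 𝐍(D) := by
        ext x; rw [MonoidHom.mem_ker, k, e, mem_subgroupOf]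
      rw [this]; rfl
    have c1 := relIndex_mul_relIndex D T 𝐍(D) t.le t.normD
    have c2 := relIndex_mul_relIndex T 𝐍(D) ⊤ t.normD le_top
    rw [c, t.idx] at c1
    refine hT.ndvd ?_
    rw [← c2, show T.relIndex 𝐍(D) = 30 by omega]
    exact Dvd.dvd.mul_right (by norm_num) _

theorem conj_le {T E : Subgroup G} (hT : IsSyl 2 T ⊤) (hE : IsElementaryAbelian 2 E) :
    ∃ g : G, MulAut.conj g • E ≤ T := by
  obtain ⟨g, -, hg⟩ := H1.exists_conj_le_sylow (Q := E) hT.pgrp hT.ndvd le_top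
    (fun x => ⟨1, Subtype.ext (by simpa using hE.2 x x.2)⟩)
  exact ⟨g, hg⟩

theorem Ty_inv {T D : Subgroup G} {y : G} (t : Ty 3 T D y) : Ty 3 T D y⁻¹ :=
  ⟨t.two, t.le, t.idx, by rw [orderOf_inv, t.ord], inv_mem t.nrm, fun u a b => by
    have := inv_mem (X6.cj t.nrm (t.inv u a b))
    rwa [show (y * (u * y * u⁻¹ * y) * y⁻¹)⁻¹ = u * y⁻¹ * u⁻¹ * y⁻¹ by group] at this,
   fun e => t.ncen fun d hd => mem_centralizer_singleton_iff.2
    (Commute.inv_right_iff.1 (mem_centralizer_singleton_iff.1 (e hd)))⟩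

theorem non_eq {T : Subgroup G} {y1 y2 c : G} (hN : NoN T y1 y2) (hc : c ∈ T)
    (h0 : ∀ t ∈ T, t * c = c * t) (h1 : c * y1 = y1 * c) (h2 : c * y2 = y2 * c) : c = 1 := by
  have k : ∀ {g}, g * c = c * g → g ∈ 𝐍(zpowers c) := fun {g} e =>
    le_normalizer_of_le_centralizer (le_refl 𝐂(zpowers c)) (by
      rw [H2.AM.cent_zpowers]; exact mem_centralizer_singleton_iff.2 e)
  exact zpowers_eq_bot.1 (hN _ (zpowers_le.2 hc) (fun t ht => k (h0 t ht)) (k h1.symm) (k h2.symm))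

namespace Cf

variable {T D1 D2 : Subgroup G} {z y1 y2 : G} (h : Cf T D1 D2 z) (cx : Cx G) (hT : IsSyl 2 T ⊤)
  (t1 : Ty 3 T D1 y1) (t2 : Ty 3 T D2 y2) (hN : NoN T y1 y2)
include h cx hT t1 t2 hN

theorem uniq0 {y c : G} (t : Ty 3 T D1 y) (hC : 𝐂(D1) ≤ D1) (c1 : c ∈ D1) (c2 : c ∈ D2)
    (c3 : c * y1 = y1 * c) (c4 : c * y = y * c) (e : y⁻¹ * z * y = y1⁻¹ * z * y1 * c) : c = 1 := by
  by_contra c0
  obtain ⟨R, r1, r2⟩ := shA cx hT t
  obtain ⟨g, hg⟩ : ∃ g, g = y1 * y⁻¹ := ⟨_, rfl⟩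
  have gN : g ∈ 𝐍(D1) := hg ▸ mul_mem t1.nrm (inv_mem t.nrm)
  have gR : g ∈ R := hg ▸ mul_mem (r2 _ t1.nrm t1.ord) (inv_mem (r2 _ t.nrm t.ord))
  have gc : g * c * g⁻¹ = c := by
    rw [hg]
    calc _ = y1 * (y⁻¹ * (c * y)) * y1⁻¹ := by group
      _ = y1 * c * y1⁻¹ := by rw [c4]; group
      _ = c := by rw [← c3]; group
  have gz : g * z * g⁻¹ = z * c := by
    rw [hg]
    calc _ = y1 * (y⁻¹ * z * y) * y1⁻¹ := by group
      _ = z * (y1 * c) * y1⁻¹ := by rw [e]; group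
      _ = _ := by rw [← c3]; group
  have a1 := h.cjD t1 h.z1
  have cc := h.e1 c c1
  have ga : g * (y1⁻¹ * z * y1) * g⁻¹ = y1⁻¹ * z * y1 := by
    have e1 : y1⁻¹ * z * y1 = y⁻¹ * z * y * c := by rw [e, mul_assoc _ c c, cc, mul_one]
    have e2 : y⁻¹ * (y⁻¹ * z * y) * y = y1 ⁻¹ * z * y1 * c * z := by
      rw [← e, ← h.zC t cx.or6]
      calc _ = y⁻¹ * y⁻¹ * z * (y * y) := by group
        _ = _ := by rw [h.yy t, h.yy' t]
    have e3 : y1⁻¹ * z * y1 * z = y1 * z * y1⁻¹ := (h.zC t1 cx.or6).symm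
    calc _ = g * (y⁻¹ * z * y) * g⁻¹ * (g * c * g⁻¹) := by rw [e1]; group
      _ = y1 * (y⁻¹ * (y⁻¹ * z * y) * y) * y1⁻¹ * c := by rw [gc, hg]; group
      _ = y1 * (y1⁻¹ * z * y1 * z * c) * y1⁻¹ * c := by
        rw [e2, mul_assoc _ c z, h.e1.comm c1 h.z1]; group
      _ = y1 * y1 * z * y1⁻¹ * (c * y1⁻¹) * c := by rw [e3]; group
      _ = y1 * y1 * z * (y1⁻¹ * y1⁻¹) * (c * c) := by
        rw [(show Commute c y1 from c3).inv_right.eq]; group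
      _ = _ := by rw [cc, h.yy t1, h.yy' t1, mul_one]
  have g2 : g * g ∈ D1 := hC fun d hd => by
    have k0 : ∀ {x}, g * x * g⁻¹ = x → x * (g * g) = g * g * x := fun {x} e => by
      have : Commute x g := (mul_inv_eq_iff_eq_mul.1 e).symm
      exact (this.mul_right this).eq
    have k1 : z * (g * g) = g * g * z := by
      calc z * (g * g) = z * c * c * g * g := by rw [mul_assoc z c c, cc]; group
        _ = g * z * g⁻¹ * (g * c * g⁻¹) * g * g := by rw [gz, gc]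
        _ = g * (z * c) * g := by group
        _ = _ := by rw [← gz]; group
    have k2 : ∀ e ∈ D1, e ∈ D2 → e * (g * g) = g * g * e := fun e h1 h2 => by
      have k3 : ∀ x ∈ D1, x ∈ D2 → x * y1 = y1 * x → x * (g * g) = g * g * x := fun x h1 h2 h3 => by
        have d1 : c * z * y2 = y2 * (c * z) := (h.symm.cor t2 cx.or6 c2 c1).resolve_left fun d =>
          c0 (non_eq hN (h.l1 c1) (fun t ht => h.cen c1 c2 ht) c3 d)
        rcases h.symm.cor t2 cx.or6 h2 h1 with d2 | d2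
        · rw [non_eq hN (h.l1 h1) (fun t ht => h.cen h1 h2 ht) h3 d2]; group
        have d3 : x * c = x * z * (c * z) := by
          rw [h.e1.comm c1 h.z1, mul_assoc, ← mul_assoc z z, h.zz, one_mul]
        have := non_eq hN (h.l1 (mul_mem h1 c1)) (fun t ht => h.cen (mul_mem h1 c1)
          (mul_mem h2 c2) ht) (Commute.mul_left (show Commute x y1 from h3) c3)
          (d3 ▸ Commute.mul_left (show Commute (x * z) y2 from d2) d1)
        rw [eq_inv_of_mul_eq_one_left this, inv_eq h.e1 c1]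
        exact k0 gc
      rcases h.cor t1 cx.or6 h1 h2 with d | d
      · exact k3 e h1 h2 d
      · have := Commute.mul_left (k3 _ (mul_mem h1 h.z1) (mul_mem h2 h.z2) d) k1
        rwa [mul_assoc, h.zz, mul_one] at this
    by_cases c : d ∈ D2
    · exact k2 d hd c
    have := Commute.mul_left (k2 _ (mul_mem hd a1)
      (mul_mem_two h.i2 (h.l1 hd) (h.l1 a1) c (h.zB t1 cx.or6))) (k0 ga)
    rwa [mul_assoc, h.e1 _ a1, mul_one] at this
  have g1 : g ∈ D1 := by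
    have := mul_mem (r1 g gR) (inv_mem g2)
    rwa [show g ^ 3 * (g * g)⁻¹ = g by rw [pow_three]; group] at this
  rw [h.e1.comm g1 h.z1, mul_inv_cancel_right] at gz
  exact c0 (left_eq_mul.1 gz)

theorem xsarg {y x : G} (t : Ty 3 T D1 y) (m1 : x ∈ D1) (m2 : x ∈ D2) (d : x * y = y * x)
    (d2 : x * y2 = y2 * x) : x = 1 := by
  by_contra x1
  have n0 : zpowers x ≠ ⊥ := fun e => x1 (zpowers_eq_bot.1 e)
  have k : ∀ {g}, g * x = x * g → g ∈ 𝐍(zpowers x) := fun {g} e =>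
    le_normalizer_of_le_centralizer (le_refl 𝐂(zpowers x)) (by
      rw [H2.AM.cent_zpowers]; exact mem_centralizer_singleton_iff.2 e)
  have p := t.two.to_le (zpowers_le.2 (h.l1 m1))
  have nT : T ≤ 𝐍(zpowers x) := fun s hs => k (h.cen m1 m2 hs)
  have b1 := (xsStmt G cx T D1 _ y t n0 p nT (k d.symm)).1
    (commutator_mem_commutator h.z1 (inv_mem (mem_zpowers y)))
  have b2 := (xsStmt G cx T D2 _ y2 t2 n0 p nT (k d2.symm)).2.1
    ⟨h.l1 (X6.cml (inv_mem t.nrm) h.z1), b1⟩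
  rw [commutatorElement_def, mul_assoc, mul_assoc, ← mul_assoc y⁻¹, inv_eq h.e1 h.z1,
    inv_inv] at b2
  exact h.zB t cx.or6 ((Subgroup.mul_mem_cancel_left _ h.z2).1 b2)

theorem uniq {y : G} (t : Ty 3 T D1 y) (hC : 𝐂(D1) ≤ D1) {K : Subgroup G} (k1 : z ∈ K)
    (k2 : y1⁻¹ * z * y1 ∈ K) : XX D1 y ≤ K := by
  refine h.XX_le t cx.or6 k1 ?_
  have a1 := h.cjD t1 h.z1
  have a2 := h.cjD t h.z1
  obtain ⟨e, he⟩ : ∃ e, e = y1⁻¹ * z * y1 * (y⁻¹ * z * y) := ⟨_, rfl⟩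
  have m1 : e ∈ D1 := he ▸ mul_mem a1 a2
  have m2 : e ∈ D2 := he ▸ mul_mem_two h.i2 (h.l1 a1) (h.l1 a2) (h.zB t1 cx.or6) (h.zB t cx.or6)
  have e1 : y⁻¹ * z * y = y1⁻¹ * z * y1 * e := by rw [he, ← mul_assoc _ _ (y⁻¹ * z * y), h.e1 _ a1, one_mul]
  have key : ∀ c ∈ D1, c ∈ D2 → c * y1 = y1 * c → c * y = y * c := fun c c1 c2 c3 => by
    by_cases c0 : c = 1
    · rw [c0]; group
    refine (h.cor t cx.or6 c1 c2).resolve_right fun d => ?_
    have d1 : c * z * y2 = y2 * (c * z) := (h.symm.cor t2 cx.or6 c2 c1).resolve_left fun d =>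
      c0 (non_eq hN (h.l1 c1) (fun t ht => h.cen c1 c2 ht) c3 d)
    have := h.xsarg cx hT t1 t2 hN t (mul_mem c1 h.z1) (mul_mem c2 h.z2) d d1
    rw [eq_inv_of_mul_eq_one_left this, inv_eq h.e1 h.z1] at c3
    exact h.zA t1 cx.or6 c3
  rcases h.cor t1 cx.or6 m1 m2 with d | d
  · rw [e1, h.uniq0 cx hT t1 t2 hN t hC m1 m2 d (key e m1 m2 d) e1, mul_one]
    exact k2
  · have n1 := mul_mem m1 h.z1
    have n2 := mul_mem m2 h.z2
    have := h.uniq0 cx hT t1 t2 hN (Ty_inv t) hC n1 n2 d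
      (Commute.inv_right (show Commute (e * z) y from key _ n1 n2 d)).eq
      (by rw [inv_inv, h.zC t cx.or6, e1, mul_assoc])
    rw [e1, eq_inv_of_mul_eq_one_left this]
    exact mul_mem k2 (inv_mem k1)

theorem four {c e : G} (c1 : c ∈ D1) (c2 : c ∈ D2) (c3 : c * y1 = y1 * c) (c0 : c ≠ 1)
    (h1 : e ∈ D1) (h2 : e ∈ D2) : e = 1 ∨ e = z ∨ e = c ∨ e = c * z := by
  have d1 : c * z * y2 = y2 * (c * z) := (h.symm.cor t2 cx.or6 c2 c1).resolve_left fun d =>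
    c0 (non_eq hN (h.l1 c1) (fun t ht => h.cen c1 c2 ht) c3 d)
  have k3 : ∀ x ∈ D1, x ∈ D2 → x * y1 = y1 * x → x = 1 ∨ x = c := fun x h1 h2 h3 => by
    rcases h.symm.cor t2 cx.or6 h2 h1 with d2 | d2
    · exact Or.inl (non_eq hN (h.l1 h1) (fun t ht => h.cen h1 h2 ht) h3 d2)
    have d3 : x * c = x * z * (c * z) := by
      rw [h.e1.comm c1 h.z1, mul_assoc, ← mul_assoc z z, h.zz, one_mul]
    have := non_eq hN (h.l1 (mul_mem h1 c1)) (fun t ht => h.cen (mul_mem h1 c1)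
      (mul_mem h2 c2) ht) (Commute.mul_left (show Commute x y1 from h3) c3)
      (d3 ▸ Commute.mul_left (show Commute (x * z) y2 from d2) d1)
    exact Or.inr (by rw [eq_inv_of_mul_eq_one_left this, inv_eq h.e1 c1])
  rcases h.cor t1 cx.or6 h1 h2 with d | d
  · rcases k3 e h1 h2 d with k | k
    exacts [Or.inl k, Or.inr (Or.inr (Or.inl k))]
  · rcases k3 _ (mul_mem h1 h.z1) (mul_mem h2 h.z2) d with k | k
    · exact Or.inr (Or.inl (by rw [eq_inv_of_mul_eq_one_left k, inv_eq h.e1 h.z1]))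
    · exact Or.inr (Or.inr (Or.inr (by rw [← k, mul_assoc, h.zz, mul_one])))

theorem exists_c (e8 : P29.E8 (⊤ : Subgroup G)) :
    ∃ c ∈ D1, c ∈ D2 ∧ c * y1 = y1 * c ∧ c ≠ 1 := by
  by_contra k
  push Not at k
  have l : D1 ⊓ D2 ≤ zpowers z := fun e he => by
    rcases h.cor t1 cx.or6 he.1 he.2 with d | d
    · rw [k e he.1 he.2 d]; exact one_mem _
    · rw [eq_inv_of_mul_eq_one_left (k _ (mul_mem he.1 h.z1) (mul_mem he.2 h.z2) d)]
      exact inv_mem (mem_zpowers z)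
  have l1 := Subgroup.card_le_of_le l
  have l2 : orderOf z ≤ 2 := orderOf_le_of_pow_eq_one (by norm_num) (by rw [pow_two, h.zz])
  rw [Nat.card_zpowers] at l1
  have l3 := card_mul_relIndex (inf_le_right : D1 ⊓ D2 ≤ D2)
  have l4 := card_mul_relIndex h.l2
  rw [inf_idx2 h.l1 h.l2 h.i1 h.i2 h.ne.symm] at l3
  rw [h.i2] at l4
  obtain ⟨E, -, E1, E2⟩ := e8
  obtain ⟨g, hg⟩ := conj_le hT E1
  have el : El E := fun d hd => pow_two d ▸ E1.2 d hd
  have q := eq_of_le_of_card_le hg (by rw [card_conj_smul, E2]; omega)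
  obtain ⟨a, a1, a2⟩ := exists_of_idx2 h.l1 h.l2 h.i1 h.i2 h.ne
  obtain ⟨b, b1, b2⟩ := exists_of_idx2 h.l2 h.l1 h.i2 h.i1 h.ne.symm
  refine h.zne ?_
  rw [← h.cm a a1 a2 b b1 b2, mul_assoc (a * b)]
  exact (q ▸ el.conj g : El T) _ (mul_mem (h.l1 a1) (h.l2 b1))

theorem cenw {w : G} (hw : w ∈ 𝐍(T)) (ho : Odd (orderOf w)) {c : G} (c1 : c ∈ D1) (c2 : c ∈ D2)
    (c3 : c * y1 = y1 * c) (c0 : c ≠ 1) : XX T w = ⊥ := by
  have nD : ∀ {D1 D2 : Subgroup G}, Cf T D1 D2 z → w ∈ 𝐍(D1) := fun {D1 D2} h => by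
    have ix : ∀ {D : Subgroup G}, D ≤ T → D.relIndex T = 2 → ∀ {g}, g ∈ 𝐍(T) →
        MulAut.conj g • D ≤ T ∧ (MulAut.conj g • D).relIndex T = 2 := fun {D} a b {g} hg => by
      have e := mem_normalizer_iff_conj_smul.1 hg
      refine ⟨e ▸ conj_smul_mono g a, ?_⟩
      rw [← e]
      change (D.map (MulAut.conj g).toMonoidHom).relIndex (T.map (MulAut.conj g).toMonoidHom) = 2
      rw [relIndex_map_map_of_injective _ _ (MulAut.conj g).injective, b]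
    have k : ∀ {D : Subgroup G}, D ≤ T → D.relIndex T = 2 → El D → D = D1 ∨ D = D2 :=
      fun {D} a b c => by
        by_contra d
        push Not at d
        have := el_three h.l1 h.l2 a h.i1 h.i2 b h.e1 h.e2 c h.ne.symm d.1 d.2.symm
        obtain ⟨a, a1, a2⟩ := exists_of_idx2 h.l1 h.l2 h.i1 h.i2 h.ne
        obtain ⟨b, b1, b2⟩ := exists_of_idx2 h.l2 h.l1 h.i2 h.i1 h.ne.symm
        refine h.zne ?_
        rw [← h.cm a a1 a2 b b1 b2, mul_assoc (a * b)]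
        exact this _ (mul_mem (h.l1 a1) (h.l2 b1))
    refine X6.odd_mem_R ho (mem_normalizer_iff_conj_smul.2 ?_)
    rw [conj_smul_mul]
    rcases k (ix h.l1 h.i1 hw).1 (ix h.l1 h.i1 hw).2 (h.e1.conj w) with e | e
    · rw [e, e]
    rw [e]
    refine (k (ix h.l2 h.i2 hw).1 (ix h.l2 h.i2 hw).2 (h.e2.conj w)).resolve_right fun e' => ?_
    exact h.ne (smul_left_cancel _ (e.trans e'.symm))
  have n1 := nD h
  have n2 := nD h.symm
  have out : ∀ {D : Subgroup G}, w ∈ 𝐍(D) → ∀ {x}, x ∉ D → w * x * w⁻¹ ∉ D := fun {D} a {x} b e =>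
    b (by simpa [mul_assoc] using conj_mem_of_le_normalizer' le_rfl a e)
  have wz : w * z * w⁻¹ = z := by
    obtain ⟨a, a1, a2⟩ := exists_of_idx2 h.l1 h.l2 h.i1 h.i2 h.ne
    obtain ⟨b, b1, b2⟩ := exists_of_idx2 h.l2 h.l1 h.i2 h.i1 h.ne.symm
    refine Eq.trans ?_ (h.cm _ (X6.cj n1 a1) (out n2 a2) _ (X6.cj n2 b1) (out n1 b2))
    rw [← h.cm a a1 a2 b b1 b2]
    group
  have step : ∀ {x e}, w * x * w⁻¹ = x * e → w * e * w⁻¹ = e → e * e = 1 → w * x * w⁻¹ = x :=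
    fun {x e} a b d => by
      have : w ∈ 𝐂[x] := X6.odd_mem_R ho (mem_centralizer_singleton_iff.2 (by
        calc w * w * x = w * (w * x * w⁻¹) * w := by group
          _ = w * (x * e) * w := by rw [a]
          _ = w * x * w⁻¹ * (w * e * w⁻¹) * (w * w) := by group
          _ = _ := by rw [a, b, mul_assoc x, d, mul_one]))
      rw [mem_centralizer_singleton_iff.1 this, mul_inv_cancel_right]
  have wc : w * c * w⁻¹ = c := by
    rcases h.four cx hT t1 t2 hN c1 c2 c3 c0 (X6.cj n1 c1) (X6.cj n2 c2) with e | e | e | e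
    · exact absurd (conj_eq_one_iff.1 e) c0
    · rw [← wz, mul_left_inj, mul_right_inj] at e
      exact absurd (e ▸ c3) (h.zA t1 cx.or6)
    · exact e
    · exact step e wz h.zz
  have we : ∀ e ∈ D1, e ∈ D2 → w * e * w⁻¹ = e := fun e h1 h2 => by
    rcases h.four cx hT t1 t2 hN c1 c2 c3 c0 h1 h2 with e | e | e | e <;> rw [e]
    · group
    · exact wz
    · exact wc
    · rw [← conj_mul, wc, wz]
  have wt : ∀ x ∈ T, w * x * w⁻¹ = x := fun x hx => by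
    have m : ∀ {D : Subgroup G}, D.relIndex T = 2 → w ∈ 𝐍(D) → x⁻¹ * (w * x * w⁻¹) ∈ D :=
      fun {D} i n => (mul_mem_iff_two i (inv_mem hx) (X6.cj hw hx)).2
        ⟨fun a => X6.cj n (inv_mem_iff.1 a), fun a => inv_mem (by_contra fun b => out n b a)⟩
    exact step (mul_inv_cancel_left _ _).symm (we _ (m h.i1 n1) (m h.i2 n2)) (h.e1 _ (m h.i1 n1))
  refine eq_bot_iff.2 (commutator_le.2 fun x hx v hv => ?_)
  obtain ⟨k, rfl⟩ := mem_zpowers_iff.1 hv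
  exact mem_bot.2 (commutatorElement_eq_one_iff_commute.2
    (Commute.zpow_right (mul_inv_eq_iff_eq_mul.1 (wt x hx)).symm k))

theorem exists_T0 {c : G} (c1 : c ∈ D1) (c2 : c ∈ D2) (c3 : c * y1 = y1 * c) (c0 : c ≠ 1) :
    ∃ T0 ≤ T, T0.relIndex T = 2 ∧ z ∈ T0 ∧ y1⁻¹ * z * y1 ∈ T0 ∧ y2⁻¹ * z * y2 ∈ T0 := by
  obtain ⟨a, ha⟩ : ∃ a, a = y1⁻¹ * z * y1 := ⟨_, rfl⟩
  obtain ⟨b, hb⟩ : ∃ b, b = y2⁻¹ * z * y2 := ⟨_, rfl⟩
  have a1 : a ∈ D1 := ha ▸ h.cjD t1 h.z1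
  have a2 : a ∉ D2 := ha ▸ h.zB t1 cx.or6
  have b1 : b ∈ D2 := hb ▸ h.symm.cjD t2 h.z2
  have b2 : b ∉ D1 := hb ▸ h.symm.zB t2 cx.or6
  rw [← ha, ← hb]
  have aT := h.l1 a1
  have bT := h.l2 b1
  have zT := h.l1 h.z1
  have mz : ∀ {x}, x ∈ zpowers z → x = 1 ∨ x = z := fun hx => H2.AM.eq_or h.zz hx
  have nV : zpowers b ≤ 𝐍((zpowers a ⊔ zpowers z : Subgroup G)) := by
    refine zpowers_le.2 (mem_normalizer_of_conj_smul_le ?_)
    rw [smul_sup]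
    refine sup_le (H2.AM.conj_zpowers_le.2 ?_) (H2.AM.conj_zpowers_le.2 ?_)
    · rw [h.conj1 a1 a2 bT b2]
      exact mul_mem (mem_sup_left (mem_zpowers a)) (mem_sup_right (mem_zpowers z))
    · rw [h.cen h.z1 h.z2 bT, mul_inv_cancel_right]
      exact mem_sup_right (mem_zpowers z)
  have nZ : zpowers a ≤ 𝐍(zpowers z) := le_normalizer_of_le_centralizer (by
    rw [H2.AM.cent_zpowers]
    exact zpowers_le.2 (mem_centralizer_singleton_iff.2 (h.cen h.z1 h.z2 aT)))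
  have lV : zpowers a ⊔ zpowers z ≤ D1 := sup_le (zpowers_le.2 a1) (zpowers_le.2 h.z1)
  obtain ⟨T0, hT0⟩ : ∃ T0, T0 = zpowers b ⊔ (zpowers a ⊔ zpowers z) := ⟨_, rfl⟩
  have ma : a ∈ T0 := hT0 ▸ mem_sup_right (mem_sup_left (mem_zpowers a))
  have mb : b ∈ T0 := hT0 ▸ mem_sup_left (mem_zpowers b)
  have mz' : z ∈ T0 := hT0 ▸ mem_sup_right (mem_sup_right (mem_zpowers z))
  have nc : c ∉ T0 := fun e => by
    rw [hT0] at e
    obtain ⟨p, p1, q, q1, e'⟩ := (mem_sup_iff_of_le_normalizer nV).1 e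
    obtain ⟨r, r1, s, s1, e''⟩ := (mem_sup_iff_of_le_normalizer nZ).1 q1
    rcases H2.AM.eq_or (h.e2 b b1) p1 with d | d <;> rw [d] at e'
    swap
    · exact b2 ((Subgroup.mul_mem_cancel_right _ (lV q1)).1 (e'.symm ▸ c1))
    rw [one_mul, ← e''] at e'
    rcases H2.AM.eq_or (h.e1 a a1) r1 with d | d <;> rw [d] at e'
    swap
    · exact a2 ((Subgroup.mul_mem_cancel_right _ (zpowers_le.2 h.z2 s1)).1 (e'.symm ▸ c2))
    rw [one_mul] at e'
    rcases mz s1 with d | d <;> rw [d] at e'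
    · exact c0 e'.symm
    · exact h.zA t1 cx.or6 (e'.symm ▸ c3)
  have cc := h.e1 c c1
  have k0 : ∀ x ∈ D1, x ∈ D2 → c * x ∈ T0 ∨ x ∈ T0 := fun x h1 h2 => by
    rcases h.four cx hT t1 t2 hN c1 c2 c3 c0 h1 h2 with e | e | e | e <;> rw [e]
    · exact Or.inr (one_mem _)
    · exact Or.inr mz'
    · exact Or.inl (cc ▸ one_mem _)
    · exact Or.inl (by rwa [← mul_assoc, cc, one_mul])
  have k1 : ∀ {x g}, g ∈ T0 → (c * (x * g) ∈ T0 ∨ x * g ∈ T0) → c * x ∈ T0 ∨ x ∈ T0 :=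
    fun {x g} hg e => by
      rwa [← mul_assoc, Subgroup.mul_mem_cancel_right _ hg, Subgroup.mul_mem_cancel_right _ hg] at e
  have k2 : ∀ x ∈ D1, c * x ∈ T0 ∨ x ∈ T0 := fun x h1 => by
    by_cases d : x ∈ D2
    · exact k0 x h1 d
    exact k1 ma (k0 _ (mul_mem h1 a1) (mul_mem_two h.i2 (h.l1 h1) aT d a2))
  refine ⟨T0, hT0 ▸ sup_le (zpowers_le.2 bT) (lV.trans h.l1), ?_, mz', ma, mb⟩
  refine relIndex_eq_two_iff.2 ⟨c, h.l1 c1, fun x hx => ?_⟩
  rw [h.cen c1 c2 hx]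
  have k3 : c * x ∈ T0 ∨ x ∈ T0 := by
    by_cases d : x ∈ D1
    · exact k2 x d
    exact k1 mb (k2 _ (mul_mem_two h.i1 hx bT d b2))
  have k4 : ¬ (c * x ∈ T0 ∧ x ∈ T0) := fun e => nc ((Subgroup.mul_mem_cancel_right _ e.2).1 e.1)
  unfold Xor
  tauto

end Cf

theorem ne_top (hs : IsSimpleGroup G) (hc : ¬ IsMulCommutative G) {F : Subgroup G}
    (h0 : F ≠ ⊥) (h2 : IsPGroup 2 F) : 𝐍(F) ≠ ⊤ := fun e => by
  haveI : Fact (Nat.Prime 2) := ⟨Nat.prime_two⟩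
  have := (hs.eq_bot_or_eq_top_of_normal F (normalizer_eq_top_iff.1 e)).resolve_left h0
  subst this
  haveI := (h2.of_equiv topEquiv).isNilpotent
  exact hc ⟨⟨IsSimpleGroup.comm_iff_isSolvable.2 inferInstance⟩⟩

end CB

open CB

theorem caseBStmt (ga : GAStmt.{u}) (ii : IIStmt.{u}) (iii : IIIStmt.{u}) : CaseBStmt.{u} := by
  intro G _ _ cx hs hc e8 T hT h5 hA
  by_cases k : ∀ D y D' y', Ty 3 T D y → 𝐂(D) ≤ D → Ty 3 T D' y' → 𝐂(D') ≤ D' → XX D y ≤ D'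
  · obtain ⟨F, hF⟩ : ∃ F : Subgroup G, ∀ x, x ∈ F ↔ x ∈ T ∧
        ∀ D, (∃ y, Ty 3 T D y) → 𝐂(D) ≤ D → x ∈ D :=
      ⟨T ⊓ ⨅ D, ⨅ (_ : ∃ y, Ty 3 T D y), ⨅ (_ : 𝐂(D) ≤ D), D, fun x => by
        simp only [mem_inf, mem_iInf]⟩
    have FT : F ≤ T := fun x hx => ((hF x).1 hx).1
    have XF : ∀ D y, Ty 3 T D y → 𝐂(D) ≤ D → XX D y ≤ F := fun D y a b x hx =>
      (hF x).2 ⟨a.le (k D y D y a b a b hx), fun D' ⟨y', c⟩ d => k D y D' y' a b c d hx⟩
    have F0 : F ≠ ⊥ := fun e => by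
      by_cases ex : ∃ D y, Ty 3 T D y ∧ 𝐂(D) ≤ D
      · obtain ⟨D, y, a, b⟩ := ex
        refine a.ncen fun x hx => mem_centralizer_singleton_iff.2 ?_
        exact commutatorElement_eq_one_iff_mul_comm.1
          (mem_bot.1 (e ▸ XF D y a b (commutator_mem_commutator hx (mem_zpowers y))))
      have T0 : T = ⊥ := eq_bot_iff.2 fun x hx =>
        e ▸ (hF x).2 ⟨hx, fun D ⟨y, a⟩ b => (ex ⟨D, y, a, b⟩).elim⟩
      obtain ⟨E, -, E1, E2⟩ := e8
      obtain ⟨g, hg⟩ := conj_le hT E1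
      have := Subgroup.card_le_of_le hg
      rw [card_conj_smul, E2, T0, card_bot] at this
      omega
    refine ii G cx T 𝐍(F) hT (ne_top hs hc F0 (hT.pgrp.to_le FT)) (fun g hg => ?_)
      (fun D y a b => ?_) (fun D y a b c => (h5 D y a b c).elim) fun D L a b => (hA D L a b).elim
    · refine mem_normalizer_of_conj_smul_le (conj_smul_le_iff.2 fun x hx => mem_conj_smul.2 ?_)
      rw [inv_inv]
      refine (hF _).2 ⟨X6.cj hg (FT hx), fun D ⟨y, a⟩ b => ?_⟩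
      have := ((hF x).1 hx).2 _ ⟨_, a.conj' (inv_mem hg)⟩ (by
        rw [centralizer_conj_smul]; exact conj_smul_mono _ b)
      simpa using mem_conj_smul.1 this
    · refine mem_normalizer_of_conj_smul_le (conj_smul_le_iff.2 fun x hx => mem_conj_smul.2 ?_)
      have := mul_mem hx (XF D y a b (commutator_mem_commutator
        (inv_mem (((hF x).1 hx).2 D ⟨y, a⟩ b)) (mem_zpowers y)))
      rwa [commutatorElement_def, show x * (x⁻¹ * y * x⁻¹⁻¹ * y⁻¹) = y⁻¹⁻¹ * x * y⁻¹ by group]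
        at this
  exfalso
  push Not at k
  obtain ⟨D1, y1, D2, y2, t1, C1, t2, C2, k⟩ := k
  have hN : NoN T y1 y2 := fun N a b d e => by
    by_contra n0
    have p := t1.two.to_le a
    exact k ((le_inf ((commutator_le.2 fun x hx v hv =>
      X6.cml (zpowers_le.2 t1.nrm hv) hx).trans t1.le) (xsStmt G cx _ _ N _ t1 n0 p b d).1).trans
      (xsStmt G cx _ _ N _ t2 n0 p b e).2.1)
  obtain ⟨e1, e2⟩ := ga G cx T D1 D2 y1 y2 t1 t2 hN
  obtain ⟨z, h⟩ := exists_cf cx.or6 t1 t2.le t2.idx e1 e2 (hN.ne t1 t2)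
  obtain ⟨c, c1, c2, c3, c0⟩ := h.exists_c cx hT t1 t2 hN e8
  obtain ⟨T0, a0, a1, a2, a3, a4⟩ := h.exists_T0 cx hT t1 t2 hN c1 c2 c3 c0
  refine iii G cx hs hc T T0 hT a0 a1
    (fun w hw ho => h.cenw cx hT t1 t2 hN hw ho c1 c2 c3 c0 ▸ bot_le) (fun D y t hC => ?_) h5 hA
  rcases h.eq_or cx.or6 t with rfl | rfl
  · exact h.uniq cx hT t1 t2 hN t hC a2 a3
  · exact h.symm.uniq cx hT t2 t1 hN.symm t hC a2 a4

end Cfsg.Agent.P31
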