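import Cfsg.Agent.P31.Defs

/-! S4007: chapters AB and XS. -/

set_option autoImplicit false
set_option linter.unusedSectionVars false

namespace Cfsg.Agent.P31

open Subgroup Cfsg Cfsg.Agent Cfsg.Agent.FT Cfsg.Agent.P6
open scoped commutatorElement

universe u v

namespace X6

theorem a5_pow0 (σ : Equiv.Perm (Fin 5)) :
    Equiv.Perm.sign σ = 1 → σ ^ 2 = 1 ∨ σ ^ 3 = 1 ∨ σ ^ 5 = 1 := by
  revert σ; decide +kernel

theorem a5_pow (σ : A5) : σ ^ 2 = 1 ∨ σ ^ 3 = 1 ∨ σ ^ 5 = 1 :=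
  (a5_pow0 σ σ.2).imp Subtype.ext (Or.imp Subtype.ext Subtype.ext)

theorem a5_card : Nat.card A5 = 60 := by
  rw [Nat.card_eq_fintype_card, card_alternatingGroup]; simp; rfl

theorem eq_one_of {H : Type*} [Group H] {a : H} {m n : ℕ} (h1 : a ^ m = 1) (h2 : a ^ n = 1)
    (c : m.Coprime n) : a = 1 := by
  have := pow_gcd_eq_one.2 ⟨h1, h2⟩
  rwa [c, pow_one] at this

theorem a5_comm (a b : A5) (h1 : a * a = 1) (h2 : b ^ 3 = 1) (c : Commute a b) : a = 1 ∨ b = 1 := by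
  rw [← pow_two] at h1
  rcases a5_pow (a * b) with h | h | h <;> rw [c.mul_pow] at h
  · rw [h1, one_mul] at h
    exact Or.inr (eq_one_of h h2 (by norm_num))
  · rw [h2, mul_one] at h
    exact Or.inl (eq_one_of h h1 (by norm_num))
  · have := congrArg (· ^ 3) h
    simp only [(c.pow_pow 5 5).mul_pow, ← pow_mul, one_pow] at this
    rw [mul_comm 5 3, pow_mul b, h2, one_pow, mul_one] at this
    exact Or.inl (eq_one_of this h1 (by norm_num))

variable {G : Type u} [Group G] [Finite G] {M : Subgroup G}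

theorem O_le (M : Subgroup G) : O2 M ≤ M := H2.pCoreOf_le 2 M
theorem O_nrm (M : Subgroup G) : M ≤ 𝐍(O2 M) := H2.le_normalizer_pCoreOf 2 M
theorem O_two (M : Subgroup G) : IsPGroup 2 (O2 M) := H2.isPGroup_pCoreOf 2 M

theorem cj {H : Subgroup G} {g x : G} (hg : g ∈ 𝐍(H)) (hx : x ∈ H) : g * x * g⁻¹ ∈ H :=
  (mem_normalizer_iff.1 hg x).1 hx

theorem cml {H : Subgroup G} {g x : G} (hg : g ∈ 𝐍(H)) (hx : x ∈ H) : ⁅x, g⁆ ∈ H := by
  rw [commutatorElement_def, mul_assoc, mul_assoc, ← mul_assoc g]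
  exact mul_mem hx (cj hg (inv_mem hx))

theorem cmr {H : Subgroup G} {g x : G} (hg : g ∈ 𝐍(H)) (hx : x ∈ H) : ⁅g, x⁆ ∈ H :=
  mul_mem (cj hg hx) (inv_mem hx)

/-- A quotient map with kernel `O₂(M)`, shapes (b), (c). -/
structure Qd (M : Subgroup G) {Q : Type v} [Group Q] (π : M →* Q) : Prop where
  ker : ∀ x : M, π x = 1 ↔ (x : G) ∈ O2 M
  n8 : ¬ 8 ∣ Nat.card Q
  no6 : ∀ a b : Q, a * a = 1 → b ^ 3 = 1 → Commute a b → a = 1 ∨ b = 1

instance O_normal (M : Subgroup G) : ((O2 M).subgroupOf M).Normal :=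
  (normal_subgroupOf_iff_le_normalizer (O_le M)).2 (O_nrm M)

theorem qd_B (h : ShB M) : Qd M (QuotientGroup.mk' ((O2 M).subgroupOf M)) := by
  have e : Nat.card (M ⧸ (O2 M).subgroupOf M) ∣ 10 := by
    change (O2 M).relIndex M ∣ 10
    rcases h with h | h
    · rw [h]; norm_num
    · rw [h.1]
  exact ⟨fun x => QuotientGroup.eq_one_iff x, fun c => absurd (c.trans e) (by norm_num),
    fun a b _ hb _ => Or.inr (eq_one_of hb (orderOf_dvd_iff_pow_eq_one.1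
      ((orderOf_dvd_natCard b).trans e)) (by norm_num))⟩

theorem qd_C {f : M →* A5} (k : ∀ x : M, f x = 1 ↔ (x : G) ∈ O2 M) : Qd M f :=
  ⟨k, by rw [a5_card]; norm_num, a5_comm⟩

theorem card_dvd_four {Q : Type v} [Group Q] [Finite Q] (h : ¬ 8 ∣ Nat.card Q) {P : Subgroup Q}
    (hP : IsPGroup 2 P) : 𝐨(P) ∣ 4 := by
  haveI : Fact (Nat.Prime 2) := ⟨Nat.prime_two⟩
  obtain ⟨k, hk⟩ := hP.exists_card_eq
  have h1 := card_subgroup_dvd_card P
  rw [hk] at h1 ⊢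
  refine pow_dvd_pow 2 (show k ≤ 2 from le_of_not_gt fun c => h ?_)
  exact (pow_dvd_pow 2 (show 3 ≤ k from c)).trans h1

theorem comm_of_four {Q : Type v} [Group Q] [Finite Q] {P : Subgroup Q} (h : 𝐨(P) ∣ 4) {a b : Q}
    (ha : a ∈ P) (hb : b ∈ P) : a * b = b * a := by
  haveI : Fact (Nat.Prime 2) := ⟨Nat.prime_two⟩
  obtain ⟨k, hk, e⟩ := (Nat.dvd_prime_pow Nat.prime_two (m := 2)).1 h
  have : IsMulCommutative P := by
    interval_cases k
    · haveI := (Nat.card_eq_one_iff_unique.1 e).1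
      exact ⟨⟨fun _ _ => Subsingleton.elim _ _⟩⟩
    · haveI := isCyclic_of_prime_card (p := 2) e
      infer_instance
    · exact IsPGroup.isMulCommutative_of_card_eq_prime_sq e
  exact congrArg Subtype.val (mul_comm' (⟨a, ha⟩ : P) ⟨b, hb⟩)

theorem fix_of_two {Q : Type v} [Group Q] [Finite Q] {P : Subgroup Q} (h : 𝐨(P) ∣ 2) {a g : Q}
    (ha : a ∈ P) (hg : g * a * g⁻¹ ∈ P) : g * a * g⁻¹ = a := by
  by_cases a1 : a = 1
  · simp [a1]
  have b1 : g * a * g⁻¹ ≠ 1 := fun e => a1 (conj_eq_one_iff.1 e)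
  rcases (Nat.dvd_prime Nat.prime_two).1 h with e | e
  · exact absurd (mem_bot.1 ((card_eq_one.1 e).le ha)) a1
  · obtain ⟨x, -, hx⟩ := (Nat.card_eq_two_iff' (1 : P)).1 e
    exact congrArg Subtype.val ((hx ⟨_, hg⟩ fun e => b1 (congrArg Subtype.val e)).trans
      (hx ⟨_, ha⟩ fun e => a1 (congrArg Subtype.val e)).symm)

/-- The image of a subgroup. -/
abbrev im {Q : Type v} [Group Q] (π : M →* Q) (S : Subgroup G) : Subgroup Q := (S.subgroupOf M).map π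

theorem im_two {Q : Type v} [Group Q] (π : M →* Q) {S : Subgroup G} (h : IsPGroup 2 S) :
    IsPGroup 2 (im π S) := (h.comap_subtype).map π

theorem im_mono {Q : Type v} [Group Q] (π : M →* Q) {S T : Subgroup G} (h : S ≤ T) :
    im π S ≤ im π T := map_mono (comap_mono h)

theorem mem_R_two (h6 : Or6 G) {O S : Subgroup G} (hS : IsPGroup 2 S) {c : G} (hc : c ∈ S)
    (h3 : c ^ 3 ∈ O) : c ∈ O := by
  have : c = (c ^ 3)⁻¹ := eq_inv_of_mul_eq_one_left (by rw [← pow_succ', h6.pow4 hS hc])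
  rw [this]; exact inv_mem h3

theorem odd_mem_R {R : Subgroup G} {w : G} (ho : Odd (orderOf w)) (h : w * w ∈ R) : w ∈ R := by
  obtain ⟨k, hk⟩ := ho
  have : w = (w * w) ^ (k + 1) := by
    rw [← pow_two, ← pow_mul, show 2 * (k + 1) = orderOf w + 1 by omega, pow_succ,
      pow_orderOf_eq_one, one_mul]
  rw [this]; exact pow_mem h _

theorem ab_q {Q : Type v} [Group Q] [Finite Q] {π : M →* Q} (q : Qd M π) {S : Subgroup G}
    (hS : IsPGroup 2 S) (le : S ≤ M) {a b : G} (ha : a ∈ S) (hb : b ∈ S) : ⁅a, b⁆ ∈ O2 M := by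
  refine (q.ker ⁅(⟨a, le ha⟩ : M), ⟨b, le hb⟩⁆).1 ?_
  rw [map_commutatorElement, commutatorElement_eq_one_iff_mul_comm]
  exact comm_of_four (card_dvd_four q.n8 (im_two π hS)) ⟨_, ha, rfl⟩ ⟨_, hb, rfl⟩

theorem inf_le {T D : Subgroup G} {y : G} {p : ℕ} (p2 : Odd p) (p1 : p ≠ 1) (t : Ty p T D y)
    (hT : T ≤ M) (hy : y ∈ M) {u d o : G} (hu : u ∈ T) (hd : d ∈ D) (ho : o ∈ O2 M)
    (e : u = d * o) : u ∈ D := by
  by_contra nu
  have h1 := t.inv u hu nu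
  have h2 : IsPGroup 2 (D ⊔ O2 M : Subgroup G) :=
    isPGroup_sup (t.two.to_le t.le) (O_two M) ((t.le.trans hT).trans (O_nrm M))
  have h3 : u * y * u⁻¹ * y⁻¹ ∈ D ⊔ O2 M := by
    have : u * y * u⁻¹ * y⁻¹ = d * ⁅o, y⁆ * d⁻¹ * ⁅d, y⁆ := by
      rw [e, commutatorElement_def, commutatorElement_def]; group
    rw [this]
    exact mul_mem (mem_sup_right (cj (O_nrm M (hT (t.le hd))) (cml (O_nrm M hy) ho)))
      (mem_sup_left (cml t.nrm hd))
  have h4 : y ^ 2 ∈ D ⊔ O2 M := by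
    have := mul_mem (inv_mem h3) (mem_sup_left h1)
    rwa [show (u * y * u⁻¹ * y⁻¹)⁻¹ * (u * y * u⁻¹ * y) = y ^ 2 by rw [pow_two]; group] at this
  obtain ⟨k, hk⟩ := h2 ⟨_, h4⟩
  have h5 : y ^ 2 ^ (k + 1) = 1 := by rw [pow_succ', pow_mul]; exact congrArg Subtype.val hk
  have := eq_one_of (pow_orderOf_eq_one y) h5 (t.ord ▸ (Nat.coprime_two_right.2 p2).pow_right _)
  exact p1 (by rw [← t.ord, this, orderOf_one])

theorem XX_le {Q : Type v} [Group Q] [Finite Q] {π : M →* Q} (q : Qd M π) {D : Subgroup G}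
    (hD : D ≤ M) {y : G} (hy : y ∈ M) (hn : y ∈ 𝐍(D)) (h : 𝐨(im π D) ∣ 2) : XX D y ≤ O2 M := by
  refine commutator_le.2 fun d hd w hw => ?_
  have wM := zpowers_le.2 hy hw
  refine (q.ker ⁅(⟨d, hD hd⟩ : M), ⟨w, wM⟩⁆).1 ?_
  rw [map_commutatorElement, commutatorElement_eq_one_iff_mul_comm]
  refine (mul_inv_eq_iff_eq_mul.1 (fix_of_two h ⟨_, hd, rfl⟩ ?_)).symm
  exact ⟨⟨w, wM⟩ * ⟨d, hD hd⟩ * ⟨w, wM⟩⁻¹, cj (zpowers_le.2 hn hw) hd, by
    rw [map_mul, map_mul, map_inv]⟩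

theorem xs_q {Q : Type v} [Group Q] [Finite Q] {π : M →* Q} (q : Qd M π) {T D : Subgroup G} {y : G}
    (t : Ty 3 T D y) (hT : T ≤ M) (hy : y ∈ M) :
    XX D y ≤ O2 M ∧ ∀ w ∈ M, w ∈ 𝐍(T) → XX T w ≤ O2 M := by
  have h4 := card_dvd_four q.n8 (im_two π t.two)
  obtain ⟨u, hu, xu⟩ := relIndex_eq_two_iff.1 t.idx
  have nu : u ∉ D := fun e => by
    simpa [e, D.one_mem] using xu 1 (one_mem T)
  have lt : im π D < im π T := lt_of_le_of_ne (im_mono π t.le) fun e => by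
    obtain ⟨d, hd, e2⟩ := e.ge (⟨⟨u, hT hu⟩, hu, rfl⟩ : π ⟨u, hT hu⟩ ∈ im π T)
    refine nu (inf_le (by decide) (by decide) t hT hy hu hd (o := (d : G)⁻¹ * u)
      ((q.ker (d⁻¹ * ⟨u, hT hu⟩)).1 (by rw [map_mul, map_inv, e2, inv_mul_cancel]))
      (mul_inv_cancel_left _ _).symm)
  have h2 : 𝐨(im π D) ∣ 2 := by
    have a1 := (Subgroup.card_dvd_of_le lt.le).trans h4
    have a2 : 𝐨(im π D) < 𝐨(im π T) := lt_of_not_ge fun e => lt.ne (eq_of_le_of_card_ge lt.le e)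
    have a3 := Nat.le_of_dvd (by norm_num) h4
    have a4 : 𝐨(im π D) < 4 := by omega
    generalize 𝐨(im π D) = n at a1 a4
    interval_cases n <;> simp_all
  have x1 := XX_le q (t.le.trans hT) hy t.nrm h2
  refine ⟨x1, fun w hw wn => XX_le q hT hw wn ?_⟩
  have y1 : π ⟨y, hy⟩ ≠ 1 := fun e => by
    obtain ⟨k, hk⟩ := O_two M ⟨y, (q.ker _).1 e⟩
    have := eq_one_of (pow_orderOf_eq_one y) (congrArg Subtype.val hk : y ^ 2 ^ k = 1)
      (t.ord ▸ (Nat.coprime_two_right.2 (by decide)).pow_right _)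
    have h3 := t.ord
    rw [this, orderOf_one] at h3
    omega
  have DO : ∀ d (hd : d ∈ D), π ⟨d, hT (t.le hd)⟩ = 1 := fun d hd => by
    refine (q.no6 _ (π ⟨y, hy⟩) ?_ ?_ ?_).resolve_right y1
    · rw [← pow_two]
      exact orderOf_dvd_iff_pow_eq_one.1 (((im π D).orderOf_dvd_natCard ⟨_, hd, rfl⟩).trans h2)
    · rw [← map_pow, ← map_one π]
      exact congrArg π (Subtype.ext (t.ord ▸ pow_orderOf_eq_one y))
    · refine commutatorElement_eq_one_iff_commute.1 ?_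
      rw [← map_commutatorElement]
      exact (q.ker _).2 (x1 (commutator_mem_commutator hd (mem_zpowers y)))
  have u2 : π ⟨u, hT hu⟩ ^ 2 = 1 := by
    have : u * u ∈ D := ((xu u hu).or).resolve_right nu
    rw [pow_two, ← map_mul]
    exact DO _ this
  have : im π T ≤ zpowers (π ⟨u, hT hu⟩) := by
    rintro _ ⟨a, ha, rfl⟩
    rcases (xu a ha).or with e | e
    · have := DO _ e
      rw [show (⟨(a : G) * u, hT (t.le e)⟩ : M) = a * ⟨u, hT hu⟩ from rfl, map_mul,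
        mul_eq_one_iff_eq_inv] at this
      rw [this]
      exact inv_mem (mem_zpowers _)
    · rw [show π a = 1 from DO _ e]
      exact one_mem _
  exact (Subgroup.card_dvd_of_le this).trans (by
    rw [Nat.card_zpowers]; exact orderOf_dvd_of_pow_eq_one u2)

theorem XX_le_A (h6 : Or6 G) {R D : Subgroup G} (nR : M ≤ 𝐍(R)) (h3 : ∀ r ∈ R, r ^ 3 ∈ O2 M)
    (hD : D ≤ M) (h2 : IsPGroup 2 D) {y : G} (hy : y ∈ R) (hn : y ∈ 𝐍(D)) : XX D y ≤ O2 M :=
  commutator_le.2 fun _ hd _ hw => mem_R_two h6 h2 (cml (zpowers_le.2 hn hw) hd)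
    (h3 _ (cmr (nR (hD hd)) (zpowers_le.2 hy hw)))

end X6

open X6

theorem abStmt : ABStmt.{u} := fun G _ _ cx N S h0 hN hS le a ha b hb => by
  rcases cx.sh N h0 hN with ⟨R, -, -, nR, h3, h2⟩ | h | ⟨⟨f, -, k⟩, -⟩
  · refine mem_R_two cx.or6 hS (cml (le_normalizer hb) ha) (h3 _ ?_)
    have : ⁅a, b⁆ = (a * b) * (a * b) * (b⁻¹ * (a * a)⁻¹ * b⁻¹⁻¹) * (b * b)⁻¹ := by
      rw [commutatorElement_def]; group
    rw [this]
    exact mul_mem (mul_mem (h2 _ (le (mul_mem ha hb)))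
      (cj (nR (le (inv_mem hb))) (inv_mem (h2 _ (le ha))))) (inv_mem (h2 _ (le hb)))
  · exact ab_q (qd_B h) hS le ha hb
  · exact ab_q (qd_C k) hS le ha hb

theorem xsStmt : XSStmt.{u} := fun G _ _ cx T D N y t h0 hN hT hy => by
  have i : T ⊓ O2 𝐍(N) ≤ D := fun u hu =>
    inf_le (by decide) (by decide) t hT hy hu.1 (one_mem D) hu.2 (one_mul u).symm
  rcases cx.sh N h0 hN with ⟨R, -, -, nR, h3, h2⟩ | h | ⟨⟨f, -, k⟩, -⟩
  · exact ⟨XX_le_A cx.or6 nR h3 (t.le.trans hT) (t.two.to_le t.le)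
      (odd_mem_R (t.ord ▸ by decide) (h2 y hy)) t.nrm, i, fun w hw wn ho =>
      XX_le_A cx.or6 nR h3 hT t.two (odd_mem_R ho (h2 w hw)) wn⟩
  · have := xs_q (qd_B h) t hT hy
    exact ⟨this.1, i, fun w hw wn _ => this.2 w hw wn⟩
  · have := xs_q (qd_C k) t hT hy
    exact ⟨this.1, i, fun w hw wn _ => this.2 w hw wn⟩

end Cfsg.Agent.P31
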