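import Cfsg.Agent.P31.GA
import Cfsg.Agent.P31.XS

/-!
Case B: two elementary subgroups of index two.
-/

set_option autoImplicit false
set_option linter.unusedSectionVars false

namespace Cfsg.Agent.P31.CB

open Subgroup Cfsg Cfsg.Agent Cfsg.Agent.FT H1 H2
open Cfsg.Agent.H2.AM (mul_mem_iff_two mul_mem_two)
open scoped commutatorElement Pointwise

universe u

variable {G : Type u} [Group G] [Finite G]

structure Cf (T D1 D2 : Subgroup G) (z : G) : Prop where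
  l1 : D1 ≤ T
  l2 : D2 ≤ T
  i1 : D1.relIndex T = 2
  i2 : D2.relIndex T = 2
  e1 : El D1
  e2 : El D2
  ne : D1 ≠ D2
  z1 : z ∈ D1
  z2 : z ∈ D2
  zne : z ≠ 1
  cm : ∀ a ∈ D1, a ∉ D2 → ∀ b ∈ D2, b ∉ D1 → a * b * a * b = z

theorem inv_eq {D : Subgroup G} (h : El D) {a : G} (ha : a ∈ D) : a⁻¹ = a :=
  inv_eq_of_mul_eq_one_right (h a ha)

theorem cen0 {T D1 D2 : Subgroup G} (l1 : D1 ≤ T) (l2 : D2 ≤ T) (i1 : D1.relIndex T = 2)
    (i2 : D2.relIndex T = 2) (e1 : El D1) (e2 : El D2) (ne : D1 ≠ D2) {e t : G} (h1 : e ∈ D1)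
    (h2 : e ∈ D2) (ht : t ∈ T) : t * e = e * t := by
  by_cases c : t ∈ D1
  · exact e1.comm c h1
  obtain ⟨b, b1, b2⟩ := exists_of_idx2 l2 l1 i2 i1 ne.symm
  have a1 := e1.comm (mul_mem_two i1 (l2 b1) ht b2 c) h1
  have a2 := e2.comm b1 h2
  have : b * (t * e) = b * (e * t) := by rw [← mul_assoc, a1, ← mul_assoc, ← a2, mul_assoc]
  exact mul_left_cancel this

theorem exists_cf (h6 : Or6 G) {T D1 D2 : Subgroup G} {y : G} (t : Ty 3 T D1 y) (l2 : D2 ≤ T)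
    (i2 : D2.relIndex T = 2) (e1 : El D1) (e2 : El D2) (ne : D1 ≠ D2) : ∃ z, Cf T D1 D2 z := by
  obtain ⟨a, a1, a2⟩ := exists_of_idx2 t.le l2 t.idx i2 ne
  obtain ⟨b, b1, b2⟩ := exists_of_idx2 l2 t.le i2 t.idx ne.symm
  have cen := fun {e s : G} => cen0 (e := e) (t := s) t.le l2 t.idx i2 e1 e2 ne
  refine ⟨a * b * a * b, t.le, l2, t.idx, i2, e1, e2, ne, ?_, ?_, fun e => ?_, fun a' c1 c2 b' d1 d2 => ?_⟩
  · have := mul_mem a1 (X6.cj (t.normD (l2 b1)) a1)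
    rwa [inv_eq e2 b1, ← mul_assoc, ← mul_assoc] at this
  · have := mul_mem (X6.cj (norm_of_idx2 l2 i2 (t.le a1)) b1) b1
    rwa [inv_eq e1 a1] at this
  · have c : a * b = b * a := by
      rw [mul_assoc (a * b), mul_eq_one_iff_eq_inv, mul_inv_rev, inv_eq e1 a1, inv_eq e2 b1] at e
      exact e
    refine b2 (t.mem_D h6 (l2 b1) fun d hd => ?_)
    by_cases k : d ∈ D2
    · exact e2.comm k b1
    have := cen (mul_mem a1 hd) (mul_mem_two i2 (t.le a1) (t.le hd) a2 k) (l2 b1)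
    have k2 : a * (d * b) = a * (b * d) := by rw [← mul_assoc, ← this, ← mul_assoc, ← c, mul_assoc]
    exact mul_left_cancel k2
  · obtain ⟨e, he⟩ : ∃ e, e = a * a' := ⟨_, rfl⟩
    obtain ⟨f, hf⟩ : ∃ f, f = b * b' := ⟨_, rfl⟩
    have m1 : e ∈ D1 := he ▸ mul_mem a1 c1
    have m2 : e ∈ D2 := he ▸ mul_mem_two i2 (t.le a1) (t.le c1) a2 c2
    have m3 : f ∈ D1 := hf ▸ mul_mem_two t.idx (l2 b1) (l2 d1) b2 d2
    have m4 : f ∈ D2 := hf ▸ mul_mem b1 d1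
    obtain rfl : a' = a * e := by rw [he, ← mul_assoc, e1 a a1, one_mul]
    obtain rfl : b' = b * f := by rw [hf, ← mul_assoc, e2 b b1, one_mul]
    have k1 : Commute (a * b) (e * f) :=
      cen (mul_mem m1 m3) (mul_mem m2 m4) (mul_mem (t.le a1) (l2 b1))
    have k2 : a * e * (b * f) = a * b * (e * f) := by
      rw [mul_assoc, ← mul_assoc e, ← cen m1 m2 (l2 b1)]; group
    rw [mul_assoc (a * e * (b * f)), k2, ← pow_two, k1.mul_pow, pow_two (e * f),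
      e1 _ (mul_mem m1 m3), mul_one, pow_two, ← mul_assoc]

theorem mem3 {y w : G} (h : orderOf y = 3) (hw : w ∈ zpowers y) : w = 1 ∨ w = y ∨ w = y⁻¹ := by
  obtain ⟨k, rfl⟩ := mem_zpowers_iff.1 hw
  rw [← zpow_mod_orderOf, h]
  have h3 : y * y * y = 1 := by rw [← pow_three', ← h, pow_orderOf_eq_one]
  have : k % ((3 : ℕ) : ℤ) = 0 ∨ k % ((3 : ℕ) : ℤ) = 1 ∨ k % ((3 : ℕ) : ℤ) = 2 := by omega
  rcases this with e | e | e <;> rw [e]
  · simp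
  · simp
  · exact Or.inr (Or.inr (by rw [zpow_two, eq_inv_of_mul_eq_one_left h3]))

namespace Cf

variable {T D1 D2 : Subgroup G} {z : G} (h : Cf T D1 D2 z)
include h

theorem zz : z * z = 1 := h.e1 z h.z1

theorem symm : Cf T D2 D1 z :=
  ⟨h.l2, h.l1, h.i2, h.i1, h.e2, h.e1, h.ne.symm, h.z2, h.z1, h.zne, fun b b1 b2 a a1 a2 => by
    rw [← inv_eq h.e1 h.z1, ← h.cm a a1 a2 b b1 b2]
    simp only [mul_inv_rev, inv_eq h.e1 a1, inv_eq h.e2 b1, mul_assoc]⟩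

theorem cen {e t : G} (h1 : e ∈ D1) (h2 : e ∈ D2) (ht : t ∈ T) : t * e = e * t :=
  cen0 h.l1 h.l2 h.i1 h.i2 h.e1 h.e2 h.ne h1 h2 ht

theorem conj1 {d u : G} (h1 : d ∈ D1) (h2 : d ∉ D2) (h3 : u ∈ T) (h4 : u ∉ D1) :
    u * d * u⁻¹ = d * z := by
  have k : ∀ b ∈ D2, b ∉ D1 → b * d * b⁻¹ = d * z := fun b b1 b2 => by
    rw [← h.cm d h1 h2 b b1 b2, inv_eq h.e2 b1, ← mul_assoc, ← mul_assoc, ← mul_assoc, h.e1 d h1,
      one_mul]
  by_cases c : u ∈ D2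
  · exact k u c h4
  rw [← k _ (mul_mem_two h.i2 h3 (h.l1 h1) c h2) fun e =>
    h4 ((Subgroup.mul_mem_cancel_right _ h1).1 e)]
  group

theorem sq {g : G} (hg : g ∈ T) (h1 : g ∉ D1) (h2 : g ∉ D2) : g * g = z := by
  obtain ⟨a, a1, a2⟩ := exists_of_idx2 h.l1 h.l2 h.i1 h.i2 h.ne
  rw [← h.cm a a1 a2 _ (mul_mem_two h.i2 (h.l1 a1) hg a2 h2) fun e =>
    h1 ((Subgroup.mul_mem_cancel_left _ a1).1 e), ← mul_assoc a a, h.e1 a a1, one_mul,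
    mul_assoc g a, ← mul_assoc a a, h.e1 a a1, one_mul]

variable {y : G} (t : Ty 3 T D1 y)
include t

theorem flip {e u : G} (h1 : e ∈ D1) (h2 : e ∈ D2) (h3 : u ∈ T) (h4 : u ∉ D1) :
    u * (y⁻¹ * e * y) * u⁻¹ = y * e * y⁻¹ := by
  have a1 := h.e1.comm (t.inv u h3 h4) h1
  have a2 := h.cen h1 h2 h3
  calc _ = y * (u * y * u⁻¹ * y)⁻¹ * (u * e * u⁻¹) * (u * y * u⁻¹ * y) * y⁻¹ := by group
    _ = y * (u * y * u⁻¹ * y)⁻¹ * (e * (u * y * u⁻¹ * y)) * y⁻¹ := by rw [a2]; group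
    _ = _ := by rw [← a1]; group

theorem yy : y⁻¹ * y⁻¹ = y := by
  rw [← mul_inv_rev, inv_eq_of_mul_eq_one_right t.y3']

theorem yy' : y * y = y⁻¹ := eq_inv_of_mul_eq_one_left t.y3'

theorem cjD {e : G} (h1 : e ∈ D1) : y⁻¹ * e * y ∈ D1 := conj_mem_of_le_normalizer' le_rfl t.nrm h1

theorem fix {e : G} (h1 : e ∈ D1) (h2 : e ∈ D2) (h3 : y⁻¹ * e * y ∈ D2) : e * y = y * e := by
  obtain ⟨u, u1, u2⟩ := t.exists_u
  have a := h.flip t h1 h2 u1 u2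
  rw [h.cen (h.cjD t h1) h3 u1, mul_inv_cancel_right] at a
  calc e * y = y * (y⁻¹ * e * y) := by group
    _ = y * y * e * y⁻¹ := by rw [a]; group
    _ = y * y * (y * (y⁻¹ * e * y) * y⁻¹) * y⁻¹ := by group
    _ = y * y * y * y * e * (y * y * y)⁻¹ := by rw [a]; group
    _ = _ := by rw [t.y3']; group

theorem nN (h6 : Or6 G) : y ∉ 𝐍(D1 ⊓ D2) := fun e => by
  have s := ty_inf h6 t h.l2 h.i2 h.ne e
  obtain ⟨u, u1, u2⟩ := s.exists_u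
  exact u2 (s.mem_D h6 u1 fun x hx => h.e2.comm hx.2 u1)

theorem zA (h6 : Or6 G) : z * y ≠ y * z := fun c => by
  obtain ⟨e, e1, e2⟩ : ∃ e ∈ D1 ⊓ D2, y⁻¹ * e * y ∉ D2 := by
    by_contra k
    push Not at k
    refine h.nN t h6 (inv_mem_iff.1 (mem_normalizer_of_conj_smul_le
      (conj_smul_le_iff.2 fun x hx => mem_conj_smul.2 ?_)))
    simpa using ⟨h.cjD t hx.1, k x hx⟩
  obtain ⟨u, u1, u2⟩ := t.exists_u
  have a := h.flip t e1.1 e1.2 u1 u2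
  rw [h.conj1 (h.cjD t e1.1) e2 u1 u2] at a
  have b : y * e * y⁻¹ * z = e := by
    calc _ = y⁻¹ * y⁻¹ * e * (y * y) * z := by rw [h.yy t, h.yy' t]
      _ = y⁻¹ * (y⁻¹ * e * y * (y * z)) := by group
      _ = y⁻¹ * (y⁻¹ * e * y * z) * y := by rw [← c]; group
      _ = e := by rw [a]; group
  rw [← a, mul_assoc, h.zz, mul_one] at b
  exact e2 (b.symm ▸ e1.2)

theorem zB (h6 : Or6 G) : y⁻¹ * z * y ∉ D2 := fun c => h.zA t h6 (h.fix t h.z1 h.z2 c)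

theorem zC (h6 : Or6 G) : y * z * y⁻¹ = y⁻¹ * z * y * z := by
  obtain ⟨u, u1, u2⟩ := t.exists_u
  rw [← h.flip t h.z1 h.z2 u1 u2, h.conj1 (h.cjD t h.z1) (h.zB t h6) u1 u2]

theorem cor (h6 : Or6 G) {e : G} (h1 : e ∈ D1) (h2 : e ∈ D2) :
    e * y = y * e ∨ e * z * y = y * (e * z) := by
  by_cases c : y⁻¹ * e * y ∈ D2
  · exact Or.inl (h.fix t h1 h2 c)
  refine Or.inr (h.fix t (mul_mem h1 h.z1) (mul_mem h2 h.z2) ?_)
  have := mul_mem_two h.i2 (h.l1 (h.cjD t h1)) (h.l1 (h.cjD t h.z1)) c (h.zB t h6)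
  rwa [show y⁻¹ * e * y * (y⁻¹ * z * y) = y⁻¹ * (e * z) * y by group] at this

theorem XX_le (h6 : Or6 G) {K : Subgroup G} (k1 : z ∈ K) (k2 : y⁻¹ * z * y ∈ K) : XX D1 y ≤ K := by
  refine commutator_le.2 fun d hd w hw => ?_
  have wn := zpowers_le.2 t.nrm hw
  have mul : ∀ {a b}, a ∈ D1 → b ∈ D1 → ⁅a, w⁆ ∈ K → ⁅b, w⁆ ∈ K → ⁅a * b, w⁆ ∈ K :=
    fun {a b} ha hb c1 c2 => by
      have := h.e1.comm ha (X6.cml wn hb)
      rw [show ⁅a * b, w⁆ = a * ⁅b, w⁆ * a⁻¹ * ⁅a, w⁆ by simp only [commutatorElement_def]; group,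
        this, mul_inv_cancel_right]
      exact mul_mem c2 c1
  have c0 : ∀ {c}, c * y = y * c → ⁅c, w⁆ ∈ K := fun {c} hc => by
    obtain ⟨k, rfl⟩ := mem_zpowers_iff.1 hw
    rw [commutatorElement_eq_one_iff_commute.2 (Commute.zpow_right hc k)]
    exact one_mem _
  have zc := h.zC t h6
  have c1 : ⁅z, w⁆ ∈ K := by
    rw [commutatorElement_def, mul_assoc, mul_assoc, ← mul_assoc w, inv_eq h.e1 h.z1]
    refine mul_mem k1 ?_
    rcases mem3 t.ord hw with rfl | rfl | rfl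
    · simpa using k1
    · rw [zc]; exact mul_mem k2 k1
    · rwa [inv_inv]
  have c2 : ⁅y⁻¹ * z * y, w⁆ ∈ K := by
    rw [commutatorElement_def, mul_assoc, mul_assoc, ← mul_assoc w, inv_eq h.e1 (h.cjD t h.z1)]
    refine mul_mem k2 ?_
    rcases mem3 t.ord hw with rfl | rfl | rfl
    · simpa using k2
    · rwa [show w * (w⁻¹ * z * w) * w⁻¹ = z by group]
    · rw [show y⁻¹ * (y⁻¹ * z * y) * y⁻¹⁻¹ = y⁻¹ * y⁻¹ * z * (y * y) by group, h.yy t, h.yy' t, zc]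
      exact mul_mem k2 k1
  have c3 : ∀ e ∈ D1, e ∈ D2 → ⁅e, w⁆ ∈ K := fun e h1 h2 => by
    rcases h.cor t h6 h1 h2 with c | c
    · exact c0 c
    · have := mul (mul_mem h1 h.z1) h.z1 (c0 c) c1
      rwa [mul_assoc, h.zz, mul_one] at this
  by_cases c : d ∈ D2
  · exact c3 d hd c
  have a1 := h.cjD t h.z1
  have := mul (mul_mem hd a1) a1 (c3 _ (mul_mem hd a1)
    (mul_mem_two h.i2 (h.l1 hd) (h.l1 a1) c (h.zB t h6))) c2
  rwa [mul_assoc, h.e1 _ a1, mul_one] at this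

end Cf

theorem Cf.eq_or (h6 : Or6 G) {T D1 D2 D : Subgroup G} {z y : G} (h : Cf T D1 D2 z)
    (t : Ty 3 T D y) : D = D1 ∨ D = D2 := by
  by_contra c
  push Not at c
  have zD : ∀ e ∈ D1, e ∈ D2 → e ∈ D := fun e h1 h2 =>
    t.mem_D h6 (h.l1 h1) fun x hx => h.cen h1 h2 (t.le hx)
  have k : ∀ {D1 D2 : Subgroup G}, Cf T D1 D2 z → D ≠ D1 → (∀ e ∈ D1, e ∈ D2 → e ∈ D) →
      ∀ x ∈ D, x ∈ D1 → x ∈ D2 := fun {D1 D2} h c zD x hx h1 => by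
    by_contra h2
    obtain ⟨a, a1, a2⟩ := exists_of_idx2 h.l1 t.le h.i1 t.idx c.symm
    by_cases h3 : a ∈ D2
    · exact a2 (zD a a1 h3)
    exact a2 ((Subgroup.mul_mem_cancel_right _ hx).1
      (zD _ (mul_mem a1 h1) (mul_mem_two h.i2 (h.l1 a1) (h.l1 h1) h3 h2)))
  have s := ty_inf h6 t h.l1 h.i1 c.1 (mem_normalizer_of_conj_smul_le
    (conj_smul_le_iff.2 fun x hx => mem_conj_smul.2 (by
      rw [inv_inv]
      have m := X6.cj t.nrm hx.1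
      refine ⟨m, ?_⟩
      by_contra h1
      refine h.zne ((h.sq (t.le m) h1 fun h2 =>
        h1 (k h.symm c.2 (fun e a b => zD e b a) _ m h2)).symm.trans ?_)
      rw [conj_mul, h.e1 x hx.2, mul_one, mul_inv_cancel])))
  obtain ⟨u, u1, u2⟩ := s.exists_u
  exact u2 (s.mem_D h6 u1 fun x hx => h.e1.comm hx.2 u1)

end Cfsg.Agent.P31.CB
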