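/-
P31: the dihedral lemma.
-/
import Cfsg.Agent.P31.Ty
import Cfsg.Agent.P31.FinD
import Cfsg.Agent.P29.B

set_option autoImplicit false
set_option linter.unusedSectionVars false

namespace Cfsg.Agent.P31

open Subgroup Cfsg Cfsg.Agent Cfsg.Agent.FT

universe u

/-- An involution of `T ∖ D` inverts `y`. -/
theorem Ty.exists_inv5 {G : Type u} [Group G] [Finite G] (h6 : Or6 G) {T D : Subgroup G} {y : G}
    (h : Ty 5 T D y) : ∃ t ∈ T, t ∉ D ∧ t * t = 1 ∧ t * y * t⁻¹ = y⁻¹ := by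
  have fp := D9.fpf h6 (h.two.to_le h.le) h.ord
  obtain ⟨u, uT, uD⟩ : ∃ u ∈ T, u ∉ D := by
    by_contra! c
    have := h.idx
    rw [relIndex_eq_one.2 c] at this
    omega
  let φ : D → D := fun d => ⟨d * (y⁻¹ * (d : G)⁻¹ * y⁻¹⁻¹),
    mul_mem d.2 ((mem_normalizer_iff.1 (inv_mem h.nrm) _).1 (inv_mem d.2))⟩
  have inj : Function.Injective φ := fun a b e => by
    have e' : (a : G) * (y⁻¹ * (a : G)⁻¹ * y⁻¹⁻¹) = b * (y⁻¹ * (b : G)⁻¹ * y⁻¹⁻¹) :=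
      congrArg Subtype.val e
    refine Subtype.ext (inv_mul_eq_one.1 (fp _ (mul_mem (inv_mem a.2) b.2) ?_))
    calc y * ((a : G)⁻¹ * b) =
        y * (a : G)⁻¹ * (b * (y⁻¹ * (b : G)⁻¹ * y⁻¹⁻¹)) * y⁻¹ * b * y := by group
      _ = _ := by rw [← e']; group
  obtain ⟨d, e⟩ := Finite.surjective_of_injective inj ⟨_, h.inv u uT uD⟩
  have e' : (d : G) * (y⁻¹ * (d : G)⁻¹ * y⁻¹⁻¹) = u * y * u⁻¹ * y := congrArg Subtype.val e
  have m := mul_mem (inv_mem (h.le d.2)) uT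
  have i : (d : G)⁻¹ * u * y * ((d : G)⁻¹ * u)⁻¹ = y⁻¹ := by
    calc _ = (d : G)⁻¹ * (u * y * u⁻¹ * y) * y⁻¹ * d := by group
      _ = _ := by rw [← e']; group
  refine ⟨_, m, fun c => uD ((mul_mem_cancel_left (inv_mem d.2)).1 c),
    fp _ (P29.sq_mem_of_relIndex h.idx.le m) ?_, i⟩
  generalize (d : G)⁻¹ * u = t at i
  calc y * (t * t) = (t * y * t⁻¹)⁻¹ * (t * t) := by rw [i, inv_inv]
    _ = t * y⁻¹ * t := by group
    _ = _ := by rw [← i]; group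

theorem d10Stmt : D10Stmt.{u} := fun G _ _ h6 T D y h d hd => by
  obtain ⟨t, tT, -, tt, i⟩ := h.exists_inv5 h6
  have tN : t ∈ 𝐍(D) := norm_of_idx2 h.le h.idx tT
  have := H1.normal_subgroupOf_of_le (le_refl 𝐍(D))
  have e := fin_d10 (G := 𝐍(D)) (h6.of_injective _ (subtype_injective _)) (D.subgroupOf _)
    (h.two.to_le h.le).comap_subtype (f := ⟨y, h.nrm⟩) (t := ⟨t, tN⟩)
    (by rw [← orderOf_coe]; exact h.ord) (Subtype.ext tt)
    (Subtype.ext (by rw [inv_eq_of_mul_eq_one_right tt] at i; exact i))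
  have := congrArg Subtype.val (e.2 ⟨d, le_normalizer hd⟩ hd)
  rw [← pow_two]; exact this

end Cfsg.Agent.P31
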