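/-
P31, DA: control of fusion, and its consequences (ii), (iii).
-/
import Cfsg.Agent.P31.Defs

set_option autoImplicit false
set_option linter.unusedSectionVars false

namespace Cfsg.Agent.P31

open Subgroup Cfsg Cfsg.Agent Cfsg.Agent.FT Cfsg.Agent.P6
open scoped commutatorElement

universe u

namespace A9

variable {G : Type u} [Group G] [Finite G]

theorem exists_s (h6 : Or6 G) {P T : Subgroup G} (hT : IsPGroup 2 T) (h : P < T) :
    ∃ s ∈ T, s ∈ 𝐍(P) ∧ s ∉ P ∧ s * s ∈ P := by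
  obtain ⟨s, hs, h1⟩ := SetLike.exists_of_lt
    (lt_inf_norm_of_isNilpotent (isNilpotent_of_isPGroup Nat.prime_two hT) h)
  by_cases h2 : s * s ∈ P
  · exact ⟨s, hs.1, hs.2, h1, h2⟩
  refine ⟨s * s, mul_mem hs.1 hs.1, mul_mem hs.2 hs.2, h2, ?_⟩
  have := h6.pow4 hT hs.1
  rw [show s * s * (s * s) = s ^ 4 by simp only [pow_succ, pow_zero]; group, this]
  exact one_mem P

end A9

theorem daStmt (gen : GenStmt.{u}) (pu : PUStmt.{u}) : DAStmt.{u} := by
  intro G _ _ cx T R hT hR hN h3 h5 hA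
  have nil := isNilpotent_of_isPGroup Nat.prime_two hT.pgrp
  have step : ∀ n, (∀ (D : Subgroup G) (g : G), D ≤ T → D ^ᵍ g ≤ T → n < 𝐨(D) → ∀ d ∈ D, R g d) →
      ∀ (D : Subgroup G) (g : G), D ≤ T → D ^ᵍ g ≤ T → n = 𝐨(D) → ∀ d ∈ D, R g d := by
    intro n ih D g DT DgT hn d hd
    by_cases h0 : D = ⊥
    · rw [h0, mem_bot] at hd
      exact hd ▸ hR.one g
    rcases DT.eq_or_lt with rfl | lt
    · exact hN g (mem_norm_of_conj_le DgT) d hd
    have l1 := lt_inf_norm_of_isNilpotent nil lt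
    obtain ⟨S, hS, l2⟩ := exists_isSyl_ge Nat.prime_two (hT.pgrp.to_le inf_le_left)
      (inf_le_right : T ⊓ 𝐍(D) ≤ 𝐍(D))
    obtain ⟨h, -, l3⟩ := hT.exists_conj_le Nat.prime_two hS.pgrp le_top
    have hS' := hS.conj h
    rw [← norm_conj] at hS'
    have cE : n = 𝐨(D ^ᵍ h) := by rw [card_conj, hn]
    have E0 : D ^ᵍ h ≠ ⊥ := fun e => h0 (conj_eq_bot_iff.1 e)
    have ET : D ^ᵍ h ≤ S ^ᵍ h := conj_mono (l1.le.trans l2) h
    have EU : D ^ᵍ h < S ^ᵍ h := conj_lt_conj_iff.2 (l1.trans_le l2)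
    have r1 : R h d := ih _ h inf_le_left ((conj_mono l2 h).trans l3)
      (hn ▸ H1.card_lt_of_lt l1) d (l1.le hd)
    have lt' : D ^ᵍ g < T := DgT.lt_of_ne fun e => by
      have := H1.card_lt_of_lt lt
      rw [← e, card_conj] at this; omega
    have l4 := lt_inf_norm_of_isNilpotent nil lt'
    obtain ⟨m, hm, l5⟩ := hS'.exists_conj_le Nat.prime_two
      (Q := (T ⊓ 𝐍(D ^ᵍ g)) ^ᵍ (h * g⁻¹)) ((hT.pgrp.to_le inf_le_left).map _) (by
        refine (conj_mono inf_le_right _).trans (le_of_eq ?_)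
        rw [← norm_conj, conj_conj, inv_mul_cancel_right])
    rw [conj_conj] at l5
    have r3 := ih _ _ inf_le_left (l5.trans l3)
      (by have := H1.card_lt_of_lt l4; rwa [card_conj, ← hn] at this) _ (l4.le (conj_mem_conj hd g))
    have key : ∀ m ∈ 𝐍(D ^ᵍ h), ∀ e ∈ D ^ᵍ h, R m e := by
      generalize D ^ᵍ h = E at *
      generalize S ^ᵍ h = U at *
      have cj : ∀ a ∈ 𝐍(E), ∀ e ∈ E, a * e * a⁻¹ ∈ E := fun a ha e he =>
        (mem_normalizer_iff.1 ha e).1 he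
      have ET' := ET.trans l3
      let M : Subgroup G :=
        { carrier := {a | a ∈ 𝐍(E) ∧ ∀ e ∈ E, R a e}
          one_mem' := ⟨one_mem _, fun e he => hN 1 (one_mem _) e (ET' he)⟩
          mul_mem' := fun {a b} ha hb => ⟨mul_mem ha.1 hb.1, fun e he =>
            hR.mul b a e (ET' he) (ET' (cj b hb.1 e he)) (ET' (cj a ha.1 _ (cj b hb.1 e he)))
              (hb.2 e he) (ha.2 _ (cj b hb.1 e he))⟩
          inv_mem' := fun {a} ha => ⟨inv_mem ha.1, fun e he => by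
            have h1 := cj _ (inv_mem ha.1) e he
            have h2 : a * (a⁻¹ * e * a⁻¹⁻¹) * a⁻¹ = e := by group
            have := hR.inv a _ (ET' h1) (h2.symm ▸ ET' he) (ha.2 _ h1)
            rwa [h2] at this⟩ }
      have E2 : IsPGroup 2 E := hT.pgrp.to_le ET'
      have EO : E ≤ O2 𝐍(E) := le_pCoreOf ⟨le_normalizer, le_rfl⟩ E2
      have big : ∀ F : Subgroup G, E < F → F ≤ U → ∀ y ∈ 𝐍(E), y ∈ 𝐍(F) → y ∈ M :=
        fun F h1 h2 y hy hy' => ⟨hy, fun e he => ih F y (h2.trans l3)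
          ((conj_eq_of_mem_norm hy').le.trans (h2.trans l3)) (cE ▸ H1.card_lt_of_lt h1) e (h1.le he)⟩
      have top : ((∃ y, Ty 3 U E y) ∨ (∃ y, Ty 5 U E y ∧ El E) ∨ (∃ L, TyA U E L ∧ E ≠ ⊥)) →
          U = T := fun k => by
        by_contra e
        obtain ⟨s, -, s1, s2, s3⟩ := A9.exists_s cx.or6 hT.pgrp (l3.lt_of_ne e)
        exact pu G cx U E s hS' s1 s2 s3 k
      have ch : O2 𝐍(E) = E → 𝐂(E) ≤ E := fun e => by
        have := cx.ch2 E E0 E2
        rwa [e] at this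
      have hM := gen G cx E U M E0 E2 hS' (fun y hy => big U EU le_rfl y hy.1 hy.2)
        (fun F y h1 hy ty => by
          rcases (EO.trans h1).eq_or_lt with rfl | lt
          · obtain rfl := top (Or.inl ⟨y, ty⟩)
            exact ⟨hy, h3 _ y ty (ch (le_antisymm h1 EO))⟩
          · exact big F lt ty.le y hy ty.nrm)
        (fun y hy ty el => by
          rcases EO.eq_or_lt with e | lt
          · rw [← e] at ty el
            obtain rfl := top (Or.inr (Or.inl ⟨y, ty, el⟩))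
            exact ⟨hy, h5 _ y ty el (ch e.symm)⟩
          · exact big _ lt ty.le y hy ty.nrm)
        (fun ty y hy => by
          rcases EO.eq_or_lt with e | lt
          · rw [← e] at ty
            obtain rfl := top (Or.inr (Or.inr ⟨_, ty, E0⟩))
            exact ⟨hy, hA _ _ ty (ch e.symm) y hy⟩
          · exact big _ lt ty.le y hy (ty.nrm hy))
      exact fun m hm => (hM hm).2
    have m1 := conj_mem_conj hd h
    have m2 : m * (h * d * h⁻¹) * m⁻¹ ∈ D ^ᵍ h := (mem_normalizer_iff.1 hm _).1 m1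
    have r2 := hR.mul h m d (DT hd) (l3 (ET m1)) (l3 (ET m2)) r1 (key m hm _ m1)
    have e1 : m * (h * g⁻¹) * (g * d * g⁻¹) * (m * (h * g⁻¹))⁻¹ = m * h * d * (m * h)⁻¹ := by group
    have e2 : m * h * d * (m * h)⁻¹ ∈ T := by
      have := l3 (ET m2)
      rwa [show m * (h * d * h⁻¹) * m⁻¹ = m * h * d * (m * h)⁻¹ by group] at this
    have gd := DgT (conj_mem_conj hd g)
    have r4 := hR.inv _ _ gd (e1 ▸ e2) r3
    rw [e1] at r4
    have := hR.mul _ _ d (DT hd) e2 (by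
      rwa [show (m * (h * g⁻¹))⁻¹ * (m * h * d * (m * h)⁻¹) * (m * (h * g⁻¹))⁻¹⁻¹ = g * d * g⁻¹ by
        group]) r2 r4
    rwa [show (m * (h * g⁻¹))⁻¹ * (m * h) = g by group] at this
  have all : ∀ k (D : Subgroup G) (g : G), D ≤ T → D ^ᵍ g ≤ T → 𝐨(T) < 𝐨(D) + k →
      ∀ d ∈ D, R g d := fun k => by
    induction k with
    | zero => exact fun D g h1 _ h2 => absurd (card_le_of_le h1) (by omega)
    | succ k ih =>
      intro D g h1 h2 h3
      exact step _ (fun D' g' a b c => ih D' g' a b (by omega)) D g h1 h2 rfl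
  intro g d hd hg
  exact all (𝐨(T) + 1) (zpowers d) g (zpowers_le.2 hd)
    (by rw [← zpowers_conj]; exact zpowers_le.2 hg) (by omega) d (mem_zpowers d)

theorem iiStmt (da : DAStmt.{u}) : IIStmt.{u} := by
  intro G _ _ cx T M hT hM hN h3 h5 hA
  refine ⟨M, hM, se_quot hT (le_normalizer.trans hN) fun s hs is g hg =>
    (da G cx T (fun g d => d = 1 ∨ g ∈ M) hT ⟨fun _ => Or.inl rfl, ?_, ?_⟩
      (fun n hn _ _ => Or.inr (hN hn)) (fun D y a b _ _ => Or.inr (h3 D y a b))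
      (fun D y a b c _ _ => Or.inr (h5 D y a b c)) (fun D L a b n hn _ _ => Or.inr (hA D L a b hn))
      g s hs hg).resolve_left is.ne⟩
  · rintro g h d - - - (rfl | h1) (h2 | h2)
    exacts [Or.inl rfl, Or.inl rfl, Or.inl (by simpa using h2), Or.inr (mul_mem h2 h1)]
  · rintro g d - - (rfl | h1)
    exacts [Or.inl (by simp), Or.inr (inv_mem h1)]

theorem iiiStmt (da : DAStmt.{u}) : IIIStmt.{u} := by
  intro G _ _ cx hs na T T0 hT l0 i0 hN h3 h5 hA
  have mm : ∀ {a b : G}, a ∈ T → b ∈ T → (a * b ∈ T0 ↔ (a ∈ T0 ↔ b ∈ T0)) := fun {a b} ha hb =>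
    mul_mem_iff_of_index_two (H := T0.subgroupOf T) i0 (a := ⟨a, ha⟩) (b := ⟨b, hb⟩)
  have cm : ∀ (D : Subgroup G) (y : G), XX D y ≤ T0 → ∀ d ∈ D, y * d * y⁻¹ * d⁻¹ ∈ T0 :=
    fun D y h d hd => by
      have := inv_mem (h (commutator_mem_commutator hd (mem_zpowers y)))
      rwa [commutatorElement_inv] at this
  have hR : Grp T fun g d => g * d * g⁻¹ * d⁻¹ ∈ T0 :=
    ⟨fun g => by simp, fun g h d _ _ _ h1 h2 => by
      have := mul_mem h2 h1
      rwa [show h * (g * d * g⁻¹) * h⁻¹ * (g * d * g⁻¹)⁻¹ * (g * d * g⁻¹ * d⁻¹) =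
        h * g * d * (h * g)⁻¹ * d⁻¹ by group] at this, fun g d _ _ h1 => by
      have := inv_mem h1
      rwa [show (g * d * g⁻¹ * d⁻¹)⁻¹ = g⁻¹ * (g * d * g⁻¹) * g⁻¹⁻¹ * (g * d * g⁻¹)⁻¹ by group]
        at this⟩
  have key := da G cx T _ hT hR (fun n hn d hd => by
      obtain ⟨a, b, ha, hb, rfl, -, ⟨k, hk⟩, ho⟩ := H8.exists_pPart_pPrimePart Nat.prime_two n
      have bN := zpowers_le.2 hn hb
      have aT : a ∈ T := hT.le_of_norm Nat.prime_two (H8.isPGroup_zpowers_of_orderOf hk) le_top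
        (zpowers_le.2 (zpowers_le.2 hn ha)) (mem_zpowers a)
      have h1 : b * d * b⁻¹ ∈ T := (mem_normalizer_iff.1 bN d).1 hd
      refine hR.mul b a d hd h1 (mul_mem (mul_mem aT h1) (inv_mem aT))
        (cm T b (hN b bN (Nat.coprime_two_right.1 ho)) d hd) ?_
      rw [mm (mul_mem (mul_mem aT h1) (inv_mem aT)) (inv_mem h1), mm (mul_mem aT h1) (inv_mem aT),
        mm aT h1, inv_mem_iff, inv_mem_iff]
      tauto)
    (fun D y a b => cm D y (h3 D y a b)) (fun D y a b c => (h5 D y a b c).elim)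
    (fun D L a b => (hA D L a b).elim)
  obtain ⟨M, hM, -⟩ := P4.exists_index_two_of_fusion (S := T) (D := T0) (by
      have := hT.ndvd
      rwa [relIndex_top_right, ← even_iff_two_dvd, Nat.not_even_iff_odd] at this) i0
    fun a ha g hg => by
      have := key g a ha hg
      rw [mm hg (inv_mem ha), inv_mem_iff] at this
      exact this.symm
  exact H6.Cyc.index_ne_two na M hM

end Cfsg.Agent.P31
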