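/-
P31: groups with element orders at most 6 and a nontrivial normal 5-subgroup.
-/
import Cfsg.Agent.H2.SL23
import Cfsg.Agent.H9.FrobCompl
import Cfsg.Agent.H8.PComplement
import Cfsg.Agent.L.Cores

set_option autoImplicit false

namespace Cfsg.Agent.P31

open Subgroup Cfsg Cfsg.Agent

namespace FA

/-- A group with a unique involution and element orders dividing 4 or 6. -/
structure Cm {H : Type*} [Group H] (z : H) : Prop where
  ne : z ≠ 1
  sz : z * z = 1
  cen : ∀ g : H, g * z = z * g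
  uniq : ∀ u : H, u * u = 1 → u = 1 ∨ u = z
  ord : ∀ u : H, u ^ 4 = 1 ∨ u ^ 6 = 1

variable {H : Type*} [Group H] {z : H}

namespace Cm

theorem four (c : Cm z) {u : H} (h : u ^ 4 = 1) : u = 1 ∨ u = z ∨ u * u = z := by
  rcases c.uniq (u * u) (by rw [← h]; simp only [pow_succ, pow_zero, one_mul, mul_assoc]) with e | e
  exacts [(c.uniq u e).imp_right Or.inl, Or.inr (Or.inr e)]

theorem inv_eq (c : Cm z) {u : H} (h : u * u = z) : u⁻¹ = u * z :=
  inv_eq_of_mul_eq_one_right (by rw [← mul_assoc, h, c.sz])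

theorem conj_z (c : Cm z) (g : H) : g * z * g⁻¹ = z := by rw [c.cen, mul_inv_cancel_right]

theorem anti (c : Cm z) {u v : H} (hu : u * u = z) (hv : v * v = z) (h : u * v * (u * v) = z) :
    u * v * u⁻¹ = v * z := by
  have e : u * v * u = v := mul_right_cancel (b := v) (by rw [hv, ← h]; group)
  rw [c.inv_eq hu, ← mul_assoc, e]

theorem mul_case (c : Cm z) {u v : H} (hv : v * v = z) (h : (u * v) ^ 4 = 1) :
    u = v * z ∨ u = v ∨ u * v * (u * v) = z := by
  rcases c.four h with e | e | e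
  · exact Or.inl (by rw [← c.inv_eq hv, eq_inv_of_mul_eq_one_left e])
  · exact Or.inr (Or.inl (mul_right_cancel (e.trans hv.symm)))
  · exact Or.inr (Or.inr e)

theorem eight (c : Cm z) {K : Subgroup H} (hK : ∀ u ∈ K, u ^ 4 = 1) {i j u : H} (hi : i ∈ K)
    (hj : j ∈ K) (hu : u ∈ K) (ii : i * i = z) (jj : j * j = z) (ij : i * j * (i * j) = z) :
    u = 1 ∨ u = z ∨ u = i * z ∨ u = i ∨ u = j * z ∨ u = j ∨ u = i * j * z ∨ u = i * j := by
  by_contra hn
  simp only [not_or] at hn
  obtain ⟨n1, n2, n3, n4, n5, n6, n7, n8⟩ := hn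
  have uu := ((c.four (hK u hu)).resolve_left n1).resolve_left n2
  have a1 := c.anti uu ii
    (((c.mul_case ii (hK _ (mul_mem hu hi))).resolve_left n3).resolve_left n4)
  have a2 := c.anti uu jj
    (((c.mul_case jj (hK _ (mul_mem hu hj))).resolve_left n5).resolve_left n6)
  have a3 := c.anti uu ij
    (((c.mul_case ij (hK _ (mul_mem hu (mul_mem hi hj)))).resolve_left n7).resolve_left n8)
  refine c.ne (mul_left_cancel (a := i * j) ?_)
  calc i * j * z = (u * i * u⁻¹) * (u * j * u⁻¹) := by rw [← a3]; group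
    _ = i * (z * j) * z := by rw [a1, a2]; group
    _ = _ := by rw [← c.cen, mul_assoc, mul_assoc, c.sz, mul_one, mul_one]

theorem rel (c : Cm z) {i j : H} (ii : i * i = z) (jj : j * j = z) (ij : i * j * (i * j) = z) :
    i ^ (2 * 2) = 1 ∧ j * j = i ^ 2 ∧ i * j * i = j ∧ i ^ 2 ≠ 1 := by
  refine ⟨by rw [pow_mul, sq, sq, ii, c.sz], by rw [sq, ii, jj],
    mul_right_cancel (b := j) (by rw [jj, ← ij]; group), by rw [sq, ii]; exact c.ne⟩

theorem le_quat (c : Cm z) {K : Subgroup H} (hK : ∀ u ∈ K, u ^ 4 = 1) {i j : H} (hi : i ∈ K)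
    (hj : j ∈ K) (ii : i * i = z) (jj : j * j = z) (ij : i * j * (i * j) = z) :
    K ≤ zpowers i ⊔ zpowers j := fun u hu => by
  have a : i ∈ zpowers i ⊔ zpowers j := mem_sup_left (mem_zpowers i)
  have b : j ∈ zpowers i ⊔ zpowers j := mem_sup_right (mem_zpowers j)
  have d : z ∈ zpowers i ⊔ zpowers j := ii ▸ mul_mem a a
  rcases c.eight hK hi hj hu ii jj ij with e | e | e | e | e | e | e | e <;> rw [e]
  exacts [one_mem _, d, mul_mem a d, a, mul_mem b d, b, mul_mem (mul_mem a b) d, mul_mem a b]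

theorem card_le [Finite H] (c : Cm z) {K : Subgroup H} (hK : ∀ u ∈ K, u ^ 4 = 1) :
    Nat.card K ≤ 8 := by
  have key : ∀ i : H, i ^ 4 = 1 → K ≤ zpowers i → Nat.card K ≤ 8 := fun i h l =>
    (card_le_of_le l).trans (by
      rw [Nat.card_zpowers]
      exact (orderOf_le_of_pow_eq_one (by norm_num) h).trans (by norm_num))
  by_cases h1 : K ≤ zpowers z
  · exact key z (by rw [show 4 = 2 * 2 from rfl, pow_mul, sq z, c.sz, one_pow]) h1
  obtain ⟨i, hi, n⟩ := SetLike.not_le_iff_exists.1 h1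
  have ii : i * i = z := ((c.four (hK i hi)).resolve_left fun e => n (e ▸ one_mem _)).resolve_left
    fun e => n (e ▸ mem_zpowers _)
  by_cases h2 : K ≤ zpowers i
  · exact key i (hK i hi) h2
  obtain ⟨j, hj, m⟩ := SetLike.not_le_iff_exists.1 h2
  have d : z ∈ zpowers i := ii ▸ mul_mem (mem_zpowers i) (mem_zpowers i)
  have jj : j * j = z := ((c.four (hK j hj)).resolve_left fun e => m (e ▸ one_mem _)).resolve_left
    fun e => m (e ▸ d)
  have ji := ((c.mul_case ii (hK _ (mul_mem hj hi))).resolve_left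
    fun e => m (e ▸ mul_mem (mem_zpowers i) d)).resolve_left fun e => m (e ▸ mem_zpowers i)
  obtain ⟨r1, r2, r3, -⟩ := c.rel jj ii ji
  refine (card_le_of_le (c.le_quat hK hj hi jj ii ji)).trans ?_
  rw [← H2.range_quatHom r1 r2 r3]
  exact (Nat.card_le_card_of_surjective _ (MonoidHom.rangeRestrict_surjective _)).trans
    (by rw [Nat.card_eq_fintype_card, QuaternionGroup.card])

theorem not_comm (c : Cm z) {y g : H} (hy : orderOf y = 3) (gg : g * g = z) : ¬ Commute g y := by
  intro h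
  have y3 : y ^ 3 = 1 := hy ▸ pow_orderOf_eq_one y
  have g4 : g ^ 4 = 1 := by rw [show 4 = 2 * 2 from rfl, pow_mul, sq, sq, gg, c.sz]
  rcases c.ord (g * y) with e | e <;> rw [h.mul_pow] at e
  · rw [g4, one_mul, pow_succ, y3, one_mul] at e
    simp [e] at hy
  · rw [show 6 = 3 * 2 from rfl, pow_mul y, y3, one_pow, mul_one, show 3 * 2 = 4 + 2 from rfl,
      pow_add, g4, one_mul, sq, gg] at e
    exact c.ne e

theorem sl23 [Finite H] (c : Cm z) {y i : H} (hy : orderOf y = 3) (ii : i * i = z)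
    {Q : Subgroup H} [hQ : Q.Normal] (hi : i ∈ Q) (hK : ∀ u ∈ Q, u ^ 4 = 1)
    (top : Q ⊔ zpowers y = ⊤) : Nonempty (H ≃* Matrix.SpecialLinearGroup (Fin 2) (ZMod 3)) := by
  have y3 : y * y * y = 1 := by
    rw [← sq, ← pow_succ]; exact (hy ▸ pow_orderOf_eq_one y : y ^ 3 = 1)
  have sqc : ∀ {u : H}, u * u = z → y * u * y⁻¹ * (y * u * y⁻¹) = z := fun {u} e => by
    rw [← c.conj_z y, ← e]; group
  have cz : ∀ u : H, y * (u * z) * y⁻¹ = y * u * y⁻¹ * z := fun u => by
    rw [mul_assoc, mul_assoc, ← c.cen, mul_assoc, mul_assoc]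
  have n1 : ∀ {u : H}, u * u = z → y * u * y⁻¹ ≠ u := fun {u} e h =>
    c.not_comm hy e (mul_inv_eq_iff_eq_mul.1 h).symm
  have t3 : ∀ u : H, y * (y * (y * u * y⁻¹) * y⁻¹) * y⁻¹ = u := fun u => by
    calc _ = (y * y * y) * u * (y * y * y)⁻¹ := by group
      _ = u := by rw [y3]; group
  have n2 : ∀ {u : H}, u * u = z → y * u * y⁻¹ ≠ u * z := fun {u} e h => by
    have := t3 u
    rw [h, cz, h, mul_assoc u, c.sz, mul_one] at this
    exact n1 e this
  have fin : ∀ {i j : H}, i ∈ Q → j ∈ Q → i * i = z → j * j = z → i * j * (i * j) = z →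
      y * i * y⁻¹ = j → y * j * y⁻¹ = i * j →
      Nonempty (H ≃* Matrix.SpecialLinearGroup (Fin 2) (ZMod 3)) := by
    intro i j hi hj ii jj ij e1 e2
    obtain ⟨r1, r2, r3, r4⟩ := c.rel ii jj ij
    obtain ⟨e⟩ := H2.nonempty_equiv_SL23 r1 r2 r3 r4 hy e1 e2
    exact ⟨(topEquiv.symm.trans (MulEquiv.subgroupCongr (eq_top_iff.2 (top.ge.trans
      (sup_le_sup_right (c.le_quat hK hi hj ii jj ij) _))).symm)).trans e⟩
  obtain ⟨j, e1⟩ : ∃ j, y * i * y⁻¹ = j := ⟨_, rfl⟩
  have hj : j ∈ Q := e1 ▸ hQ.conj_mem i hi y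
  have jj : j * j = z := e1 ▸ sqc ii
  have zz : ∀ u v : H, u * z * (v * z) = u * v := fun u v => by
    calc _ = u * (z * v) * z := by group
      _ = _ := by rw [← c.cen, mul_assoc, mul_assoc, c.sz, mul_one]
  have ij : i * j * (i * j) = z := by
    rcases c.mul_case jj (hK _ (mul_mem hi hj)) with e | e | e
    · exact absurd (by rw [e1, e, mul_assoc, c.sz, mul_one]) (n2 ii)
    · exact absurd (e1.trans e.symm) (n1 ii)
    · exact e
  have t := t3 i
  rw [e1] at t
  have kk := sqc jj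
  rcases c.eight hK hi hj (hQ.conj_mem j hj y) ii jj ij with e | e | e | e | e | e | e | e
  · rw [e, mul_one] at kk; exact absurd kk.symm c.ne
  · rw [e, c.sz] at kk; exact absurd kk.symm c.ne
  · rw [e, cz, e1] at t
    exact absurd (by rw [e1, ← t, mul_assoc, c.sz, mul_one]) (n2 ii)
  · rw [e] at t; exact absurd t (n1 ii)
  · exact absurd e (n2 jj)
  · exact absurd e (n1 jj)
  · have hz : z ∈ Q := ii ▸ mul_mem hi hi
    exact fin (mul_mem hi hz) (mul_mem hj hz) (by rw [zz, ii]) (by rw [zz, jj]) (by rw [zz, ij])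
      (by rw [cz, e1]) (by rw [cz, e, zz, mul_assoc, c.sz, mul_one])
  · exact fin hi hj ii jj ij e1 e

theorem pow_yz (c : Cm z) (y : H) (n : ℕ) : (y * z) ^ n = y ^ n * z ^ n :=
  Commute.mul_pow (c.cen y) n

theorem q12 (c : Cm z) {y x : H} (hy : orderOf y = 3) (xx : x * x = z)
    (hx : x * y * x⁻¹ = y⁻¹) (hC : ∀ g : H, g * y * g⁻¹ = y → g ∈ zpowers (y * z))
    (hN : ∀ g : H, g * y * g⁻¹ = y ∨ g * y * g⁻¹ = y⁻¹) : Nonempty (H ≃* QuaternionGroup 3) := by
  have y3 : y ^ 3 = 1 := hy ▸ pow_orderOf_eq_one y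
  have y1 : y ≠ 1 := fun e => by simp [e] at hy
  have z2 : z ^ 2 = 1 := by rw [sq, c.sz]
  have p3 : (y * z) ^ 3 = z := by rw [c.pow_yz, y3, one_mul, pow_succ, z2, one_mul]
  have p4 : (y * z) ^ 4 = y := by
    rw [pow_succ, p3, ← c.cen, mul_assoc, c.sz, mul_one]
  have p6 : (y * z) ^ (2 * 3) = 1 := by rw [mul_comm, pow_mul, p3, z2]
  have r : y * z * x * (y * z) = x := by
    calc _ = y * (z * (x * y * x⁻¹ * x)) * z := by group
      _ = y * (y⁻¹ * x * z) * z := by rw [hx, ← c.cen]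
      _ = _ := by rw [mul_assoc, mul_assoc, c.sz]; group
  let ψ := H9.quatHom 3 (y * z) x p6 (xx.trans p3.symm) r
  have a1 : y * z ∈ ψ.range := ⟨QuaternionGroup.a 1, pow_one _⟩
  have a2 : x ∈ ψ.range := ⟨QuaternionGroup.xa 0, by change x * (y * z) ^ 0 = x; simp⟩
  refine ⟨(MulEquiv.ofBijective ψ ⟨(injective_iff_map_eq_one ψ).2 fun q hq => ?_,
    fun g => ?_⟩).symm⟩
  · have d : ∀ q : QuaternionGroup 3, q = 1 ∨ q ^ 3 = QuaternionGroup.a 3 ∨
        q ^ 2 = QuaternionGroup.a 3 ∨ q = QuaternionGroup.a 4 ∨ q ^ 2 = QuaternionGroup.a 4 := by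
      decide
    have e3 : ψ (QuaternionGroup.a 3) = z := p3
    have e4 : ψ (QuaternionGroup.a 4) = y := p4
    rcases d q with h | h | h | h | h
    · exact h
    · exact absurd (by rw [← e3, ← h, map_pow, hq, one_pow]) c.ne
    · exact absurd (by rw [← e3, ← h, map_pow, hq, one_pow]) c.ne
    · exact absurd (by rw [← e4, ← h, hq]) y1
    · exact absurd (by rw [← e4, ← h, map_pow, hq, one_pow]) y1
  · change g ∈ ψ.range
    rcases hN g with e | e
    · exact zpowers_le.2 a1 (hC g e)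
    · rw [show g = x * (x⁻¹ * g) by group]
      refine mul_mem a2 (zpowers_le.2 a1 (hC _ ?_))
      calc _ = x⁻¹ * (g * y * g⁻¹) * x := by group
        _ = y := by rw [e, ← hx]; group

theorem main [Finite H] (c : Cm z) {y i : H} (hy : orderOf y = 3) (ii : i * i = z)
    (r3 : ∀ P : Subgroup H, IsPGroup 3 P → y ∈ P → ∀ b ∈ P, b ^ 3 = 1 → b ∈ zpowers y)
    (r3' : ∀ b : H, b ^ 3 = 1 → Commute y b → b ∈ zpowers y) :
    Nonempty (H ≃* QuaternionGroup 3) ∨
      Nonempty (H ≃* Matrix.SpecialLinearGroup (Fin 2) (ZMod 3)) := by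
  have := Fact.mk Nat.prime_three
  have := Fact.mk Nat.prime_two
  have y3 : y ^ 3 = 1 := hy ▸ pow_orderOf_eq_one y
  have y1 : y ≠ 1 := fun e => by simp [e] at hy
  have i4 : i ^ 4 = 1 := by rw [show 4 = 2 * 2 from rfl, pow_mul, sq, sq, ii, c.sz]
  have cop : ∀ {u : H} {n : ℕ}, n.Coprime 3 → u ^ n = 1 → u ^ 4 = 1 := fun {u n} hn e => by
    refine (c.ord u).elim id fun e6 => ?_
    have h1 : orderOf u ∣ 3 * 2 := orderOf_dvd_of_pow_eq_one e6
    have h2 := ((hn.coprime_dvd_left (orderOf_dvd_of_pow_eq_one e)).dvd_mul_left).1 h1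
    exact orderOf_dvd_iff_pow_eq_one.1 (h2.trans (by norm_num))
  obtain ⟨P, hP⟩ := (H8.isPGroup_zpowers_of_orderOf (p := 3) (k := 1) hy).exists_le_sylow
  have eP : (P : Subgroup H) = zpowers y := by
    refine le_antisymm (fun b hb => r3 P P.isPGroup' (hP (mem_zpowers y)) b hb ?_) hP
    obtain ⟨k, hk⟩ := H8.exists_orderOf_eq_pow_of_mem P.isPGroup' hb
    rw [← orderOf_dvd_iff_pow_eq_one]
    rcases c.ord b with e | e <;> rw [← orderOf_dvd_iff_pow_eq_one, hk] at e <;> rw [hk]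
    · rw [((Nat.Coprime.pow_left k (by norm_num : Nat.Coprime 3 4))).eq_one_of_dvd e]; norm_num
    · exact ((Nat.Coprime.pow_left k (by norm_num : Nat.Coprime 3 2)).dvd_mul_right).1 e
  have cP : Nat.card (P : Subgroup H) = 3 := by rw [eP, Nat.card_zpowers, hy]
  by_cases hB : normalizer ((P : Subgroup H) : Set H) ≤ centralizer ((P : Subgroup H) : Set H)
  · right
    have hc := MonoidHom.ker_transferSylow_isComplement' P hB
    refine c.sl23 hy ii (Q := (MonoidHom.transferSylow P hB).ker) ?_ (fun u hu => ?_)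
      (eP ▸ hc.sup_eq_top)
    · refine H8.mem_of_coprime_index ?_
      rw [hc.symm.index_eq_card, cP]
      exact Nat.Coprime.coprime_dvd_left (orderOf_dvd_of_pow_eq_one i4) (by norm_num)
    · refine cop (n := Nat.card (MonoidHom.transferSylow P hB).ker) ?_
        (orderOf_dvd_iff_pow_eq_one.1 (Subgroup.orderOf_dvd_natCard _ hu))
      rw [← hc.index_eq_card]
      exact ((Nat.Prime.coprime_iff_not_dvd Nat.prime_three).2 P.not_dvd_index).symm
  left
  have nrm : ∀ g ∈ normalizer ((P : Subgroup H) : Set H), g * y * g⁻¹ = y ∨ g * y * g⁻¹ = y⁻¹ := by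
    intro g hg
    have h1 : g * y * g⁻¹ ∈ zpowers y := eP ▸ (mem_normalizer_iff.1 hg y).1 (hP (mem_zpowers y))
    classical
    rw [mem_zpowers_iff_mem_range_orderOf, hy] at h1
    simp only [Finset.mem_image, Finset.mem_range] at h1
    obtain ⟨k, hk, e⟩ := h1
    interval_cases k
    · exact absurd (by simpa using e.symm) y1
    · exact Or.inl (by rw [← e, pow_one])
    · exact Or.inr (by rw [← e, eq_inv_iff_mul_eq_one, ← pow_succ, y3])
  obtain ⟨x, hx, n⟩ := SetLike.not_le_iff_exists.1 hB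
  have ix : x * y * x⁻¹ = y⁻¹ := (nrm x hx).resolve_left fun e => n (by
    rw [eP, mem_centralizer_iff]
    rintro _ ⟨k, rfl⟩
    exact ((Commute.zpow_right (mul_inv_eq_iff_eq_mul.1 e) k).eq).symm)
  have yy : y ≠ y⁻¹ := fun e => y1 (by
    rwa [pow_succ, sq, mul_eq_one_iff_eq_inv.2 e, one_mul] at y3)
  have zc : ∀ g : H, g = 1 ∨ g = z → g * y * g⁻¹ = y := by
    rintro g (rfl | rfl)
    · simp
    · rw [← c.cen, mul_inv_cancel_right]
  have cube : ∀ {g : H}, g ^ 6 = 1 → g * g * g = 1 ∨ g * g * g = z := fun {g} e =>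
    c.uniq _ (by rw [← e]; simp only [pow_succ, pow_zero, one_mul, mul_assoc])
  have xx : x * x = z := by
    rcases c.ord x with e | e
    · rcases c.four e with e | e | e
      exacts [absurd ((zc x (Or.inl e)).symm.trans ix) yy,
        absurd ((zc x (Or.inr e)).symm.trans ix) yy, e]
    · refine absurd ((zc _ (cube e)).symm.trans ?_) yy
      have i2 : x * y⁻¹ * x⁻¹ = y := by
        calc _ = (x * y * x⁻¹)⁻¹ := by group
          _ = y := by rw [ix, inv_inv]
      calc _ = x * (x * (x * y * x⁻¹) * x⁻¹) * x⁻¹ := by group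
        _ = y⁻¹ := by rw [ix, i2, ix]
  have hz : z ∈ zpowers (y * z) := ⟨3, by
    change (y * z) ^ ((3 : ℕ) : ℤ) = z
    rw [zpow_natCast, c.pow_yz, y3, one_mul, pow_succ, sq, c.sz, one_mul]⟩
  have hy' : zpowers y ≤ zpowers (y * z) := zpowers_le.2 (by
    have := mul_mem (mem_zpowers (y * z)) hz
    rwa [mul_assoc, c.sz, mul_one] at this)
  have oz : ∀ g : H, g = 1 ∨ g = z → g ∈ zpowers (y * z) := by
    rintro g (rfl | rfl)
    exacts [one_mem _, hz]
  refine c.q12 hy xx ix (fun g e => ?_) fun g => nrm g ?_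
  · have cm : Commute g y := mul_inv_eq_iff_eq_mul.1 e
    rcases c.ord g with e | e
    · rcases c.four e with e | e | e
      exacts [oz g (Or.inl e), oz g (Or.inr e), absurd cm (c.not_comm hy e)]
    · rw [show g = g * g * g * (g * g)⁻¹ by group]
      exact mul_mem (oz _ (cube e)) (inv_mem (hy' (r3' _ (by rw [← sq, ← pow_mul, e])
        (cm.mul_left cm).symm)))
  · have m1 := card_sylow_modEq_one 3 H
    rw [P.card_eq_index_normalizer] at m1
    set M := normalizer ((P : Subgroup H) : Set H)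
    change M.index ≡ 1 [MOD 3] at m1
    have m2 : M.index = 2 ^ M.index.primeFactorsList.length :=
      Nat.eq_prime_pow_of_unique_prime_dvd index_ne_zero_of_finite fun {d} hd e => by
        have := Fact.mk hd
        obtain ⟨u, hu⟩ := exists_prime_orderOf_dvd_card' d (e.trans M.index_dvd_card)
        rcases c.ord u with h | h <;> rw [← orderOf_dvd_iff_pow_eq_one, hu] at h
        · exact (Nat.prime_dvd_prime_iff_eq hd Nat.prime_two).1 (hd.dvd_of_dvd_pow (n := 2) h)
        · rcases (Nat.Prime.dvd_mul (m := 2) (n := 3) hd).1 h with h | h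
          · exact (Nat.prime_dvd_prime_iff_eq hd Nat.prime_two).1 h
          · rw [(Nat.prime_dvd_prime_iff_eq hd Nat.prime_three).1 h] at e
            have := (Nat.modEq_zero_iff_dvd.2 e).symm.trans m1
            simp [Nat.ModEq] at this
    generalize M.index.primeFactorsList.length = b at m2
    have x4 : orderOf x = 2 ^ (1 + 1) := orderOf_eq_prime_pow
      (by rw [pow_one, sq, xx]; exact c.ne) (by rw [pow_succ, pow_one, pow_mul, sq, sq, xx, c.sz])
    have m3 : 2 ^ (1 + 1) * 2 ^ b ∣ Nat.card H := by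
      rw [← M.card_mul_index, ← m2, ← x4]
      exact Nat.mul_dvd_mul_right (Subgroup.orderOf_dvd_natCard M hx) _
    rcases b with _ | _ | b
    · rw [index_eq_one.1 m2]; trivial
    · rw [m2] at m1; simp [Nat.ModEq] at m1
    · exfalso
      obtain ⟨K, hK⟩ := Sylow.exists_subgroup_card_pow_prime 2 (n := 4) (G := H)
        ((show 2 ^ 4 ∣ 2 ^ (1 + 1) * 2 ^ (b + 1 + 1) from ⟨2 ^ b, by ring⟩).trans m3)
      have := c.card_le (K := K) fun u hu => cop (n := 2 ^ 4) (by norm_num)
        (orderOf_dvd_iff_pow_eq_one.1 (hK ▸ Subgroup.orderOf_dvd_natCard K hu))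
      omega

end Cm

end FA

theorem fin_five {G : Type*} [Group G] [Finite G] (o6 : ∀ g : G, orderOf g ≤ 6)
    (h4 : ∃ g : G, orderOf g = 4) (h6 : ∃ g : G, orderOf g = 6) (h5 : pCore 5 G ≠ ⊥) :
    ∃ (N : Subgroup G) (_ : N.Normal), IsElementaryAbelian 5 N ∧
      (Nonempty (G ⧸ N ≃* QuaternionGroup 3) ∨
        Nonempty (G ⧸ N ≃* Matrix.SpecialLinearGroup (Fin 2) (ZMod 3))) := by
  have p5 : Nat.Prime 5 := by norm_num
  have := Fact.mk p5
  set N := pCore 5 G with hN
  have n5 : ∀ n ∈ N, n ^ 5 = 1 := fun n hn => by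
    obtain ⟨k, hk⟩ := H8.exists_orderOf_eq_pow_of_mem (L.isPGroup_pCore 5) hn
    have := o6 n
    rw [← orderOf_dvd_iff_pow_eq_one, hk]
    rcases k with _ | _ | k
    · norm_num
    · norm_num
    · have := Nat.pow_le_pow_right (show 0 < 5 by norm_num) (show 2 ≤ k + 1 + 1 by omega)
      omega
  have c5 : ∀ {g n : G}, n ^ 5 = 1 → n ≠ 1 → Commute g n → g ^ 5 = 1 := fun {g n} e h1 c => by
    have on : orderOf n = 5 := orderOf_eq_prime e h1
    have a := o6 g
    have a0 := orderOf_pos g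
    rw [← orderOf_dvd_iff_pow_eq_one]
    by_cases d : 5 ∣ orderOf g
    · rw [show orderOf g = 5 by omega]
    · have b := o6 (g * n)
      rw [c.orderOf_mul_eq_mul_orderOf_of_coprime
        (on ▸ ((Nat.Prime.coprime_iff_not_dvd p5).2 d).symm), on] at b
      rw [show orderOf g = 1 by omega]; norm_num
  have two5 : ∀ {t : G}, t * t = 1 → t ^ 5 = 1 → t = 1 := fun {t} e h => by
    rwa [show 5 = 2 * 2 + 1 from rfl, pow_succ, pow_mul, sq t, e, one_pow, one_mul] at h
  have inv : ∀ {t : G}, t * t = 1 → t ≠ 1 → ∀ n ∈ N, t * n * t⁻¹ = n⁻¹ := by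
    intro t tt t1 n hn
    have hc := (inferInstance : N.Normal).conj_mem n hn t
    have key : ∀ m ∈ N, Commute t m → m = 1 := fun m hm c =>
      by_contra fun e => t1 (two5 tt (c5 (n5 m hm) e c))
    have ti : t⁻¹ = t := inv_eq_of_mul_eq_one_right tt
    -- `m ↦ m⁻¹ m^t` is injective on `N`, so onto
    let f : N → N := fun m => ⟨m⁻¹ * (t * m * t⁻¹),
      mul_mem (inv_mem m.2) ((inferInstance : N.Normal).conj_mem _ m.2 t)⟩
    have fi : Function.Injective f := fun a b e => by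
      have e1 : (a : G)⁻¹ * (t * a * t⁻¹) = (b : G)⁻¹ * (t * b * t⁻¹) := congrArg Subtype.val e
      refine Subtype.ext (mul_inv_eq_one.1 (key _ (mul_mem a.2 (inv_mem b.2)) ?_))
      calc t * (a * (b : G)⁻¹) = a * ((a : G)⁻¹ * (t * a * t⁻¹)) * (t * (b : G)⁻¹) := by group
        _ = _ := by rw [e1]; group
    obtain ⟨m, hm⟩ := Finite.surjective_of_injective fi ⟨n, hn⟩
    have e1 : (m : G)⁻¹ * (t * m * t⁻¹) = n := congrArg Subtype.val hm
    rw [← e1]
    calc _ = t * (m : G)⁻¹ * t⁻¹ * ((t * t) * m * (t * t)⁻¹) := by group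
      _ = _ := by rw [tt]; group
  obtain ⟨n0, hn0, n1⟩ := (N.bot_or_exists_ne_one).resolve_left h5
  have cN : centralizer (N : Set G) ≤ N := L.le_pCore inferInstance fun g => ⟨1, Subtype.ext
    (c5 (n5 n0 hn0) n1 (mem_centralizer_iff.1 g.2 n0 hn0).symm)⟩
  obtain ⟨w, hw⟩ := h4
  have w4 : w ^ 4 = 1 := hw ▸ pow_orderOf_eq_one w
  obtain ⟨t, ht⟩ : ∃ t, w * w = t := ⟨_, rfl⟩
  have tt : t * t = 1 := by rw [← ht, ← w4]; simp only [pow_succ, pow_zero, one_mul, mul_assoc]
  have t1 : t ≠ 1 := fun e => by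
    have := orderOf_le_of_pow_eq_one two_pos (show w ^ 2 = 1 by rw [sq, ht, e])
    omega
  have comm : IsMulCommutative N := ⟨⟨fun a b => Subtype.ext (by
    have e := inv tt t1 _ (mul_mem (inv_mem a.2) (inv_mem b.2))
    rw [show t * ((a : G)⁻¹ * (b : G)⁻¹) * t⁻¹ = (t * (a : G)⁻¹ * t⁻¹) * (t * (b : G)⁻¹ * t⁻¹) by
      group, inv tt t1 _ (inv_mem a.2), inv tt t1 _ (inv_mem b.2)] at e
    simpa using e)⟩⟩
  refine ⟨N, inferInstance, ⟨comm, n5⟩, ?_⟩
  let π := QuotientGroup.mk' N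
  have same : ∀ {s : G}, s * s = 1 → s ≠ 1 → π s = π t := fun {s} ss s1 => by
    refine QuotientGroup.eq.2 (cN (mem_centralizer_iff.2 fun n hn => ?_))
    calc n * (s⁻¹ * t) = s⁻¹ * (s * n * s⁻¹) * t := by
          rw [inv_eq_of_mul_eq_one_right ss]
          calc n * (s * t) = (s * s) * n * (s * t) := by rw [ss, one_mul]
            _ = _ := by group
      _ = _ := by rw [inv ss s1 n hn, ← inv tt t1 n hn, inv_eq_of_mul_eq_one_right tt]
                  calc s⁻¹ * (t * n * t) * t = s⁻¹ * t * n * (t * t) := by group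
                    _ = _ := by rw [tt, mul_one]
  have z1 : π t ≠ 1 := fun e => t1 (two5 tt (n5 t ((QuotientGroup.eq_one_iff t).1 e)))
  have cen : ∀ g : G ⧸ N, g * π t = π t * g := fun g => by
    obtain ⟨g, rfl⟩ := QuotientGroup.mk'_surjective N g
    have := same (s := g * t * g⁻¹) (by
      calc _ = g * (t * t) * g⁻¹ := by group
        _ = 1 := by rw [tt]; group) (fun e => t1 (by simpa using e))
    rw [map_mul, map_mul, map_inv] at this
    exact mul_inv_eq_iff_eq_mul.1 this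
  have zz : π t * π t = 1 := by rw [← map_mul, tt, map_one]
  have ords : ∀ g : G, g ^ 4 = 1 ∨ g ^ 6 = 1 ∨ g ^ 5 = 1 := fun g => by
    have a := o6 g
    have a0 := orderOf_pos g
    simp only [← orderOf_dvd_iff_pow_eq_one]
    generalize orderOf g = n at a a0
    interval_cases n <;> simp
  have five : ∀ g : G, g ^ 5 = 1 → π g = 1 := fun g e => by
    have c : Commute (π g) (π t) := cen _
    have g5 : π g ^ 5 = 1 := by rw [← map_pow, e, map_one]
    have z2 : π t ^ 2 = 1 := by rw [sq, zz]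
    have a : ∀ k, (g * t) ^ k = 1 → π g ^ k * π t ^ k = 1 := fun k h => by
      rw [← c.mul_pow, ← map_mul, ← map_pow, h, map_one]
    rcases ords (g * t) with h | h | h <;> have b := a _ h
    · rw [show 4 = 2 * 2 from rfl, pow_mul (π t), z2, one_pow, mul_one] at b
      rwa [pow_succ, b, one_mul] at g5
    · rw [show 6 = 2 * 3 from rfl, pow_mul (π t), z2, one_pow, mul_one] at b
      rwa [show 2 * 3 = 5 + 1 from rfl, pow_succ, g5, one_mul] at b
    · rw [g5, one_mul, pow_succ, show 4 = 2 * 2 from rfl, pow_mul, z2, one_pow, one_mul] at b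
      exact absurd b z1
  have c : FA.Cm (π t) := by
    refine ⟨z1, zz, cen, fun u hu => ?_, fun u => ?_⟩ <;>
      obtain ⟨g, rfl⟩ := QuotientGroup.mk'_surjective N u
    · have a : (g * g) ^ 5 = 1 := n5 _ ((QuotientGroup.eq_one_iff _).1 (by exact hu))
      by_cases e : g * g = 1
      · exact or_iff_not_imp_left.2 fun h => same e fun e' => h (by rw [e', map_one])
      · refine Or.inl (five g (c5 a e ((Commute.refl g).mul_right (Commute.refl g))))
    · rcases ords g with h | h | h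
      · exact Or.inl (by rw [← map_pow, h, map_one])
      · exact Or.inr (by rw [← map_pow, h, map_one])
      · exact Or.inl (by rw [show QuotientGroup.mk' N g = 1 from five g h, one_pow])
  let φ : G ⧸ N →* MulAut N := QuotientGroup.lift N MulAut.conjNormal fun n hn => by
    ext m
    have := congrArg Subtype.val (comm.is_comm.comm ⟨n, hn⟩ m)
    simp only [coe_mul] at this
    simp [this]
  have hφ : H9.IsFrobAction φ := fun a a1 n e => by
    obtain ⟨g, rfl⟩ := QuotientGroup.mk'_surjective N a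
    have e1 : g * n * g⁻¹ = n := congrArg Subtype.val e
    by_contra h
    exact a1 (five g (c5 (n5 n n.2) (fun e => h (Subtype.ext e)) (mul_inv_eq_iff_eq_mul.1 e1)))
  have : Nontrivial N := (nontrivial_iff_ne_bot N).2 h5
  obtain ⟨v, hv⟩ := h6
  have v6 : (v ^ 2) ^ 3 = 1 := by rw [← pow_mul, show 2 * 3 = 6 from rfl, ← hv, pow_orderOf_eq_one]
  have := Fact.mk Nat.prime_three
  have hy : orderOf (π (v ^ 2)) = 3 := orderOf_eq_prime (by rw [← map_pow, v6, map_one]) fun e => by
    have a := n5 _ ((QuotientGroup.eq_one_iff _).1 e)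
    rw [← pow_mul, ← orderOf_dvd_iff_pow_eq_one, hv] at a
    omega
  exact c.main hy (i := π w) (by rw [← map_mul, ht])
    (fun P hP hyP b hb e => hφ.mem_zpowers_of_isPGroup Nat.prime_three hP hyP hb hy e)
    fun b e h => hφ.mem_zpowers_of_commute Nat.prime_three hy e h

end Cfsg.Agent.P31
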