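/-
P31: an almost simple group with socle `A₆`, element orders at most 6 and an element of order 6
is `S₆`.
-/
import Cfsg.Agent.H8.AltAut
import Cfsg.Agent.FT.B.Conj

set_option autoImplicit false
set_option linter.unusedSectionVars false

namespace Cfsg.Agent.P31

open Subgroup Cfsg Cfsg.Agent Cfsg.Agent.FT Equiv Equiv.Perm MulAction

namespace C6

abbrev A6 := alternatingGroup (Fin 6)

theorem no6 (σ : A6) : orderOf σ ≠ 6 := fun e => by
  rw [← orderOf_coe] at e
  have h1 := lcm_cycleType (σ : Perm (Fin 6))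
  have h2 := sum_cycleType_le (σ : Perm (Fin 6))
  have h3 : ∀ a ∈ (σ : Perm (Fin 6)).cycleType, 2 ≤ a := fun a => two_le_of_mem_cycleType
  have h4 := sign_of_cycleType (σ : Perm (Fin 6))
  rw [e] at h1
  rw [mem_alternatingGroup.1 σ.2] at h4
  rw [Fintype.card_fin] at h2
  generalize (σ : Perm (Fin 6)).cycleType = m at h1 h2 h3 h4
  have h5 : Multiset.card m ≤ 3 := by
    have := Multiset.card_nsmul_le_sum h3
    rw [smul_eq_mul] at this
    omega
  have : m.card = 0 ∨ m.card = 1 ∨ m.card = 2 ∨ m.card = 3 := by omega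
  rcases this with h | h | h | h
  · rw [Multiset.card_eq_zero.1 h] at h1; simp at h1
  · obtain ⟨a, rfl⟩ := Multiset.card_eq_one.1 h
    simp at h1 h4
    subst h1
    revert h4; decide
  · obtain ⟨a, b, rfl⟩ := Multiset.card_eq_two.1 h
    have ha := h3 a (by simp)
    have hb := h3 b (by simp)
    simp at h1 h2 h4
    have : a ≤ 4 := by omega
    have : b ≤ 4 := by omega
    interval_cases a <;> interval_cases b <;> first | omega | (revert h1 h4; decide)
  · obtain ⟨a, b, c, rfl⟩ := Multiset.card_eq_three.1 h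
    have ha := h3 a (by simp)
    have hb := h3 b (by simp)
    have hc := h3 c (by simp)
    simp at h1 h2
    obtain rfl : a = 2 := by omega
    obtain rfl : b = 2 := by omega
    obtain rfl : c = 2 := by omega
    revert h1; decide

/-- Conjugation by permutations. -/
abbrev ψ : Perm (Fin 6) →* MulAut A6 := MulAut.conjNormal

theorem ψ_inj : Function.Injective ψ := by
  rw [injective_iff_map_eq_one]
  intro g hg
  ext1 a
  by_contra hab
  change g a ≠ a at hab
  have : 2 ≤ (({a, g a} : Finset (Fin 6))ᶜ).card := by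
    rw [Finset.card_compl, Finset.card_pair hab.symm]; simp
  rw [← Nat.lt_iff_add_one_le, Finset.one_lt_card_iff] at this
  obtain ⟨c, d, hc, hd, hcd⟩ := this
  simp only [Finset.compl_insert, Finset.mem_erase, ← ne_eq, Finset.mem_compl,
    Finset.mem_singleton] at hc hd
  have hk : swap (g a) d * swap (g a) c ∈ A6 := by simp [hc.2.symm, hd.2.symm]
  have h1 := congrArg Subtype.val (MulEquiv.congr_fun hg ⟨_, hk⟩)
  rw [MulAut.conjNormal_apply, mul_inv_eq_iff_eq_mul] at h1
  have h2 := Equiv.congr_fun h1 a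
  simp only [MulAut.one_apply, coe_mul, Function.comp_apply, swap_apply_left] at h2
  rw [swap_apply_of_ne_of_ne (x := a) hab.symm hc.1.symm,
    swap_apply_of_ne_of_ne hab.symm hd.1.symm, swap_apply_of_ne_of_ne hc.2 hcd] at h2
  exact hc.2 h2.symm

theorem ψ_coe (a : A6) : ψ a = MulAut.conj a := MulEquiv.ext fun _ => Subtype.ext rfl

theorem card3 {y : A6} (h : orderOf y = 3) :
    (y : Perm (Fin 6)).cycleType.card = 1 ∨ (y : Perm (Fin 6)).cycleType.card = 2 := by
  have h1 := cycleType_of_pow_prime_eq_one (σ := (y : Perm (Fin 6))) (p := 3) (by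
    rw [← Subgroup.coe_pow, ← h, pow_orderOf_eq_one]; rfl)
  have h2 := sum_cycleType_le (y : Perm (Fin 6))
  rw [h1, Multiset.sum_replicate, smul_eq_mul, Fintype.card_fin] at h2
  have h4 : 0 < (y : Perm (Fin 6)).cycleType.card := by
    rw [card_cycleType_pos]
    intro e
    rw [← orderOf_coe, e, orderOf_one] at h
    omega
  omega

/-- An automorphism that fixes an element of order 3 is induced by a permutation. -/
theorem mem_range {β : MulAut A6} {y : A6} (h : orderOf y = 3) (hy : β y = y) : β ∈ ψ.range := by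
  have h5 : 5 ≤ Nat.card (Fin 6) := by simp
  let t : A6 := ⟨swap 1 2 * swap 1 3, by simp⟩
  have ht : IsThreeCycle (t : Perm (Fin 6)) :=
    isThreeCycle_swap_mul_swap_same (by decide) (by decide) (by decide)
  have t3 : orderOf t = 3 := by rw [← orderOf_coe, ht.orderOf]
  have t1 : (t : Perm (Fin 6)).cycleType.card = 1 := by rw [ht.cycleType]; rfl
  have b3 : orderOf (β t) = 3 := by rw [MulEquiv.orderOf_eq, t3]
  have cc : ∀ {a b : A6}, IsConj a b →
      (a : Perm (Fin 6)).cycleType = (b : Perm (Fin 6)).cycleType := fun h =>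
    isConj_iff_cycleType_eq.1 (A6.subtype.map_isConj h)
  have h3 : IsThreeCycle ((β t : A6) : Perm (Fin 6)) := by
    rcases card3 h with y1 | y2
    · have h1 := H8.isConj_of_orderOf_three h5 t3 h (t1.trans y1.symm)
      have h2 : IsConj (β t) (β y) := β.toMonoidHom.map_isConj h1
      rw [hy] at h2
      exact (cc (h2.trans h1.symm)).trans ht
    rcases card3 b3 with y1 | y3
    · exact (cc (H8.isConj_of_orderOf_three h5 b3 t3 (y1.trans t1.symm))).trans ht
    · have h1 := H8.isConj_of_orderOf_three h5 b3 h (y3.trans y2.symm)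
      rw [← hy] at h1
      have h2 : IsConj (β.symm (β t)) (β.symm (β y)) := β.symm.toMonoidHom.map_isConj h1
      rw [MulEquiv.symm_apply_apply, MulEquiv.symm_apply_apply] at h2
      rw [← cc h2, t1] at y2
      omega
  have htr := alternatingGroup.isPretransitive_of_three_le_card (Fin 6) (by simp)
  obtain ⟨ω, hω⟩ := H8.exists_fixed_of_index_eq h5 ((stabilizer A6 (0 : Fin 6)).map β.toMonoidHom)
    (by
      rw [← index_stabilizer_of_transitive A6 (0 : Fin 6)]
      exact Subgroup.index_map_equiv _ β) ⟨t, show (t : Perm (Fin 6)) 0 = 0 by decide, rfl⟩ h3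
  obtain ⟨σ, -, hσ⟩ := (H8.exists_perm_inducing_iff A6 htr 0 β).2
    ⟨ω, fun g hg => hω _ ⟨g, hg, rfl⟩⟩
  exact ⟨σ, MulEquiv.ext fun g => Subtype.ext (hσ g).symm⟩

theorem cyc5 {f : A6} (h : orderOf f = 5) : (f : Perm (Fin 6)).cycleType = {5} := by
  have := Fact.mk Nat.prime_five
  have h1 := cycleType_of_pow_prime_eq_one (σ := (f : Perm (Fin 6))) (p := 5) (by
    rw [← Subgroup.coe_pow, ← h, pow_orderOf_eq_one]; rfl)
  have h2 := sum_cycleType_le (f : Perm (Fin 6))
  rw [h1, Multiset.sum_replicate, smul_eq_mul, Fintype.card_fin] at h2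
  have h4 : 0 < (f : Perm (Fin 6)).cycleType.card := by
    rw [card_cycleType_pos]
    intro e
    rw [← orderOf_coe, e, orderOf_one] at h
    omega
  rw [h1, show (f : Perm (Fin 6)).cycleType.card = 1 by omega]; rfl

/-- The theorem for a group of automorphisms of `A₆`. -/
theorem eq_range (R : Subgroup (MulAut A6)) (hR : ∀ a : A6, MulAut.conj a ∈ R)
    (o6 : ∀ g ∈ R, orderOf g ≤ 6) (h6 : ∃ g ∈ R, orderOf g = 6) : R = ψ.range := by
  have h5 : 5 ≤ Nat.card (Fin 6) := by simp
  have inj : Function.Injective (MulAut.conj : A6 →* MulAut A6) := fun a b e =>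
    Subtype.ext (ψ_inj (by rw [ψ_coe, ψ_coe, e]))
  obtain ⟨g, hg, g6⟩ := h6
  have g3 : orderOf (g ^ 2) = 3 ^ 1 := by rw [orderOf_pow, g6]; rfl
  obtain ⟨y, hy⟩ := H8.inner_of_orderOf_eq_pow h5 Nat.prime_three (by decide) (by simp) g3
  have y3 : orderOf y = 3 := by rw [← orderOf_injective _ inj, hy, g3]; rfl
  have cj : ∀ (β : MulAut A6) (a : A6), MulAut.conj (β a) = β * MulAut.conj a * β⁻¹ := fun β a =>
    MulEquiv.ext fun x => by simp
  obtain ⟨σ, hσ⟩ := mem_range (β := g) y3 (inj (by rw [cj, hy]; group))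
  have hA : σ ∉ A6 := fun h => no6 ⟨σ, h⟩ (by
    rw [← orderOf_coe, ← orderOf_injective _ ψ_inj, hσ, g6])
  have ge : ψ.range ≤ R := by
    rintro _ ⟨τ, rfl⟩
    by_cases h : τ ∈ A6
    · exact (ψ_coe ⟨τ, h⟩).symm ▸ hR ⟨τ, h⟩
    · have h1 : τ * σ ∈ A6 :=
        (mul_mem_iff_of_index_two alternatingGroup.index_eq_two).2 (iff_of_false h hA)
      have h2 : ψ (τ * σ) ∈ R := (ψ_coe ⟨_, h1⟩).symm ▸ hR ⟨_, h1⟩
      rwa [map_mul, hσ, mul_mem_cancel_right hg] at h2
  refine le_antisymm (fun β hβ => ?_) ge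
  have := Fact.mk Nat.prime_five
  obtain ⟨f, f5⟩ := exists_prime_orderOf_dvd_card' (G := A6) 5 (by
    rw [nat_card_alternatingGroup]; simp [Nat.factorial])
  obtain ⟨τ, hτ⟩ := isConj_iff.1 (isConj_iff_cycleType_eq.2
    ((cyc5 (f := β f) (by rw [MulEquiv.orderOf_eq, f5])).trans (cyc5 f5).symm))
  have c1 : (ψ τ * β) f = f := Subtype.ext hτ
  have c2 : Commute (ψ τ * β) (MulAut.conj f) := by
    have := cj (ψ τ * β) f
    rw [c1] at this
    exact (mul_inv_eq_iff_eq_mul.1 this.symm)
  have m1 : ψ τ * β ∈ R := mul_mem (ge ⟨τ, rfl⟩) hβ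
  have f5' : orderOf (MulAut.conj f) = 5 := by rw [orderOf_injective _ inj, f5]
  have : ∃ j, orderOf (ψ τ * β) = 5 ^ j := by
    have h1 := o6 _ m1
    have h2 := o6 _ (mul_mem m1 (hR f))
    by_cases h : (orderOf (ψ τ * β)).Coprime (orderOf (MulAut.conj f))
    · rw [c2.orderOf_mul_eq_mul_orderOf_of_coprime h, f5'] at h2
      have := orderOf_pos (ψ τ * β)
      exact ⟨0, by omega⟩
    · rw [f5', Nat.coprime_comm, Nat.prime_five.coprime_iff_not_dvd, not_not] at h
      have := orderOf_pos (ψ τ * β)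
      exact ⟨1, by omega⟩
  obtain ⟨j, hj⟩ := this
  obtain ⟨a, ha⟩ := H8.inner_of_orderOf_eq_pow h5 Nat.prime_five (by decide) (by simp) hj
  exact ⟨τ⁻¹ * a, by rw [map_mul, ψ_coe, ha, map_inv, inv_mul_cancel_left]⟩

end C6

theorem fin_s6 {G : Type*} [Group G] [Finite G] (o6 : ∀ g : G, orderOf g ≤ 6) (M : Subgroup G)
    [M.Normal] (hC : 𝐂(M) = ⊥) (e : M ≃* alternatingGroup (Fin 6)) (h6 : ∃ g : G, orderOf g = 6) :
    Nonempty (G ≃* Perm (Fin 6)) := by
  let φ : G →* MulAut C6.A6 := (MulAut.congr e).toMonoidHom.comp MulAut.conjNormal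
  have inj : Function.Injective φ := by
    rw [injective_iff_map_eq_one]
    intro g hg
    have h1 : (MulAut.conjNormal g : MulAut M) = 1 := (MulAut.congr e).injective
      (hg.trans (map_one _).symm)
    rw [← mem_bot, ← hC]
    intro m hm
    have := congrArg Subtype.val (MulEquiv.congr_fun h1 ⟨m, hm⟩)
    rw [MulAut.conjNormal_apply, mul_inv_eq_iff_eq_mul] at this
    exact this.symm
  have := C6.eq_range φ.range (fun a => ⟨(e.symm a : M), MulEquiv.ext fun x => by
      simp [φ, MulAut.conjNormal_val]⟩)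
    (by rintro _ ⟨g, rfl⟩; rw [orderOf_injective _ inj]; exact o6 g)
    (by obtain ⟨g, hg⟩ := h6; exact ⟨_, ⟨g, rfl⟩, by rw [orderOf_injective _ inj, hg]⟩)
  exact ⟨(MonoidHom.ofInjective inj).trans
    ((MulEquiv.subgroupCongr this).trans (MonoidHom.ofInjective C6.ψ_inj).symm)⟩

end Cfsg.Agent.P31
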