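/-
P31: the norm lemma for a Frobenius group acting on an abelian group.
-/
import Cfsg.Agent.P6.L12
import Cfsg.Agent.H5.Kegel

set_option autoImplicit false
set_option linter.unusedSectionVars false

namespace Cfsg.Agent.P31.FB

open Subgroup Cfsg Cfsg.Agent Cfsg.Agent.FT Finset

theorem hh {B A : Type*} [Group B] [Finite B] [CommGroup A] [Finite A] (φ : B →* MulAut A)
    {K : Subgroup B} {c : B} {n : ℕ} (hn : 0 < n) (hc : c ∈ 𝐍(K))
    (fpf : ∀ i, 0 < i → i < n → ∀ k ∈ K, c ^ i * k = k * c ^ i → k = 1)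
    (N0 : ∀ a : A, ∏ i ∈ range n, φ (c ^ i) a = 1) (cop : (Nat.card K).Coprime (Nat.card A))
    {k : B} (hk : k ∈ K) : φ k = 1 := by
  classical
  let : Fintype K := Fintype.ofFinite K
  have key : ∀ a : A, ∏ x : K, φ x a = a ^ Nat.card K := by
    intro a
    have e1 : ∏ x : K, ∏ i ∈ range n, φ (x * c ^ i * (x : B)⁻¹) a = 1 := by
      refine prod_eq_one fun x _ => ?_
      have := congrArg (φ x) (N0 (φ (x : B)⁻¹ a))
      rw [map_prod, map_one] at this
      rw [← this]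
      exact prod_congr rfl fun i _ => by simp only [map_mul, MulAut.mul_apply]
    have e2 : ∏ i ∈ range n, ∏ x : K, φ x (φ (c ^ i) a) = 1 := by
      rw [prod_comm]
      refine prod_eq_one fun x _ => ?_
      rw [← map_prod, N0, map_one]
    have e3 : ∀ i, 0 < i → i < n →
        ∏ x : K, φ (x * c ^ i * (x : B)⁻¹) a = ∏ x : K, φ x (φ (c ^ i) a) := by
      intro i h0 hi
      have hci : c ^ i ∈ 𝐍(K) := pow_mem hc i
      let f : K → K := fun x => ⟨x * (c ^ i * (x : B)⁻¹ * (c ^ i)⁻¹),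
        mul_mem x.2 ((mem_normalizer_iff.1 hci _).1 (inv_mem x.2))⟩
      have inj : Function.Injective f := fun x y e => by
        have e' : (x : B) * (c ^ i * (x : B)⁻¹ * (c ^ i)⁻¹) = y * (c ^ i * (y : B)⁻¹ * (c ^ i)⁻¹) :=
          congrArg Subtype.val e
        have := fpf i h0 hi ((y : B)⁻¹ * x) (mul_mem (inv_mem y.2) x.2) (by
          calc c ^ i * ((y : B)⁻¹ * x)
              = (y : B)⁻¹ * (y * (c ^ i * (y : B)⁻¹ * (c ^ i)⁻¹)) * c ^ i * x := by group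
            _ = _ := by rw [← e']; group)
        exact Subtype.ext (inv_mul_eq_one.1 this).symm
      rw [← (Finite.injective_iff_bijective.1 inj).prod_comp fun x : K => φ x (φ (c ^ i) a)]
      refine prod_congr rfl fun x _ => ?_
      rw [← MulAut.mul_apply, ← map_mul]
      congr 2
      simp only [f]; group
    rw [prod_comm] at e1
    obtain ⟨m, rfl⟩ := Nat.exists_eq_succ_of_ne_zero hn.ne'
    rw [prod_range_succ'] at e1 e2
    rw [prod_congr rfl fun i hi => e3 (i + 1) (by omega) (by simpa using hi)] at e1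
    have := mul_left_cancel (e1.trans e2.symm)
    simp only [pow_zero, mul_one, mul_inv_cancel, map_one, MulAut.one_apply, prod_const,
      card_univ] at this
    rw [← this, Nat.card_eq_fintype_card]
  ext a
  have e : ∏ x : K, φ x (φ k a) = ∏ x : K, φ x a := by
    rw [← Equiv.prod_comp (Equiv.mulRight (⟨k, hk⟩ : K)) fun x : K => φ x a]
    exact prod_congr rfl fun x _ => by simp
  rw [key, key] at e
  exact (powCoprime cop.symm).injective e

theorem hhg {G B : Type*} [Group G] [Finite G] [Group B] [Finite B] {V : Subgroup G} [V.Normal]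
    (hV : IsMulCommutative V) (φ : B →* MulAut V) {K : Subgroup B} {c : B} {g : G}
    (hg : φ c = MulAut.conjNormal g) {n : ℕ} (hn : 0 < n) (hc : c ∈ 𝐍(K))
    (fpf : ∀ i, 0 < i → i < n → ∀ k ∈ K, c ^ i * k = k * c ^ i → k = 1)
    (N0 : ∀ v ∈ V, (v * g) ^ n = g ^ n) (cop : (Nat.card K).Coprime (Nat.card V))
    {k : B} (hk : k ∈ K) : φ k = 1 := by
  let : CommGroup V := { (inferInstance : Group V) with mul_comm := hV.is_comm.comm }
  refine hh φ hn hc fpf (fun a => ?_) cop hk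
  have : ∀ m, ((∏ i ∈ range m, φ (c ^ i) a : V) : G) * g ^ m = (a * g) ^ m := by
    intro m
    induction m with
    | zero => simp
    | succ m ih =>
      rw [prod_range_succ, Subgroup.coe_mul, pow_succ (a * g : G), ← ih, map_pow, hg, ← map_pow,
        MulAut.conjNormal_apply]
      group
  have e := this n
  rw [N0 a a.2] at e
  exact Subtype.ext (mul_eq_right.1 e)

/-- A list of elements forming the kernel of a Frobenius group. -/
def Fr {B : Type*} [Group B] (l : List B) (c : B) (n p : ℕ) : Prop :=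
  1 ∈ l ∧ (∀ x ∈ l, ∀ y ∈ l, x * y ∈ l) ∧ (∀ x ∈ l, x⁻¹ ∈ l) ∧ (∀ x ∈ l, c * x * c⁻¹ ∈ l) ∧
    (∀ i < n, 0 < i → ∀ k ∈ l, c ^ i * k = k * c ^ i → k = 1) ∧ (∀ x ∈ l, x ^ p = 1) ∧
    (∃ x ∈ l, x ≠ 1) ∧ c ^ n = 1 ∧ ∀ i < n, 0 < i → c ^ i ≠ 1

instance {B : Type*} [Group B] [DecidableEq B] (l : List B) (c : B) (n p : ℕ) :
    Decidable (Fr l c n p) := by unfold Fr; infer_instance

theorem Fr.orderOf {B : Type*} [Group B] {l : List B} {c : B} {n p : ℕ} (h : Fr l c n p)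
    (hn : 0 < n) : orderOf c = n :=
  (orderOf_eq_iff hn).2 ⟨h.2.2.2.2.2.2.2.1, h.2.2.2.2.2.2.2.2⟩

theorem Fr.false {G B : Type*} [Group G] [Finite G] [Group B] [Finite B] {V : Subgroup G}
    [V.Normal] (hV : IsMulCommutative V) {φ : B →* MulAut V} (inj : Function.Injective φ)
    {l : List B} {c : B} {n p q : ℕ} (h : Fr l c n p) (hp : p.Prime) (hq : q.Prime) (ne : p ≠ q)
    (hVq : IsPGroup q V) (hn : 0 < n) {g : G} (hg : φ c = MulAut.conjNormal g)
    (N0 : ∀ v ∈ V, (v * g) ^ n = g ^ n) : False := by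
  obtain ⟨h1, h2, h3, h4, h5, h6, ⟨x, hx, x1⟩, -⟩ := h
  let K : Subgroup B := ⟨⟨⟨{x | x ∈ l}, fun {a b} ha hb => h2 a ha b hb⟩, h1⟩, fun {a} ha => h3 a ha⟩
  have : Fact p.Prime := ⟨hp⟩
  have : Fact q.Prime := ⟨hq⟩
  have hK : IsPGroup p K := fun y => ⟨1, Subtype.ext (by rw [pow_one]; exact h6 y y.2)⟩
  refine x1 (inj ?_)
  rw [map_one]
  refine hhg (K := K) hV φ hg hn (mem_norm_of_conj_le fun y hy => ?_)
    (fun i h0 hi => h5 i hi h0) N0 (IsPGroup.coprime_card_of_ne p q ne K V hK hVq) hx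
  obtain ⟨z, hz, rfl⟩ := mem_conj'.1 hy
  exact h4 z hz

open Equiv Equiv.Perm

/-- Even permutations from lists of transpositions. -/
def ev {n : ℕ} (a b c d : Fin n) (h1 : a ≠ b := by decide) (h2 : c ≠ d := by decide) :
    alternatingGroup (Fin n) :=
  ⟨swap a b * swap c d, by simp [mem_alternatingGroup, sign_swap h1, sign_swap h2]⟩

theorem fr5 : Fr ([1, ev 0 1 2 3, ev 0 2 1 3, ev 0 3 1 2] : List (alternatingGroup (Fin 5)))
    (ev 0 1 0 2) 3 2 := by decide +kernel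

theorem fr6 : Fr ([1, ev 0 1 2 3, ev 0 2 1 3, ev 0 3 1 2] : List (alternatingGroup (Fin 6)))
    (ev 0 1 0 2) 3 2 := by decide +kernel

theorem fr9 : Fr ([1, ev 0 1 0 2, ev 0 2 0 1, ev 3 4 3 5, ev 3 5 3 4,
    ev 0 1 0 2 * ev 3 4 3 5, ev 0 1 0 2 * ev 3 5 3 4, ev 0 2 0 1 * ev 3 4 3 5,
    ev 0 2 0 1 * ev 3 5 3 4] : List (alternatingGroup (Fin 6)))
    (ev 0 3 1 4 * ev 2 5 0 1) 4 3 := by decide +kernel

theorem fr20 : Fr ([1, finRotate 5, finRotate 5 ^ 2, finRotate 5 ^ 3, finRotate 5 ^ 4] :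
    List (Perm (Fin 5))) (swap 1 2 * swap 2 4 * swap 4 3) 4 5 := by decide +kernel

theorem d5 : ∃ f t : alternatingGroup (Fin 5), f ^ 5 = 1 ∧ f ≠ 1 ∧ t * t = 1 ∧ t ≠ 1 ∧
    t * f * t⁻¹ = f⁻¹ := ⟨ev 0 1 1 2 * ev 2 3 3 4, ev 1 4 2 3, by decide +kernel⟩

theorem d6 : ∃ f t : alternatingGroup (Fin 6), f ^ 5 = 1 ∧ f ≠ 1 ∧ t * t = 1 ∧ t ≠ 1 ∧
    t * f * t⁻¹ = f⁻¹ := ⟨ev 0 1 1 2 * ev 2 3 3 4, ev 1 4 2 3, by decide +kernel⟩

theorem no4 : ∀ σ : Perm (Fin 5), sign σ = 1 → σ ^ 4 = 1 → σ ^ 2 = 1 := by decide +kernel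

end Cfsg.Agent.P31.FB
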