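/-
P31: groups whose element orders are 1, ..., 6: reduction to the simple groups.
-/
import Cfsg.Agent.P31.FinH
import Cfsg.Agent.P31.FinC6
import Cfsg.Agent.P31.FinD
import Cfsg.Agent.H2.Components

set_option autoImplicit false
set_option linter.unusedSectionVars false

namespace Cfsg.Agent.P31.FB

open Subgroup Cfsg Cfsg.Agent Cfsg.Agent.FT
open scoped Pointwise

universe u

/-- The simple groups with element orders at most 6. -/
def Sim : Prop := ∀ (X : Type u) [Group X] [Finite X], IsSimpleGroup X → ¬ IsMulCommutative X →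
  (∀ x : X, orderOf x ≤ 6) →
  Nonempty (X ≃* alternatingGroup (Fin 5)) ∨ Nonempty (X ≃* alternatingGroup (Fin 6))

def S5Stmt : Prop := ∀ (G : Type u) [Group G] [Finite G] (M : Subgroup G) [M.Normal],
  𝐂(M) = ⊥ → (M ≃* alternatingGroup (Fin 5)) → M ≠ ⊤ → Nonempty (G ≃* Equiv.Perm (Fin 5))

section

variable {G : Type*} [Group G] [Finite G]

theorem o6_quot (o6 : ∀ g : G, orderOf g ≤ 6) (K : Subgroup G) [K.Normal] (x : G ⧸ K) :
    orderOf x ≤ 6 := by
  obtain ⟨g, rfl⟩ := QuotientGroup.mk'_surjective K x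
  exact (Nat.le_of_dvd (orderOf_pos g) (orderOf_map_dvd _ g)).trans (o6 g)

theorem five (o6 : ∀ g : G, orderOf g ≤ 6) {f x : G} (hf : f ^ 5 = 1) (h1 : f ≠ 1)
    (hc : f * x = x * f) : x ^ 5 = 1 := by
  have : Fact (Nat.Prime 5) := ⟨by norm_num⟩
  have of := orderOf_eq_prime hf h1
  by_cases h5 : 5 ∣ orderOf x
  · have : orderOf x = 5 := by have := o6 x; have := orderOf_pos x; omega
    rw [← this, pow_orderOf_eq_one]
  · have e := Commute.orderOf_mul_eq_mul_orderOf_of_coprime (x := f) (y := x) hc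
      (by rw [of]; exact (Nat.Prime.coprime_iff_not_dvd (by norm_num)).2 h5)
    have := o6 (f * x)
    have := orderOf_pos x
    rw [of] at e
    have : orderOf x = 1 := by omega
    rw [orderOf_eq_one_iff.1 this, one_pow]

omit [Finite G] in
theorem one_of_cop {x : G} {m n : ℕ} (h1 : x ^ m = 1) (h2 : x ^ n = 1) (c : m.Coprime n) :
    x = 1 := by
  rw [← orderOf_eq_one_iff]
  exact Nat.eq_one_of_dvd_coprimes c (orderOf_dvd_of_pow_eq_one h1) (orderOf_dvd_of_pow_eq_one h2)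

theorem pow_of_dvd (o6 : ∀ g : G, orderOf g ≤ 6) {x : G} {n : ℕ} (h4 : 4 ≤ n)
    (h : n ∣ orderOf x) : orderOf x = n := by
  obtain ⟨k, hk⟩ := h
  have h1 := o6 x
  have h2 := orderOf_pos x
  rw [hk] at h1 h2 ⊢
  rcases k with _ | _ | k
  · simp at h2
  · simp
  · nlinarith

theorem prime_cases (o6 : ∀ g : G, orderOf g ≤ 6) {q : ℕ} (hq : q.Prime) {x : G} (h : x ^ q = 1)
    (h1 : x ≠ 1) : q = 2 ∨ q = 3 ∨ q = 5 := by
  have : Fact q.Prime := ⟨hq⟩
  have := o6 x
  rw [orderOf_eq_prime h h1] at this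
  have h2 := hq.two_le
  interval_cases q <;> simp_all (config := {decide := true})

theorem nil (o6 : ∀ g : G, orderOf g ≤ 6) {f : G} (hf : f ^ 5 = 1) (h1 : f ≠ 1) {N : Subgroup G}
    (hn : N.Normal) (h : ∀ x ∈ N, x ^ 5 = 1 → x = 1) : N ≤ fittingSubgroup G :=
  L.le_fittingSubgroup hn (H5.isNilpotent_of_fpf (p := 5) (by norm_num) N f
    (by rw [normalizer_eq_top_iff.2 hn]; exact mem_top f) hf fun k hk e => h k hk (five o6 hf h1 e))

end

theorem na (S : Sim.{u}) {G : Type u} [Group G] [Finite G] (o6 : ∀ g : G, orderOf g ≤ 6)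
    {M : Subgroup G} (hM : L.IsMinNormal M) (hn : ¬ IsMulCommutative M) :
    (Nonempty (M ≃* alternatingGroup (Fin 5)) ∨ Nonempty (M ≃* alternatingGroup (Fin 6))) ∧
      𝐂(M) = ⊥ := by
  obtain ⟨-, -, K, hK, hs, hc, hle, hcl⟩ := H2.exists_isComponent_of_isMinNormal hM hn
  have hS := S K hs hc fun x => by rw [← Subgroup.orderOf_coe]; exact o6 x
  have : ∃ f t : K, f ^ 5 = 1 ∧ f ≠ 1 ∧ t * t = 1 ∧ t ≠ 1 := by
    rcases hS with ⟨⟨e⟩⟩ | ⟨⟨e⟩⟩
    · obtain ⟨f, t, h1, h2, h3, h4, -⟩ := d5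
      exact ⟨e.symm f, e.symm t, by rw [← map_pow, h1, map_one], by simpa using h2,
        by rw [← map_mul, h3, map_one], by simpa using h4⟩
    · obtain ⟨f, t, h1, h2, h3, h4, -⟩ := d6
      exact ⟨e.symm f, e.symm t, by rw [← map_pow, h1, map_one], by simpa using h2,
        by rw [← map_mul, h3, map_one], by simpa using h4⟩
  obtain ⟨⟨f, hf⟩, ⟨t, ht⟩, h1, h2, h3, h4⟩ := this
  have f5 : f ^ 5 = 1 := congrArg Subtype.val h1
  have f1 : f ≠ 1 := fun e => h2 (Subtype.ext e)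
  have t2 : t ^ 2 = 1 := by rw [pow_two]; exact congrArg Subtype.val h3
  have t1 : t ≠ 1 := fun e => h4 (Subtype.ext e)
  have hN : K.Normal := by
    refine ⟨fun x hx g => ?_⟩
    have c1 := H2.compIn_top_iff.2 hK
    have c2 := c1.conj_of_mem_normalizer (g := g) (by rw [norm_top]; exact mem_top g)
    by_cases e : MulAut.conj g • K = K
    · rw [← e]; exact smul_mem_pointwise_smul x (MulAut.conj g) K hx
    · have m : g * t * g⁻¹ ∈ 𝐂(K) :=
        c2.le_centralizer_of_ne c1 e (smul_mem_pointwise_smul t (MulAut.conj g) K ht)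
      have := five o6 f5 f1 (mem_cent.1 m f hf)
      rw [conj_pow, mul_inv_eq_one, mul_eq_left] at this
      exact absurd (one_of_cop t2 this (by norm_num)) t1
  rw [normalClosure_eq_self] at hcl
  subst hcl
  refine ⟨hS, eq_bot_iff.2 fun x hx => by_contra fun x1 => t1 ?_⟩
  exact one_of_cop t2 (five o6 (five o6 f5 f1 (mem_cent.1 hx f hf)) x1 (mem_cent.1 hx t ht).symm)
    (by norm_num)

section

variable {G : Type u} [Group G] [Finite G]

/-- The faithful action on a normal subgroup. -/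
def act (V : Subgroup G) [V.Normal] : G ⧸ 𝐂(V) →* MulAut V :=
  QuotientGroup.lift _ MulAut.conjNormal fun g hg => by
    ext v
    rw [MulAut.conjNormal_apply, ← mem_cent.1 hg v v.2, mul_inv_cancel_right, MulAut.one_apply]

theorem act_inj (V : Subgroup G) [V.Normal] : Function.Injective (act V) := by
  rw [injective_iff_map_eq_one]
  intro x hx
  obtain ⟨g, rfl⟩ := QuotientGroup.mk'_surjective _ x
  refine (QuotientGroup.eq_one_iff g).2 (mem_cent.2 fun v hv => ?_)
  have : g * v * g⁻¹ = v := congrArg (fun α : MulAut V => (α ⟨v, hv⟩ : G)) hx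
  exact (mul_inv_eq_iff_eq_mul.1 this).symm

structure Su (V : Subgroup G) (p : ℕ) (f : G) : Prop where
  o6 : ∀ g : G, orderOf g ≤ 6
  mn : L.IsMinNormal V
  el : IsElementaryAbelian p V
  cop : p.Coprime 5
  hf : f ^ 5 = 1
  f1 : f ≠ 1

namespace Su

variable {V : Subgroup G} [V.Normal] {p : ℕ} {f : G} (h : Su V p f)
include h

theorem fpf {x v : G} (hx : x ^ 5 = 1) (x1 : x ≠ 1) (hv : v ∈ V) (e : x * v = v * x) : v = 1 :=
  one_of_cop (h.el.2 v hv) (five h.o6 hx x1 e) h.cop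

theorem k5 {x : G} (hx : x ∈ 𝐂(V)) (h5 : x ^ 5 = 1) : x = 1 := by
  by_contra x1
  exact h.mn.2.1 (eq_bot_iff.2 fun v hv => h.fpf h5 x1 hv (mem_cent.1 hx v hv).symm)

theorem le_K : V ≤ 𝐂(V) := isMulComm_iff_le_cent.1 h.el.1

theorem cases (S : Sim.{u}) : ∃ M : Subgroup (G ⧸ 𝐂(V)), M.Normal ∧
    ((M ≠ ⊥ ∧ IsElementaryAbelian 5 M) ∨
    ((Nonempty (M ≃* alternatingGroup (Fin 5)) ∨ Nonempty (M ≃* alternatingGroup (Fin 6))) ∧
      𝐂(M) = ⊥)) := by
  have : Nontrivial (G ⧸ 𝐂(V)) := ⟨QuotientGroup.mk' _ f, 1, fun e =>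
    h.f1 (h.k5 ((QuotientGroup.eq_one_iff f).1 e) h.hf)⟩
  obtain ⟨M, hM⟩ := L.exists_isMinNormal (G := G ⧸ 𝐂(V))
  refine ⟨M, hM.1, ?_⟩
  by_cases hc : IsMulCommutative M
  · have : Group.IsSolvable M := Group.isSolvable_of_comm hc.is_comm.comm
    obtain ⟨q, hq, el⟩ := hM.exists_isElementaryAbelian
    by_cases h5 : q = 5
    · exact Or.inl ⟨hM.2.1, h5 ▸ el⟩
    have hn := hM.1
    have := (nil h.o6 h.hf h.f1 (N := M.comap (QuotientGroup.mk' _)) inferInstance fun x hx e =>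
      h.k5 ((QuotientGroup.eq_one_iff x).1 (one_of_cop (x := QuotientGroup.mk' _ x) (el.2 _ hx)
        (by rw [← map_pow, e, map_one]) ((Nat.coprime_primes hq (by norm_num)).2 h5))) e).trans
      h.mn.fittingSubgroup_le_centralizer
    refine (hM.2.1 (eq_bot_iff.2 fun x hx => ?_)).elim
    obtain ⟨g, rfl⟩ := QuotientGroup.mk'_surjective _ x
    exact (QuotientGroup.eq_one_iff g).2 (this hx)
  · exact Or.inr (na S (o6_quot h.o6 _) hM hc)

/-- An element of order 4 acting faithfully as a Frobenius complement. -/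
theorem n4 {g : G} (hg : orderOf (QuotientGroup.mk' 𝐂(V) g) = 4) {v : G} (hv : v ∈ V) :
    (v * g) ^ 4 = g ^ 4 := by
  have a : ∀ w ∈ V, (w * g) ^ 4 = 1 := fun w hw => by
    have e : QuotientGroup.mk' 𝐂(V) (w * g) = QuotientGroup.mk' 𝐂(V) g := by
      rw [map_mul, (QuotientGroup.eq_one_iff w).2 (h.le_K hw) |> fun e : _ = (1 : G ⧸ 𝐂(V)) =>
        (show QuotientGroup.mk' 𝐂(V) w = 1 from e), one_mul]
    rw [← pow_of_dvd h.o6 le_rfl (x := w * g) (by rw [← hg, ← e]; exact orderOf_map_dvd _ _),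
      pow_orderOf_eq_one]
  rw [a v hv, ← one_mul g, a 1 (one_mem V)]

end Su

theorem vg_mem {V : Subgroup G} [V.Normal] {v g : G} (hv : v ∈ V) {n : ℕ} (hg : g ^ n = 1) :
    (v * g) ^ n ∈ V := by
  rw [← QuotientGroup.eq_one_iff]
  change QuotientGroup.mk' V _ = 1
  rw [map_pow, map_mul, show QuotientGroup.mk' V v = 1 from (QuotientGroup.eq_one_iff v).2 hv,
    one_mul, ← map_pow, hg, map_one]

theorem no3 (S : Sim.{u}) {V : Subgroup G} [V.Normal] {f : G} (h : Su V 3 f) {g : G}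
    (hg : orderOf g = 4) : False := by
  have hV : IsPGroup 3 V := L.IsElementaryAbelian.isPGroup h.el
  let π := QuotientGroup.mk' 𝐂(V)
  have main : ∀ {B : Type} [Group B] [Finite B] (ι : B →* G ⧸ 𝐂(V)), Function.Injective ι →
      ∀ {l : List B} {c : B}, Fr l c 3 2 → False := by
    intro B _ _ ι hι l c fr
    obtain ⟨y, hy⟩ := QuotientGroup.mk'_surjective _ (ι c)
    have o3 : orderOf (π y) = 3 := by
      rw [hy, orderOf_injective ι hι, fr.orderOf (by norm_num)]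
    have y6 : y ^ 6 = 1 := by
      have h1 : 3 ∣ orderOf y := o3 ▸ orderOf_map_dvd π y
      have := h.o6 y
      have := orderOf_pos y
      refine orderOf_dvd_iff_pow_eq_one.1 ?_
      have : orderOf y = 3 ∨ orderOf y = 6 := by omega
      rcases this with e | e <;> rw [e] <;> norm_num
    have y3 : (y ^ 4) ^ 3 = 1 := by rw [← pow_mul, show 4 * 3 = 6 * 2 from rfl, pow_mul, y6, one_pow]
    refine fr.false h.el.1 (φ := (act V).comp ι) ((act_inj V).comp hι)
      (by norm_num) (by norm_num) (by norm_num) hV (by norm_num) (g := y ^ 4) ?_ fun v hv => ?_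
    · have : ι c = π (y ^ 4) := by
        rw [map_pow, pow_succ, ← o3, pow_orderOf_eq_one, one_mul, hy]
      rw [MonoidHom.comp_apply, this]; rfl
    · have h9 : (v * y ^ 4) ^ 9 = 1 := by
        rw [show 9 = 3 * 3 from rfl, pow_mul]; exact h.el.2 _ (vg_mem hv y3)
      have := h.o6 (v * y ^ 4)
      rw [y3, ← orderOf_dvd_iff_pow_eq_one]
      obtain ⟨k, hk, e⟩ := (Nat.dvd_prime_pow (p := 3) (m := 2) (by norm_num)).1
        (orderOf_dvd_of_pow_eq_one h9)
      rw [e] at this ⊢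
      interval_cases k <;> simp_all
  obtain ⟨M, hn, ⟨h1, el⟩ | ⟨⟨⟨e⟩⟩ | ⟨⟨e⟩⟩, -⟩⟩ := h.cases S
  · have g4 : g ^ 4 = 1 := by rw [← hg, pow_orderOf_eq_one]
    have cV : ∀ v ∈ V, v * g = g * v → v = 1 := fun v hv e => by
      by_contra v1
      have : Fact (Nat.Prime 3) := ⟨by norm_num⟩
      have e2 := Commute.orderOf_mul_eq_mul_orderOf_of_coprime (x := v) (y := g) e
        (by rw [orderOf_eq_prime (h.el.2 v hv) v1, hg]; norm_num)
      have := h.o6 (v * g)
      rw [e2, orderOf_eq_prime (h.el.2 v hv) v1, hg] at this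
      omega
    have N0 : ∀ v ∈ V, (v * g) ^ orderOf (π g) = g ^ orderOf (π g) := fun v hv => by
      have c : g ^ orderOf (π g) ∈ 𝐂(V) := by
        rw [← QuotientGroup.eq_one_iff]
        change π _ = 1
        rw [map_pow, pow_orderOf_eq_one]
      set n := orderOf (π g)
      have m : (v * g) ^ n * (g ^ n)⁻¹ ∈ V := by
        rw [← QuotientGroup.eq_one_iff]
        change QuotientGroup.mk' V _ = 1
        rw [map_mul, map_pow, map_mul,
          show QuotientGroup.mk' V v = 1 from (QuotientGroup.eq_one_iff v).2 hv, one_mul, ← map_pow,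
          ← map_mul, mul_inv_cancel, map_one]
      refine mul_inv_eq_one.1 (cV _ m ?_)
      have m1 : v * g ∈ 𝐂[(v * g) ^ n * (g ^ n)⁻¹] := mem_cent1_comm.1 (mul_mem
        (pow_mem (self_mem_cent1 _) n) (inv_mem (mem_cent1_comm.1 (mul_mem
          (mem_cent_iff_cent1.1 c hv) (mem_cent1_comm.1 (pow_mem (self_mem_cent1 g) n))))))
      exact mem_cent1.1 ((Subgroup.mul_mem_cancel_left _
        (mem_cent_iff_cent1.1 (h.le_K m) hv)).1 m1)
    refine h1 (eq_bot_iff.2 fun k hk => act_inj V ?_)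
    rw [map_one]
    have : Fact (Nat.Prime 3) := ⟨by norm_num⟩
    have : Fact (Nat.Prime 5) := ⟨by norm_num⟩
    refine hhg (K := M) h.el.1 (act V) (c := π g) (g := g) rfl (orderOf_pos _)
      (by rw [normalizer_eq_top_iff.2 hn]; exact mem_top _) (fun i h0 hi k hk e => ?_) N0
      (IsPGroup.coprime_card_of_ne 5 3 (by norm_num) M V (L.IsElementaryAbelian.isPGroup el) hV) hk
    by_contra k1
    refine pow_ne_one_of_lt_orderOf h0.ne' hi (one_of_cop (m := 4) ?_
      (five (o6_quot h.o6 _) (el.2 k hk) k1 e.symm) (by norm_num))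
    rw [← pow_mul, mul_comm, pow_mul, ← map_pow, g4, map_one, one_pow]
  · exact main (M.subtype.comp e.symm.toMonoidHom) (M.subtype_injective.comp e.symm.injective) fr5
  · exact main (M.subtype.comp e.symm.toMonoidHom) (M.subtype_injective.comp e.symm.injective) fr6

theorem two (S : Sim.{u}) (S5 : S5Stmt.{u}) {V : Subgroup G} [V.Normal] {f : G} (h : Su V 2 f)
    (h3 : pCore 3 G = ⊥) {y : G} (hy : orderOf y = 3) :
    IsElementaryAbelian 2 𝐂(V) ∧ Nonempty (G ⧸ 𝐂(V) ≃* alternatingGroup (Fin 5)) := by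
  have hV : IsPGroup 2 V := L.IsElementaryAbelian.isPGroup h.el
  let π := QuotientGroup.mk' 𝐂(V)
  have : Fact (Nat.Prime 5) := ⟨by norm_num⟩
  have oq := o6_quot h.o6 𝐂(V)
  have k4 : ∀ x ∈ 𝐂(V), x ^ 4 = 1 := fun x hx => by
    have hF := nil h.o6 h.hf h.f1 (N := 𝐂(V)) inferInstance fun x => h.k5
    have e : (x ^ 4) ^ 3 = 1 := by
      rw [← pow_mul, ← orderOf_dvd_iff_pow_eq_one]
      have h1 := h.o6 x
      have h2 := orderOf_pos x
      have h5 : orderOf x ≠ 5 := fun e => by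
        rw [h.k5 hx (by rw [← e, pow_orderOf_eq_one]), orderOf_one] at e
        omega
      generalize orderOf x = n at *
      interval_cases n <;> simp_all
    have : zpowers (x ^ 4) ≤ pCore 3 G := L.le_pCore_of_le_fittingSubgroup (by norm_num)
      (by
        rintro ⟨_, k, rfl⟩
        refine ⟨1, Subtype.ext ?_⟩
        change ((x ^ 4) ^ k) ^ 3 ^ 1 = 1
        rw [pow_one, ← zpow_natCast, ← zpow_mul, mul_comm, zpow_mul, zpow_natCast, e, one_zpow])
      (zpowers_le.2 (hF (pow_mem hx 4)))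
    rw [h3] at this
    exact this (mem_zpowers _)
  have hK : IsPGroup 2 𝐂(V) := fun x => ⟨2, Subtype.ext (k4 x x.2)⟩
  have fK : ∀ x : G, x ^ 5 = 1 → x ≠ 1 → ∀ k ∈ 𝐂(V), x * k = k * x → k = 1 := fun x h1 h2 k hk e =>
    h.k5 hk (five h.o6 h1 h2 e)
  have lift : ∀ x : G, π x ^ 5 = 1 → π x ≠ 1 → x ^ 5 = 1 ∧ x ≠ 1 := fun x h1 h2 =>
    ⟨by
      rw [← pow_of_dvd h.o6 (by norm_num : 4 ≤ 5) (x := x)
        (orderOf_eq_prime h1 h2 ▸ orderOf_map_dvd π x), pow_orderOf_eq_one],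
      fun e => h2 (by rw [e, map_one])⟩
  have adj : ∀ x s z : G, z ^ 5 = 1 → z ≠ 1 → π (s * x * s⁻¹) = π z →
      ∃ t, π t = π s ∧ t * x * t⁻¹ = z := fun x s z h1 h2 e => by
    have m : s * x * s⁻¹ * z⁻¹ ∈ 𝐂(V) := by
      rw [← QuotientGroup.eq_one_iff]
      change π _ = 1
      rw [map_mul, e, map_inv, mul_inv_cancel]
    obtain ⟨k, hk, e2⟩ := H9.exists_conj_eq_mul_of_fpf (N := 𝐂(V)) (x := z)
      (by rw [normalizer_eq_top]; exact mem_top _) (fK z h1 h2) m
    refine ⟨k⁻¹ * s, ?_, ?_⟩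
    · rw [map_mul, show π k⁻¹ = 1 from (QuotientGroup.eq_one_iff _).2 (inv_mem hk), one_mul]
    · calc k⁻¹ * s * x * (k⁻¹ * s)⁻¹ = k⁻¹ * (s * x * s⁻¹ * z⁻¹ * z) * k := by group
        _ = z := by rw [← e2]; group
  have main : ∀ {B : Type} [Group B] [Finite B] (ι : B →* G ⧸ 𝐂(V)), Function.Injective ι →
      ∀ {l : List B} {c : B} {p : ℕ}, p.Prime → p ≠ 2 → Fr l c 4 p → False := by
    intro B _ _ ι hι l c p hp h2 fr
    obtain ⟨g, hg⟩ := QuotientGroup.mk'_surjective _ (ι c)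
    refine fr.false h.el.1 (φ := (act V).comp ι) ((act_inj V).comp hι)
      hp Nat.prime_two h2 hV (by norm_num) (g := g) ?_ fun v hv => h.n4 ?_ hv
    · rw [MonoidHom.comp_apply, ← hg]; rfl
    · rw [hg, orderOf_injective ι hι, fr.orderOf (by norm_num)]
  obtain ⟨M, hn, ⟨h1, el⟩ | ⟨⟨⟨e⟩⟩ | ⟨⟨e⟩⟩, hC⟩⟩ := h.cases S
  · exfalso
    obtain ⟨⟨x, hx⟩, x1⟩ := ne_bot_iff_exists_ne_one.1 h1
    obtain ⟨x, rfl⟩ := QuotientGroup.mk'_surjective _ x
    have x1' : π x ≠ 1 := fun e => x1 (Subtype.ext e)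
    have x5 : π x ^ 5 = 1 := el.2 _ hx
    obtain ⟨l5, l1⟩ := lift x x5 x1'
    have m : π (y * x * y⁻¹) ∈ M := by
      rw [map_mul, map_mul, map_inv]; exact hn.conj_mem _ hx _
    obtain ⟨t, ht, e⟩ := adj x (y * x * y⁻¹) x l5 l1 (by
      rw [map_mul, map_mul π (y * x * y⁻¹), map_inv,
        mem_cent.1 (isMulComm_iff_le_cent.1 el.1 hx) _ m, mul_inv_cancel_right])
    have tx : x * t = t * x := (mul_inv_eq_iff_eq_mul.1 e).symm
    have t5 := five h.o6 l5 l1 tx
    have ab : IsMulCommutative ↥(zpowers x ⊔ zpowers t) :=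
      isMulComm_sup inferInstance inferInstance
        (zpowers_le.2 (by rw [cent_zpowers]; exact mem_cent1.2 tx))
    have a5 : ∀ a ∈ zpowers x ⊔ zpowers t, a ^ 5 = 1 := fun a ha => five h.o6 l5 l1
      (mem_cent.1 (isMulComm_iff_le_cent.1 ab ha) x (le_sup_left (a := zpowers x) (mem_zpowers x)))
    have cy : IsCyclic ↥(zpowers x ⊔ zpowers t) := by
      by_contra nc
      obtain ⟨a, ha, a1, hb⟩ := H1.exists_centralizer_ne_bot ab nc
        (G := V) (by rw [normalizer_eq_top]; exact le_top)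
        (IsPGroup.coprime_card_of_ne 5 2 (by norm_num) _ V
          (fun a => ⟨1, Subtype.ext (by rw [pow_one]; exact a5 a a.2)⟩) hV) h.mn.2.1
      exact hb (eq_bot_iff.2 fun v hv => h.fpf (a5 a ha) a1 hv.1 (mem_cent1.1 hv.2))
    obtain ⟨w, hw⟩ := isCyclic_iff_zpowers.1 cy
    have e1 : zpowers x = zpowers x ⊔ zpowers t := by
      refine eq_of_le_of_card_ge le_sup_left ?_
      have := a5 w (hw ▸ mem_zpowers w)
      rw [← hw, Nat.card_zpowers, Nat.card_zpowers, orderOf_eq_prime l5 l1]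
      exact Nat.le_of_dvd (by norm_num) (orderOf_dvd_of_pow_eq_one this)
    have m2 : t ∈ zpowers x := e1 ▸ le_sup_right (a := zpowers x) (mem_zpowers t)
    obtain ⟨j, hj⟩ := mem_powers_iff_mem_zpowers.2 m2
    have c1 : π y * π x * (π y)⁻¹ = π x ^ j := by
      rw [← map_inv, ← map_mul, ← map_mul, ← ht, ← map_pow]; exact congrArg π hj.symm
    have y3 : π y ^ 3 = 1 := by rw [← map_pow, ← hy, pow_orderOf_eq_one, map_one]
    have c3 : π x ^ (j * j * j) = π x ^ 1 := by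
      have : π y ^ 3 * π x * (π y ^ 3)⁻¹ =
          π y * (π y * (π y * π x * (π y)⁻¹) * (π y)⁻¹) * (π y)⁻¹ := by
        simp only [pow_succ, pow_zero]; group
      rw [y3, c1, ← conj_pow, c1, ← pow_mul, ← conj_pow, c1, ← pow_mul] at this
      rw [mul_assoc j, ← this]; simp
    rw [pow_eq_pow_iff_modEq, orderOf_eq_prime x5 x1'] at c3
    have c4 : π x ^ j = π x ^ 1 := by
      rw [pow_eq_pow_iff_modEq, orderOf_eq_prime x5 x1']
      unfold Nat.ModEq at c3 ⊢
      rw [Nat.mul_mod, Nat.mul_mod j j] at c3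
      have := Nat.mod_lt j (show 5 > 0 by norm_num)
      generalize j % 5 = r at *
      interval_cases r <;> omega
    rw [c4, pow_one] at c1
    have := one_of_cop y3 (five oq x5 x1' (mul_inv_eq_iff_eq_mul.1 c1).symm) (by norm_num)
    have := orderOf_dvd_of_pow_eq_one (k4 y ((QuotientGroup.eq_one_iff y).1 this))
    rw [hy] at this
    omega
  · by_cases hM : M = ⊤
    · subst hM
      let ε : G ⧸ 𝐂(V) ≃* alternatingGroup (Fin 5) := topEquiv.symm.trans e
      refine ⟨?_, ⟨ε⟩⟩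
      obtain ⟨a, b, a5, a1, b2, -, ab⟩ := d5
      obtain ⟨x, hx⟩ := QuotientGroup.mk'_surjective _ (ε.symm a)
      obtain ⟨s, hs⟩ := QuotientGroup.mk'_surjective _ (ε.symm b)
      obtain ⟨l5, l1⟩ := lift x (by rw [hx, ← map_pow, a5, map_one]) (by rw [hx]; simpa using a1)
      obtain ⟨t, ht, e2⟩ := adj x s x⁻¹ (by rw [inv_pow, l5, inv_one]) (inv_ne_one.2 l1) (by
        rw [map_mul, map_mul, map_inv, map_inv, hx, hs, ← map_inv, ← map_inv, ← map_mul, ← map_mul,
          ab])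
      have t2 : t * t = 1 := by
        refine fK x l5 l1 _ ?_ ?_
        · rw [← QuotientGroup.eq_one_iff]
          change π _ = 1
          rw [map_mul, ht, hs, ← map_mul, b2, map_one]
        · have : t * t * x * (t * t)⁻¹ = x := by
            calc t * t * x * (t * t)⁻¹ = t * (t * x * t⁻¹) * t⁻¹ := by group
              _ = x := by rw [e2, ← conj_inv, e2, inv_inv]
          exact (mul_inv_eq_iff_eq_mul.1 this).symm
      exact fin_d10 h.o6 _ hK (orderOf_eq_prime l5 l1) t2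
        (by rw [← e2, inv_eq_of_mul_eq_one_right t2])
    · obtain ⟨ε⟩ := S5 _ M hC e hM
      exact (main ε.symm.toMonoidHom ε.symm.injective (by norm_num) (by norm_num) fr20).elim
  · exact (main (M.subtype.comp e.symm.toMonoidHom) (M.subtype_injective.comp e.symm.injective)
      (by norm_num) (by norm_num) fr9).elim

theorem fin (S : Sim.{u}) (S5 : S5Stmt.{u})
    (h : Set.range (orderOf : G → ℕ) = {k : ℕ | 1 ≤ k ∧ k ≤ 6}) (h5 : pCore 5 G = ⊥) :
    (∃ (N : Subgroup G) (_ : N.Normal), IsElementaryAbelian 2 N ∧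
      Nonempty (G ⧸ N ≃* alternatingGroup (Fin 5))) ∨
    Nonempty (G ≃* Equiv.Perm (Fin 5)) ∨ Nonempty (G ≃* Equiv.Perm (Fin 6)) := by
  have o6 : ∀ g : G, orderOf g ≤ 6 := fun g => (h.le ⟨g, rfl⟩).2
  obtain ⟨y, hy⟩ : 3 ∈ Set.range (orderOf : G → ℕ) := h.ge ⟨by norm_num, by norm_num⟩
  obtain ⟨g, hg⟩ : 4 ∈ Set.range (orderOf : G → ℕ) := h.ge ⟨by norm_num, by norm_num⟩
  obtain ⟨f, hf⟩ : 5 ∈ Set.range (orderOf : G → ℕ) := h.ge ⟨by norm_num, by norm_num⟩
  have h6 : 6 ∈ Set.range (orderOf : G → ℕ) := h.ge ⟨by norm_num, by norm_num⟩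
  have f5 : f ^ 5 = 1 := by rw [← hf, pow_orderOf_eq_one]
  have f1 : f ≠ 1 := fun e => by rw [e, orderOf_one] at hf; omega
  have su : ∀ p : ℕ, p.Prime → p.Coprime 5 → pCore p G ≠ ⊥ → ∃ V : Subgroup G, Su V p f := by
    intro p hp c n
    obtain ⟨V, hV, hle⟩ := L.exists_isMinNormal_le (pCore p G) n
    exact ⟨V, o6, hV, hV.isElementaryAbelian_of_isPGroup hp ((L.isPGroup_pCore p).to_le hle), c,
      f5, f1⟩
  have h3 : pCore 3 G = ⊥ := by
    by_contra n
    obtain ⟨V, hV⟩ := su 3 (by norm_num) (by norm_num) n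
    have := hV.mn.1
    exact no3 S hV hg
  by_cases h2 : pCore 2 G = ⊥
  · right
    have : Nontrivial G := ⟨f, 1, f1⟩
    obtain ⟨M, hM⟩ := L.exists_isMinNormal (G := G)
    have hn := hM.1
    have nc : ¬ IsMulCommutative M := fun hc => by
      have : Group.IsSolvable M := Group.isSolvable_of_comm hc.is_comm.comm
      obtain ⟨q, hq, el⟩ := hM.exists_isElementaryAbelian
      have hle := L.le_pCore hn (L.IsElementaryAbelian.isPGroup el)
      obtain ⟨⟨x, hx⟩, x1⟩ := ne_bot_iff_exists_ne_one.1 hM.2.1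
      apply hM.2.1
      rcases prime_cases o6 hq (el.2 x hx) fun e => x1 (Subtype.ext e) with rfl | rfl | rfl
      exacts [le_bot_iff.1 (h2 ▸ hle), le_bot_iff.1 (h3 ▸ hle), le_bot_iff.1 (h5 ▸ hle)]
    obtain ⟨⟨⟨e⟩⟩ | ⟨⟨e⟩⟩, hC⟩ := na S o6 hM nc
    · refine Or.inl (S5 G M hC e fun hT => ?_)
      subst hT
      let ε : G ≃* alternatingGroup (Fin 5) := topEquiv.symm.trans e
      have o : orderOf (ε g : Equiv.Perm (Fin 5)) = 4 := by
        rw [Subgroup.orderOf_coe, MulEquiv.orderOf_eq, hg]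
      have := orderOf_dvd_of_pow_eq_one (no4 _ (ε g).2 (by rw [← o, pow_orderOf_eq_one]))
      rw [o] at this
      omega
    · exact Or.inr (fin_s6 o6 M hC e h6)
  · obtain ⟨V, hV⟩ := su 2 Nat.prime_two (by norm_num) h2
    have := hV.mn.1
    exact Or.inl ⟨𝐂(V), inferInstance, two S S5 hV h3 hy⟩

end

end Cfsg.Agent.P31.FB
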