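/-
P31: the structure theorem from the simple case.
-/
import Cfsg.Agent.P31.Defs
import Cfsg.Agent.P31.FinA
import Cfsg.Agent.P31.FinB

set_option autoImplicit false

namespace Cfsg.Agent.P31

open Cfsg Cfsg.Agent

universe u

theorem s4007 (sim : SimStmt.{u}) (a5 : Aut5Stmt.{u}) {G : Type u} [Group G] [Finite G]
    (h : Set.range (orderOf : G → ℕ) = {k : ℕ | 1 ≤ k ∧ k ≤ 6}) :
    (∃ (N : Subgroup G) (_ : N.Normal), Cfsg.IsElementaryAbelian 5 N ∧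
        (Nonempty (G ⧸ N ≃* QuaternionGroup 3) ∨
          Nonempty (G ⧸ N ≃* Matrix.SpecialLinearGroup (Fin 2) (ZMod 3)))) ∨
      (∃ (N : Subgroup G) (_ : N.Normal), Cfsg.IsElementaryAbelian 2 N ∧
        Nonempty (G ⧸ N ≃* ↥(alternatingGroup (Fin 5)))) ∨
      Nonempty (G ≃* Equiv.Perm (Fin 5)) ∨ Nonempty (G ≃* Equiv.Perm (Fin 6)) := by
  by_cases h5 : pCore 5 G = ⊥
  · exact Or.inr (FB.fin (fun X _ _ hs hc o => sim X o hs hc)
      (fun X _ _ M hn hC e hM => a5 X M hn ⟨e⟩ hC hM) h h5)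
  · exact Or.inl (fin_five (fun g => (h.le ⟨g, rfl⟩).2) (h.ge ⟨by norm_num, by norm_num⟩)
      (h.ge ⟨by norm_num, by norm_num⟩) h5)

end Cfsg.Agent.P31
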