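import Cfsg.Agent.P31.Ty

/-!
The amalgam theorem `GAStmt` from the central case and `XSStmt`.
-/

set_option autoImplicit false
set_option linter.unusedSectionVars false

namespace Cfsg.Agent.P31

open Subgroup Cfsg Cfsg.Agent Cfsg.Agent.FT H1 H2
open Cfsg.Agent.H2.AM (oz oz_le oz_ne_bot norm_le_norm_oz mul_mem_iff_two mul_mem_two)
open scoped commutatorElement Pointwise

universe u

variable {G : Type u} [Group G] [Finite G]

theorem Ty.conj {p : ℕ} {T D : Subgroup G} {y : G} (h : Ty p T D y) (g : G) :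
    Ty p (MulAut.conj g • T) (MulAut.conj g • D) (g * y * g⁻¹) := by
  have hf : Function.Injective (MulAut.conj g).toMonoidHom := (MulAut.conj g).injective
  refine ⟨h.two.map (MulAut.conj g).toMonoidHom, conj_smul_mono g h.le, ?_, ?_, ?_, ?_, ?_⟩
  · change (D.map (MulAut.conj g).toMonoidHom).relIndex (T.map (MulAut.conj g).toMonoidHom) = 2
    rw [relIndex_map_map_of_injective _ _ hf, h.idx]
  · rw [← h.ord]; exact orderOf_injective _ hf y
  · rw [normalizer_conj_smul]; exact conj_mem_conj_smul h.nrm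
  · intro u h1 h2
    rw [mem_conj_smul] at h1 h2 ⊢
    have := h.inv _ h1 h2
    rwa [show g⁻¹ * u * g * y * (g⁻¹ * u * g)⁻¹ * y =
      g⁻¹ * (u * (g * y * g⁻¹) * u⁻¹ * (g * y * g⁻¹)) * g by group] at this
  · refine fun e => h.ncen fun d hd => mem_centralizer_singleton_iff.2 ?_
    have := mem_centralizer_singleton_iff.1 (e (conj_mem_conj_smul hd))
    calc d * y = g⁻¹ * (g * d * g⁻¹ * (g * y * g⁻¹)) * g := by group
      _ = _ := by rw [this]; group

theorem Ty.conj' {p : ℕ} {T D : Subgroup G} {y : G} (h : Ty p T D y) {g : G} (hg : g ∈ 𝐍(T)) :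
    Ty p T (MulAut.conj g • D) (g * y * g⁻¹) := by
  have := h.conj g
  rwa [mem_normalizer_iff_conj_smul.1 hg] at this

theorem Cen.conj {T : Subgroup G} {y g : G} (h : Cen T y) (hg : g ∈ 𝐍(T)) :
    Cen T (g * y * g⁻¹) := fun z h1 h2 h3 => by
  have hz : g⁻¹ * z * g ∈ oz T := conj_mem_of_le_normalizer' (norm_le_norm_oz T) hg ⟨h1, h3, h2⟩
  have := h _ hz.1 hz.2.2 hz.2.1
  calc z * (g * y * g⁻¹) = g * (g⁻¹ * z * g * y) * g⁻¹ := by group
    _ = _ := by rw [this]; group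

theorem Cen.norm {T : Subgroup G} {y : G} (h : Cen T y) : y ∈ 𝐍(oz T) :=
  le_normalizer_of_le_centralizer (le_refl 𝐂(oz T)) fun z hz => h z hz.1 hz.2.2 hz.2.1

theorem NoN.not_cen {T D : Subgroup G} {y1 y2 : G} (hN : NoN T y1 y2) (h : Ty 3 T D y1)
    (c1 : Cen T y1) (c2 : Cen T y2) : False :=
  oz_ne_bot h.two (fun e => h.ne_bot (eq_bot_iff.2 (e ▸ h.le)))
    (hN _ (oz_le T) (le_normalizer.trans (norm_le_norm_oz T)) c1.norm c2.norm)

/-- The symmetric amalgam. -/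
theorem ga_sym (h6 : Or6 G) {T D : Subgroup G} {y g : G} (h : Ty 3 T D y) (hg : g ∈ 𝐍(T))
    (hN : NoN T y (g * y * g⁻¹)) : El D := by
  by_cases c : Cen T y
  · exact (hN.not_cen h c (c.conj hg)).elim
  refine (gan h6 h (h.conj' hg) hN c fun c' => c ?_).1
  have := c'.conj (inv_mem hg)
  rwa [show g⁻¹ * (g * y * g⁻¹) * g⁻¹⁻¹ = y by group] at this

theorem El.comm {D : Subgroup G} (h : El D) {a b : G} (ha : a ∈ D) (hb : b ∈ D) :
    a * b = b * a := by
  rw [← inv_eq_of_mul_eq_one_right (h _ (mul_mem ha hb)), mul_inv_rev,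
    inv_eq_of_mul_eq_one_right (h a ha), inv_eq_of_mul_eq_one_right (h b hb)]

theorem El.conj {D : Subgroup G} (h : El D) (g : G) : El (MulAut.conj g • D) := fun d hd => by
  have := h _ (mem_conj_smul.1 hd)
  calc d * d = g * (g⁻¹ * d * g * (g⁻¹ * d * g)) * g⁻¹ := by group
    _ = 1 := by rw [this]; group

theorem exists_of_idx2 {A B T : Subgroup G} (hA : A ≤ T) (hB : B ≤ T) (iA : A.relIndex T = 2)
    (iB : B.relIndex T = 2) (h : A ≠ B) : ∃ a ∈ A, a ∉ B := SetLike.not_le_iff_exists.1 fun e => by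
  have h1 := card_mul_relIndex hA
  have h2 := card_mul_relIndex hB
  rw [iA] at h1
  rw [iB] at h2
  exact h (eq_of_le_of_card_le e (by omega))

/-- Three different elementary subgroups of index two. -/
theorem el_three {A B C T : Subgroup G} (hA : A ≤ T) (hB : B ≤ T) (hC : C ≤ T)
    (iA : A.relIndex T = 2) (iB : B.relIndex T = 2) (iC : C.relIndex T = 2) (eA : El A) (eB : El B)
    (eC : El C) (h1 : B ≠ A) (h2 : C ≠ A) (h3 : B ≠ C) : El T := fun g hg => by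
  by_cases a : g ∈ A
  · exact eA g a
  by_cases b : g ∈ B
  · exact eB g b
  by_cases c : g ∈ C
  · exact eC g c
  by_cases k : ∀ x ∈ A, x ∈ B → x ∈ C
  · obtain ⟨c0, c1, c2⟩ := exists_of_idx2 hC hA iC iA h2
    have c3 : c0 ∉ B := fun e => by
      obtain ⟨b0, b1, b2⟩ := exists_of_idx2 hB hC iB iC h3
      by_cases d : b0 ∈ A
      · exact b2 (k _ d b1)
      exact b2 ((Subgroup.mul_mem_cancel_right _ c1).1
        (k _ (mul_mem_two iA (hB b1) (hC c1) d c2) (mul_mem b1 e)))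
    exact absurd ((Subgroup.mul_mem_cancel_right _ c1).1 (k _ (mul_mem_two iA hg (hC c1) a c2)
      (mul_mem_two iB hg (hC c1) b c3))) c
  push Not at k
  obtain ⟨x, x1, x2, x3⟩ := k
  obtain ⟨b0, b1, b2⟩ := exists_of_idx2 hB hA iB iA h1
  have e1 := eA.comm x1 (mul_mem_two iA (hB b1) hg b2 a)
  have e2 := eB.comm x2 b1
  have e3 : x * g = g * x := by
    have : b0 * (x * g) = b0 * (g * x) := by rw [← mul_assoc, ← e2, mul_assoc, e1, mul_assoc]
    exact mul_left_cancel this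
  have e4 := eC _ (mul_mem_two iC hg (hA x1) c x3)
  rwa [mul_assoc, ← mul_assoc x, e3, mul_assoc g x x, eA x x1, mul_one] at e4

theorem inf_idx2 {A B T : Subgroup G} (hA : A ≤ T) (hB : B ≤ T) (iA : A.relIndex T = 2)
    (iB : B.relIndex T = 2) (h : B ≠ A) : (A ⊓ B).relIndex B = 2 := by
  rw [inf_relIndex_right]
  have h1 := relIndex_le_of_le_right (H := A) hB (by rw [iA]; norm_num)
  have h2 := relIndex_pos A B
  have h3 : A.relIndex B ≠ 1 := fun e => by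
    obtain ⟨b, b1, b2⟩ := exists_of_idx2 hB hA iB iA h
    exact b2 (relIndex_eq_one.1 e b1)
  omega

theorem ty_inf (h6 : Or6 G) {T D1 D2 : Subgroup G} {y1 : G} (h1 : Ty 3 T D1 y1) (l2 : D2 ≤ T)
    (i2 : D2.relIndex T = 2) (hne : D1 ≠ D2) (hy : y1 ∈ 𝐍(D1 ⊓ D2)) :
    Ty 3 D2 (D1 ⊓ D2) y1 := by
  have j1 : (D1 ⊓ D2).relIndex D1 = 2 := inf_comm D2 D1 ▸ inf_idx2 l2 h1.le i2 h1.idx hne
  have k : ∀ {d}, d ∈ D1 → d ∉ D1 ⊓ D2 → y1 * d * y1⁻¹ ∈ D1 ∧ y1 * d * y1⁻¹ ∉ D1 ⊓ D2 :=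
    fun {d} a b => ⟨conj_mem_of_le_normalizer le_rfl h1.nrm a, fun e => b (by
      simpa [mul_assoc] using conj_mem_of_le_normalizer' le_rfl hy e)⟩
  refine ⟨h1.two.to_le l2, inf_le_right, inf_idx2 h1.le l2 h1.idx i2 hne.symm, h1.ord, hy,
    fun u a b => ?_, fun e => h1.ncen fun d hd => ?_⟩
  · have hd := h1.inv u (l2 a) fun e => b ⟨e, a⟩
    by_contra c
    obtain ⟨d, hd'⟩ : ∃ d, d = u * y1 * u⁻¹ * y1 := ⟨_, rfl⟩
    rw [← hd'] at hd c
    obtain ⟨k1, k2⟩ := k hd c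
    obtain ⟨k3, k4⟩ := k k1 k2
    have m := mul_mem_two j1 k3 k1 k4 k2
    refine c ((Subgroup.mul_mem_cancel_left _ m).1 ?_)
    have : y1 * (y1 * d * y1⁻¹) * y1⁻¹ * (y1 * d * y1⁻¹) * d =
        y1 * y1 * (u * y1 * u⁻¹) * (u * y1 * u⁻¹) * (u * y1 * u⁻¹) * y1 := by rw [hd']; group
    rw [this, show y1 * y1 * (u * y1 * u⁻¹) * (u * y1 * u⁻¹) * (u * y1 * u⁻¹) * y1 =
      y1 * y1 * (u * (y1 * y1 * y1) * u⁻¹) * y1 by group, h1.y3', mul_one, mul_inv_cancel, mul_one,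
      h1.y3']
    exact one_mem _
  · by_cases c : d ∈ D1 ⊓ D2
    · exact e c
    obtain ⟨k1, k2⟩ := k hd c
    have m := mul_mem_two j1 (inv_mem hd) k1 (fun e => c (inv_mem_iff.1 e)) k2
    obtain ⟨x, hx⟩ : ∃ x, x = d⁻¹ * (y1 * d * y1⁻¹) := ⟨_, rfl⟩
    rw [← hx] at m
    have c1 : x * y1 = y1 * x := mem_centralizer_singleton_iff.1 (e m)
    have c2 : y1 * d = d * x * y1 := by rw [hx]; group
    have c3 : d * (x * x * x) = d := by
      have s : ∀ w, y1 * (d * w) = d * (x * y1 * w) := fun w => by rw [← mul_assoc, c2]; group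
      have s1 : y1 * (y1 * (y1 * (d * 1))) = d * (x * y1) ^ 3 := by
        rw [s, s, s, pow_three]; group
      rw [(show Commute x y1 from c1).mul_pow, h1.y3, mul_one, mul_one, ← mul_assoc, ← mul_assoc,
        h1.y3', one_mul, pow_three'] at s1
      exact s1.symm
    have c4 := h6.pow4 h1.two (h1.le m.1)
    rw [pow_succ, pow_three', mul_eq_left.1 c3, one_mul] at c4
    rw [mem_centralizer_singleton_iff, c2, c4, mul_one]

/-- `D₁ ∩ D₂` is not normalized by `y₁`. -/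
theorem ga_n1 (xs : XSStmt.{u}) (cx : Cx G) {T D1 D2 : Subgroup G} {y1 y2 : G}
    (h1 : Ty 3 T D1 y1) (h2 : Ty 3 T D2 y2) (hN : NoN T y1 y2) : y1 ∉ 𝐍(D1 ⊓ D2) := fun hy => by
  have t := ty_inf cx.or6 h1 h2.le h2.idx (hN.ne h1 h2) hy
  have nT : T ≤ 𝐍(D1 ⊓ D2) := le_normalizer_inf h1.normD h2.normD
  obtain ⟨E, hE⟩ : ∃ E, E = D1 ⊓ D2 := ⟨_, rfl⟩
  rw [← hE] at t nT hy
  have n2 : y2 ∉ 𝐍(E) := fun e => t.ne_bot (hN E (t.le.trans h2.le) nT hy e)
  have ne : ¬ El E := fun el => by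
    have a := t.conj' h2.nrm
    have b := t.conj' (inv_mem h2.nrm)
    have e1 : MulAut.conj y2 • E ≠ E := fun e => n2 (mem_normalizer_iff_conj_smul.2 e)
    have e2 : MulAut.conj y2⁻¹ • E ≠ E := fun e => n2 (inv_mem_iff.1 (mem_normalizer_iff_conj_smul.2 e))
    have e3 : MulAut.conj y2 • E ≠ MulAut.conj y2⁻¹ • E := fun e => e2 (by
      have := congrArg (fun X => MulAut.conj y2 • X) e
      simp only [conj_smul_cancel_inv, ← conj_smul_mul] at this
      rwa [eq_inv_of_mul_eq_one_left h2.y3', mul_inv_cancel, map_one, one_smul] at this)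
    have el2 := el_three t.le a.le b.le t.idx a.idx b.idx el (el.conj _) (el.conj _) e1 e2 e3
    obtain ⟨u, u1, u2⟩ := t.exists_u
    exact u2 (t.mem_D cx.or6 u1 fun x hx => el2.comm (t.le hx) u1)
  have XE : XX E y1 ≤ E := commutator_le.2 fun a ha b hb => by
    rw [commutatorElement_def, mul_assoc, mul_assoc, ← mul_assoc b]
    exact mul_mem ha (conj_mem_of_le_normalizer (zpowers_le.2 hy) hb (inv_mem ha))
  have key : ∀ g ∈ T ⊔ zpowers y2, XX E y1 ≤ MulAut.conj g • E := fun g hg => by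
    have hg' := h2.normP hg
    by_contra c
    refine ne (ga_sym cx.or6 t hg' fun N a b d e => ?_)
    by_contra n0
    have p := t.two.to_le a
    exact c (((le_inf (XE.trans t.le) (xs G cx _ _ N _ t n0 p b d).1)).trans
      (xs G cx _ _ N _ (t.conj' hg') n0 p b e).2.1)
  obtain ⟨F, hF⟩ : ∃ F : Subgroup G, ∀ x, x ∈ F ↔ ∀ g ∈ T ⊔ zpowers y2, g⁻¹ * x * g ∈ E :=
    ⟨⨅ g ∈ T ⊔ zpowers y2, MulAut.conj g • E, fun x => by simp only [mem_iInf, mem_conj_smul]⟩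
  have XF : XX E y1 ≤ F := fun x hx => (hF x).2 fun g hg => mem_conj_smul.1 (key g hg hx)
  have FE : F ≤ E := fun x hx => by simpa using (hF x).1 hx 1 (one_mem _)
  have nP : T ⊔ zpowers y2 ≤ 𝐍(F) := fun k hk => mem_normalizer_of_conj_smul_le
    (conj_smul_le_iff.2 fun x hx => mem_conj_smul.2 ((hF _).2 fun g hg => by
      have := (hF x).1 hx (k⁻¹ * g) (mul_mem (inv_mem hk) hg)
      rwa [show (k⁻¹ * g)⁻¹ * x * (k⁻¹ * g) = g⁻¹ * (k⁻¹⁻¹ * x * k⁻¹) * g by group] at this))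
  have n1 : y1 ∈ 𝐍(F) := mem_normalizer_of_conj_smul_le
    (conj_smul_le_iff.2 fun x hx => mem_conj_smul.2 (by
      have := mul_mem hx (XF (commutator_mem_commutator (inv_mem (FE hx)) (mem_zpowers y1)))
      rwa [commutatorElement_def, show x * (x⁻¹ * y1 * x⁻¹⁻¹ * y1⁻¹) = y1⁻¹⁻¹ * x * y1⁻¹ by group]
        at this))
  have := hN F (FE.trans (t.le.trans h2.le)) (le_sup_left.trans nP) n1
    (nP (mem_sup_right (mem_zpowers y2)))
  refine t.ncen fun x hx => mem_centralizer_singleton_iff.2 ?_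
  exact commutatorElement_eq_one_iff_mul_comm.1
    (mem_bot.1 (this ▸ XF (commutator_mem_commutator hx (mem_zpowers y1))))

theorem gaStmt (gac : GACStmt.{u}) (xs : XSStmt.{u}) : GAStmt.{u} := by
  intro G _ _ cx T D1 D2 y1 y2 h1 h2 hN
  have n1 := ga_n1 xs cx h1 h2 hN
  have n2 := ga_n1 xs cx h2 h1 hN.symm
  by_cases c2 : Cen T y2
  · exact (gac G cx.or6 T D1 D2 y1 y2 h1 h2 hN n1 (inf_comm D2 D1 ▸ n2) c2).elim
  by_cases c1 : Cen T y1
  · exact (gac G cx.or6 T D2 D1 y2 y1 h2 h1 hN.symm n2 (inf_comm D1 D2 ▸ n1) c1).elim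
  exact gan cx.or6 h1 h2 hN c1 c2

end Cfsg.Agent.P31
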