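import Mathlib

/-! Trivalent amalgam graphs of central type: basic facts. -/

namespace Cfsg.Agent.P31

/-- The kernel of the action of a vertex stabilizer on the neighbours. -/
def Qs (G : Type*) {V : Type*} [Group G] [MulAction G V] (adj : V → V → Prop) (d : V) :
    Subgroup G where
  carrier := {g | g • d = d ∧ ∀ a, adj d a → g • a = a}
  mul_mem' := by
    rintro g h ⟨g1, g2⟩ ⟨h1, h2⟩
    exact ⟨by rw [mul_smul, h1, g1], fun a ha => by rw [mul_smul, h2 a ha, g2 a ha]⟩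
  one_mem' := ⟨one_smul _ _, fun a _ => one_smul _ _⟩
  inv_mem' := by
    rintro g ⟨g1, g2⟩
    exact ⟨by rw [inv_smul_eq_iff, g1], fun a ha => by rw [inv_smul_eq_iff, g2 a ha]⟩

structure Am (G V : Type*) [Group G] [MulAction G V] where
  adj : V → V → Prop
  isB : V → Prop
  c : V → G
  symm : ∀ {a b}, adj a b → adj b a
  adj_smul : ∀ (g : G) {a b}, adj a b → adj (g • a) (g • b)
  isB_smul : ∀ (g : G) {a}, isB a → isB (g • a)
  bip : ∀ {a b}, adj a b → (isB a ↔ ¬ isB b)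
  three : ∀ d, ∃ a1 a2 a3, a1 ≠ a2 ∧ a1 ≠ a3 ∧ a2 ≠ a3 ∧
    ∀ x, adj d x ↔ x = a1 ∨ x = a2 ∨ x = a3
  vt : ∀ a b, (isB a ↔ isB b) → ∃ g : G, g • a = b
  ne : Nonempty V
  mv : ∀ d a b, adj d a → adj d b → ∃ g : G, g • d = d ∧ g • a = b
  rot : ∀ d, isB d → ∃ y : G, y ^ 3 = 1 ∧ y • d = d ∧ (∀ a, adj d a → y • a ≠ a) ∧
    ∀ x ∈ Qs G adj d, x * y = y * x → x * x = 1
  exp4 : ∀ {a b} {g : G}, adj a b → g • a = a → g • b = b → g ^ 4 = 1
  no8 : ∀ g : G, g ^ 8 = 1 → g ^ 4 = 1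
  cen : ∀ d (g : G), g • d = d → (∀ q ∈ Qs G adj d, q * g = g * q) → g ∈ Qs G adj d
  noN : ∀ {a b} (N : Subgroup G), adj a b → N ≤ Qs G adj a →
    (∀ g : G, g • a = a → ∀ n ∈ N, g * n * g⁻¹ ∈ N) →
    (∀ g : G, g • b = b → ∀ n ∈ N, g * n * g⁻¹ ∈ N) → N = ⊥
  b5 : ∀ {d a a'}, adj d a → adj d a' → a ≠ a' →
    ∃ q ∈ Qs G adj d, q ∈ Qs G adj a ∧ q ∉ Qs G adj a'
  c_smul : ∀ (g : G) {a}, isB a → c (g • a) = g * c a * g⁻¹
  c_ne : ∀ {a}, isB a → c a ≠ 1
  c_sq : ∀ {a}, isB a → c a * c a = 1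
  c_fix : ∀ {a}, isB a → c a • a = a
  za : ∀ {a} (x : G), ¬ isB a → x * x = 1 → x • a = a → (∀ g : G, g • a = a → g * x = x * g) →
    x = 1

namespace Am

variable {G V : Type*} [Group G] [MulAction G V] (A : Am G V)

abbrev Q (d : V) : Subgroup G := Qs G A.adj d

variable {A}

theorem Q_fix {d : V} {g : G} (h : g ∈ A.Q d) : g • d = d := h.1
theorem Q_nb {d a : V} {g : G} (h : g ∈ A.Q d) (ha : A.adj d a) : g • a = a := h.2 a ha

theorem fix_inv {g : G} {a : V} (h : g • a = a) : g⁻¹ • a = a := by rw [inv_smul_eq_iff, h]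
theorem fix_mul {g h : G} {a : V} (h1 : g • a = a) (h2 : h • a = a) : (g * h) • a = a := by
  rw [mul_smul, h2, h1]

theorem adj_fix {g : G} {d a : V} (hd : g • d = d) (ha : A.adj d a) : A.adj d (g • a) := by
  have := A.adj_smul g ha
  rwa [hd] at this

theorem smul_ne {g : G} {a b : V} (h : a ≠ b) : g • a ≠ g • b := fun e => h (smul_left_cancel g e)

theorem nbr3 {d a b e x : V} (ha : A.adj d a) (hb : A.adj d b) (he : A.adj d e) (ab : a ≠ b)
    (ae : a ≠ e) (be : b ≠ e) (hx : A.adj d x) : x = a ∨ x = b ∨ x = e := by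
  obtain ⟨a1, a2, a3, h12, h13, h23, h⟩ := A.three d
  rw [h] at ha hb he hx
  rcases ha with rfl | rfl | rfl <;> rcases hb with rfl | rfl | rfl <;>
    rcases he with rfl | rfl | rfl <;> rcases hx with rfl | rfl | rfl <;> simp_all

theorem other (d a b : V) : ∃ e, A.adj d e ∧ e ≠ a ∧ e ≠ b := by
  obtain ⟨a1, a2, a3, h12, h13, h23, h⟩ := A.three d
  by_cases h1 : a1 ≠ a ∧ a1 ≠ b
  · exact ⟨a1, (h _).2 (Or.inl rfl), h1⟩
  by_cases h2 : a2 ≠ a ∧ a2 ≠ b
  · exact ⟨a2, (h _).2 (Or.inr (Or.inl rfl)), h2⟩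
  refine ⟨a3, (h _).2 (Or.inr (Or.inr rfl)), ?_, ?_⟩ <;> rintro rfl <;> grind

theorem memQ {d a b : V} {g : G} (ha : A.adj d a) (hb : A.adj d b) (ab : a ≠ b) (gd : g • d = d)
    (ga : g • a = a) (gb : g • b = b) : g ∈ A.Q d := by
  refine ⟨gd, fun x hx => ?_⟩
  obtain ⟨e, he, ea, eb⟩ := other (A := A) d a b
  rcases nbr3 ha hb he ab ea.symm eb.symm hx with rfl | rfl | rfl
  · exact ga
  · exact gb
  · rcases nbr3 ha hb he ab ea.symm eb.symm (adj_fix gd he) with h | h | h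
    · exact absurd (smul_left_cancel g (h.trans ga.symm)) ea
    · exact absurd (smul_left_cancel g (h.trans gb.symm)) eb
    · exact h

theorem moves {d a b : V} {g : G} (ha : A.adj d a) (hb : A.adj d b) (ab : b ≠ a) (gd : g • d = d)
    (ga : g • a = a) (hq : g ∉ A.Q d) : g • b ≠ b := fun h => hq (memQ ha hb ab.symm gd ga h)

theorem swap {d a b e : V} {g : G} (ha : A.adj d a) (hb : A.adj d b) (he : A.adj d e) (ba : b ≠ a)
    (ea : e ≠ a) (eb : e ≠ b) (gd : g • d = d) (ga : g • a = a) (hq : g ∉ A.Q d) : g • b = e := by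
  rcases nbr3 ha hb he ba.symm ea.symm eb.symm (adj_fix gd hb) with h | h | h
  · exact absurd (smul_left_cancel g (h.trans ga.symm)) ba
  · exact absurd h (moves ha hb ba gd ga hq)
  · exact h

theorem mulQ {d a : V} {g h : G} (ha : A.adj d a) (gd : g • d = d) (ga : g • a = a)
    (hd : h • d = d) (ha' : h • a = a) (gq : g ∉ A.Q d) (hq : h ∉ A.Q d) : g * h ∈ A.Q d := by
  obtain ⟨b, hb, ba, -⟩ := other (A := A) d a a
  obtain ⟨e, he, ea, eb⟩ := other (A := A) d a b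
  refine memQ ha hb ba.symm (fix_mul gd hd) (fix_mul ga ha') ?_
  rw [mul_smul, swap ha hb he ba ea eb hd ha' hq, swap ha he hb ea ba eb.symm gd ga gq]

theorem sqQ {d a : V} {g : G} (ha : A.adj d a) (gd : g • d = d) (ga : g • a = a) :
    g * g ∈ A.Q d := by
  by_cases h : g ∈ A.Q d
  · exact mul_mem h h
  · exact mulQ ha gd ga gd ga h h

theorem Q_conj {d : V} {q : G} (g : G) (h : q ∈ A.Q d) : g * q * g⁻¹ ∈ A.Q (g • d) := by
  refine ⟨by rw [mul_smul, mul_smul, inv_smul_smul, h.1], fun a ha => ?_⟩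
  have := A.adj_smul g⁻¹ ha
  rw [inv_smul_smul] at this
  rw [mul_smul, mul_smul, h.2 _ this, smul_inv_smul]

theorem Q_conj' {d : V} {q : G} (g : G) (h : g * q * g⁻¹ ∈ A.Q (g • d)) : q ∈ A.Q d := by
  have := Q_conj g⁻¹ h
  rw [inv_smul_smul] at this
  simpa [mul_assoc] using this

theorem exists_sw {d a : V} (ha : A.adj d a) : ∃ t ∈ A.Q a, t ∉ A.Q d := by
  obtain ⟨b, hb, bd, -⟩ := other (A := A) a d d
  obtain ⟨q, h1, -, h3⟩ := A.b5 hb (A.symm ha) bd
  exact ⟨q, h1, h3⟩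

/-- An element fixing `d`, `a` that maps `b` to `e`. -/
theorem mv1 {d a b e : V} (ha : A.adj d a) (hb : A.adj d b) (he : A.adj d e) (ba : b ≠ a)
    (ea : e ≠ a) : ∃ g ∈ A.Q a, g • b = e := by
  by_cases h : e = b
  · exact ⟨1, one_mem _, by rw [one_smul, h]⟩
  obtain ⟨t, t1, t2⟩ := exists_sw ha
  exact ⟨t, t1, swap ha hb he ba ea h (Q_nb t1 (A.symm ha)) (Q_fix t1) t2⟩

theorem two_trans {d a b a' b' : V} (ha : A.adj d a) (hb : A.adj d b) (ha' : A.adj d a')
    (hb' : A.adj d b') (ba : b ≠ a) (ba' : b' ≠ a') :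
    ∃ g : G, g • d = d ∧ g • a = a' ∧ g • b = b' := by
  obtain ⟨g, gd, ga⟩ := A.mv d a a' ha ha'
  obtain ⟨t, t1, t2⟩ := mv1 ha' (adj_fix gd hb) hb' (by rw [← ga]; exact smul_ne ba) ba'
  exact ⟨t * g, fix_mul (Q_nb t1 (A.symm ha')) gd, by rw [mul_smul, ga, Q_fix t1],
    by rw [mul_smul, t2]⟩

theorem gen (p : G → Prop) (mul : ∀ x y, p x → p y → p (x * y)) {d l : V} (hl : A.adj d l)
    (hT : ∀ t : G, t • d = d → t • l = l → p t) {g : G} (gd : g • d = d) (gl : g • l ≠ l)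
    (pg : p g) (h : G) (hd : h • d = d) : p h := by
  by_cases h1 : h • l = l
  · exact hT h hd h1
  obtain ⟨t, t1, t2⟩ := mv1 hl (adj_fix gd hl) (adj_fix hd hl) gl h1
  have td := Q_nb t1 (A.symm hl)
  have e : h = t * g * ((t * g)⁻¹ * h) := by group
  rw [e]
  refine mul _ _ (mul _ _ (hT t td (Q_fix t1)) pg) (hT _ (fix_mul (fix_inv (fix_mul td gd)) hd) ?_)
  rw [mul_smul, inv_smul_eq_iff, mul_smul, t2]

theorem isB_iff (g : G) (a : V) : A.isB (g • a) ↔ A.isB a :=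
  ⟨fun h => by simpa using A.isB_smul g⁻¹ h, A.isB_smul g⟩

theorem nB {a b : V} (h : A.adj a b) (ha : A.isB a) : ¬ A.isB b := (A.bip h).1 ha
theorem B_of {a b : V} (h : A.adj a b) (ha : ¬ A.isB a) : A.isB b := by
  by_contra hb; exact ha ((A.bip h).2 hb)

theorem c_comm {a : V} {g : G} (ha : A.isB a) (h : g • a = a) : g * A.c a = A.c a * g := by
  have := A.c_smul g ha
  rw [h] at this
  calc g * A.c a = g * A.c a * g⁻¹ * g := by group
    _ = A.c a * g := by rw [← this]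

theorem c_conj {a : V} {g : G} (ha : A.isB a) (h : g • a = a) : g * A.c a * g⁻¹ = A.c a := by
  rw [c_comm ha h]; group

theorem c_inv {a : V} (ha : A.isB a) : (A.c a)⁻¹ = A.c a :=
  inv_eq_of_mul_eq_one_right (A.c_sq ha)

theorem cQ0 {a : V} (ha : A.isB a) : A.c a ∈ A.Q a :=
  A.cen a _ (A.c_fix ha) fun _ hq => c_comm ha (Q_fix hq)

theorem cQ1 {a b : V} (ha : A.isB a) (h : A.adj a b) : A.c a ∈ A.Q b :=
  A.cen b _ (Q_nb (cQ0 ha) h) fun _ hq => c_comm ha (Q_nb hq (A.symm h))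

theorem cc_comm {d a b : V} (hd : ¬ A.isB d) (ha : A.adj d a) (hb : A.adj d b) :
    A.c a * A.c b = A.c b * A.c a :=
  c_comm (B_of hb hd) (Q_nb (cQ1 (B_of ha hd) (A.symm ha)) hb)

/-- Trace lemma at an alpha vertex. -/
theorem trace {d : V} (hd : ¬ A.isB d) (r : V → G)
    (eq : ∀ (g : G) a, g • d = d → A.adj d a → r (g • a) = g * r a * g⁻¹)
    (sq : ∀ a, A.adj d a → r a * r a = 1) (fx : ∀ a, A.adj d a → r a • d = d)
    (cm : ∀ a b, A.adj d a → A.adj d b → r a * r b = r b * r a)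
    {a b e : V} (ha : A.adj d a) (hb : A.adj d b) (he : A.adj d e) (ab : a ≠ b)
    (ae : a ≠ e) (be : b ≠ e) : r a * r b = r e := by
  have cab : Commute (r a) (r b) := cm a b ha hb
  have cae : Commute (r a) (r e) := cm a e ha he
  have cbe : Commute (r b) (r e) := cm b e hb he
  have key : ∀ x y z, A.adj d x → A.adj d y → A.adj d z → x ≠ y → x ≠ z → y ≠ z →
      r x * r y * r z = r a * r b * r e := by
    intro x y z hx hy hz xy xz yz
    rcases nbr3 ha hb he ab ae be hx with rfl | rfl | rfl <;>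
      rcases nbr3 ha hb he ab ae be hy with rfl | rfl | rfl <;>
      rcases nbr3 ha hb he ab ae be hz with rfl | rfl | rfl <;>
      first
      | exact absurd rfl xy
      | exact absurd rfl xz
      | exact absurd rfl yz
      | rfl
      | (simp only [mul_assoc, cab.symm.eq, cae.symm.eq, cbe.symm.eq, cab.symm.left_comm,
          cae.symm.left_comm, cbe.symm.left_comm])
  have h1 : r a * r b * r e = 1 := by
    refine A.za _ hd ?_ (fix_mul (fix_mul (fx a ha) (fx b hb)) (fx e he)) fun g hg => ?_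
    · calc r a * r b * r e * (r a * r b * r e) = (r a * r a) * (r b * r b) * (r e * r e) := by
            simp only [mul_assoc, cab.symm.left_comm, cae.symm.left_comm, cbe.symm.left_comm]
        _ = 1 := by rw [sq a ha, sq b hb, sq e he]; simp
    · have := key _ _ _ (adj_fix hg ha) (adj_fix hg hb) (adj_fix hg he) (smul_ne ab) (smul_ne ae)
        (smul_ne be)
      rw [eq g a hg ha, eq g b hg hb, eq g e hg he] at this
      calc g * (r a * r b * r e) = g * r a * g⁻¹ * (g * r b * g⁻¹) * (g * r e * g⁻¹) * g := by group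
        _ = _ := by rw [this]
  have := sq e he
  calc r a * r b = r a * r b * (r e * r e) := by rw [this, mul_one]
    _ = r e := by rw [← mul_assoc, h1, one_mul]

theorem c_prod {d a b e : V} (hd : ¬ A.isB d) (ha : A.adj d a) (hb : A.adj d b) (he : A.adj d e)
    (ab : a ≠ b) (ae : a ≠ e) (be : b ≠ e) : A.c a * A.c b = A.c e :=
  trace hd A.c (fun g a _ ha => A.c_smul g (B_of ha hd)) (fun a ha => A.c_sq (B_of ha hd))
    (fun a ha => Q_fix (cQ1 (B_of ha hd) (A.symm ha))) (fun a b => cc_comm hd) ha hb he ab ae be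

theorem c_inj {d a b : V} (hd : ¬ A.isB d) (ha : A.adj d a) (hb : A.adj d b)
    (h : A.c a = A.c b) : a = b := by
  by_contra ab
  obtain ⟨e, he, ea, eb⟩ := other (A := A) d a b
  have := c_prod hd ha hb he ab ea.symm eb.symm
  rw [h, A.c_sq (B_of hb hd)] at this
  exact A.c_ne (B_of he hd) this.symm

/-- An element fixing `d` and `b` sends `c a` to `c a` or `c a * c b`. -/
theorem c_two {d a b : V} {g : G} (hd : ¬ A.isB d) (ha : A.adj d a) (hb : A.adj d b)
    (gd : g • d = d) (gb : g • b = b) :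
    g * A.c a * g⁻¹ = A.c a ∨ g * A.c a * g⁻¹ = A.c a * A.c b := by
  by_cases h : g • a = a
  · exact Or.inl (c_conj (B_of ha hd) h)
  · right
    have ab : a ≠ b := by rintro rfl; exact h gb
    rw [← A.c_smul g (B_of ha hd)]
    refine (c_prod hd ha hb (adj_fix gd ha) ab (Ne.symm h) ?_).symm
    intro e
    exact ab (smul_left_cancel g (e.symm.trans gb.symm))

theorem c_mov {d a b : V} {g : G} (hd : ¬ A.isB d) (ha : A.adj d a) (hb : A.adj d b) (ab : a ≠ b)
    (gd : g • d = d) (gb : g • b = b) (hq : g ∉ A.Q d) :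
    g * A.c a * g⁻¹ = A.c a * A.c b := by
  rcases c_two hd ha hb gd gb with h | h
  · rw [← A.c_smul g (B_of ha hd)] at h
    exact absurd (c_inj hd (adj_fix gd ha) ha h) (moves hb ha ab gd gb hq)
  · exact h

/-- The subgroup generated by the involutions at a set of vertices. -/
def Cl (A : Am G V) (X : V → Prop) : Subgroup G :=
  Subgroup.closure {x | ∃ v, X v ∧ A.isB v ∧ x = A.c v}

theorem mem_Cl {X : V → Prop} {v : V} (h : X v) (hv : A.isB v) : A.c v ∈ A.Cl X :=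
  Subgroup.subset_closure ⟨v, h, hv, rfl⟩

theorem Cl_conj {X : V → Prop} {g : G}
    (h : ∀ v, X v → A.isB v → g * A.c v * g⁻¹ ∈ A.Cl X) : ∀ n ∈ A.Cl X, g * n * g⁻¹ ∈ A.Cl X := by
  intro n hn
  induction hn using Subgroup.closure_induction with
  | mem x hx => obtain ⟨v, h1, h2, rfl⟩ := hx; exact h v h1 h2
  | one => simpa using one_mem _
  | mul x y _ _ hx hy =>
    have : g * (x * y) * g⁻¹ = g * x * g⁻¹ * (g * y * g⁻¹) := by group
    rw [this]; exact mul_mem hx hy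
  | inv x _ hx =>
    have : g * x⁻¹ * g⁻¹ = (g * x * g⁻¹)⁻¹ := by group
    rw [this]; exact inv_mem hx

theorem kill {a b : V} (hab : A.adj a b) (X : V → Prop)
    (hQ : ∀ v, X v → A.isB v → A.c v ∈ A.Q a)
    (hX : ∀ t : G, t • a = a → ∀ v, X v → X (t • v)) {g : G} (gb : g • b = b) (ga : g • a ≠ a)
    (hg : ∀ v, X v → A.isB v → g * A.c v * g⁻¹ ∈ A.Cl X) {v : V} (hv : X v) (vB : A.isB v) :
    False := by
  have h1 : ∀ t : G, t • a = a → ∀ n ∈ A.Cl X, t * n * t⁻¹ ∈ A.Cl X := fun t ht =>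
    Cl_conj fun v h1 h2 => by
      rw [← A.c_smul t h2]; exact mem_Cl (hX t ht v h1) (A.isB_smul t h2)
  have := A.noN (A.Cl X) hab ((Subgroup.closure_le _).2 (by
    rintro x ⟨v, h1, h2, rfl⟩; exact hQ v h1 h2)) h1
    (gen (fun t => ∀ n ∈ A.Cl X, t * n * t⁻¹ ∈ A.Cl X) (fun x y hx hy n hn => by
      have : x * y * n * (x * y)⁻¹ = x * (y * n * y⁻¹) * x⁻¹ := by group
      rw [this]; exact hx _ (hy n hn)) (A.symm hab) (fun t _ ht => h1 t ht) gb ga (Cl_conj hg))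
  have h2 := mem_Cl hv vB
  rw [this] at h2
  exact A.c_ne vB h2

/-- (B3) -/
theorem b3 {l a a' x x' : V} (hl : A.isB l) (ha : A.adj l a) (ha' : A.adj l a') (aa : a ≠ a')
    (hx : A.adj a x) (hx' : A.adj a' x') (xl : x ≠ l) : A.c x ≠ A.c x' := by
  intro h
  have na := nB ha hl
  have na' := nB ha' hl
  obtain ⟨g, gl, ga⟩ := A.mv l a a' ha ha'
  have m1 : A.c l ∈ A.Cl (A.adj a) := mem_Cl (A.symm ha) hl
  have m2 : A.c x' ∈ A.Cl (A.adj a) := h ▸ mem_Cl hx (B_of hx na)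
  have xl' : x' ≠ l := by
    rintro rfl; exact xl (c_inj na hx (A.symm ha) h)
  refine kill (A.symm ha) (A.adj a) (fun v hv vB => cQ1 vB (A.symm hv))
    (fun t ht v hv => adj_fix ht hv) gl (ga ▸ aa.symm) (fun v hv vB => ?_) (A.symm ha) hl
  rw [← A.c_smul g vB]
  have h1 : A.adj a' (g • v) := ga ▸ A.adj_smul g hv
  by_cases e1 : g • v = l
  · rw [e1]; exact m1
  by_cases e2 : g • v = x'
  · rw [e2]; exact m2
  rw [← c_prod na' (A.symm ha') hx' h1 xl'.symm (Ne.symm e1) (Ne.symm e2)]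
  exact mul_mem m1 m2

/-- (B6) -/
theorem b6 {d m : V} (h : A.adj d m) : ∃ s ∈ A.Q d, s ∉ A.Q m ∧ s * s = 1 := by
  obtain ⟨a, ha, am, -⟩ := other (A := A) d m m
  obtain ⟨e, he, em, ea⟩ := other (A := A) d m a
  obtain ⟨u, u1, u2⟩ := exists_sw ha
  have ud := Q_nb u1 (A.symm ha)
  have ue : u • e = m := swap ha he h ea am.symm em.symm ud (Q_fix u1) u2
  have um : u • m = e := swap ha h he am.symm ea em ud (Q_fix u1) u2
  obtain ⟨q, q1, q2, q3⟩ := A.b5 h he em.symm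
  have e4 : ∀ g : G, g • d = d → g • a = a → g * g * (g * g) = 1 := fun g h1 h2 => by
    have := A.exp4 ha h1 h2
    rw [← this]; simp only [pow_succ, pow_zero, one_mul, mul_assoc]
  by_cases hu : u * u ∈ A.Q m
  · have f1 := fix_mul ud (Q_fix q1)
    have f2 := fix_mul (Q_fix u1) (Q_nb q1 ha)
    refine ⟨u * q * (u * q), sqQ ha f1 f2, fun hm => q3 ?_, e4 _ f1 f2⟩
    apply Q_conj' u
    rw [ue]
    have e2 : u * q * u⁻¹ = u * q * (u * q) * q⁻¹ * (u * u)⁻¹ := by group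
    rw [e2]
    exact mul_mem (mul_mem hm (inv_mem q2)) (inv_mem hu)
  · exact ⟨u * u, sqQ ha ud (Q_fix u1), hu, e4 _ ud (Q_fix u1)⟩

end Am

end Cfsg.Agent.P31
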