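import Cfsg.Agent.P31.GA1

/-! Lines (non-backtracking two-sided walks), transitivity on arcs, the critical distance. -/

namespace Cfsg.Agent.P31

namespace Am

variable {G V : Type*} [Group G] [MulAction G V] {A : Am G V}

structure Line (A : Am G V) (f : ℤ → V) : Prop where
  ad : ∀ i j, j = i + 1 → A.adj (f i) (f j)
  nb : ∀ i j, j = i + 2 → f j ≠ f i

namespace Line

variable {f f' : ℤ → V}

theorem ad' (h : A.Line f) (i j : ℤ) (e : i = j + 1) : A.adj (f i) (f j) := A.symm (h.ad j i e)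
theorem nb' (h : A.Line f) (i j : ℤ) (e : i = j + 2) : f j ≠ f i := (h.nb j i e).symm

theorem shift (h : A.Line f) (k : ℤ) : A.Line fun j => f (j + k) :=
  ⟨fun _ _ e => h.ad _ _ (by omega), fun _ _ e => h.nb _ _ (by omega)⟩

theorem rev (h : A.Line f) (k : ℤ) : A.Line fun j => f (k - j) :=
  ⟨fun _ _ e => h.ad' _ _ (by omega), fun _ _ e => h.nb' _ _ (by omega)⟩

theorem smul (h : A.Line f) (g : G) : A.Line fun j => g • f j :=
  ⟨fun _ _ e => A.adj_smul g (h.ad _ _ e), fun _ _ e => smul_ne (h.nb _ _ e)⟩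

theorem glue (h : A.Line f) (h' : A.Line f') (n : ℤ) (e : f n = f' n)
    (ne : f' (n + 1) ≠ f (n - 1)) :
    ∃ k, A.Line k ∧ (∀ j, j ≤ n → k j = f j) ∧ ∀ j, n ≤ j → k j = f' j := by
  refine ⟨fun j => if j ≤ n then f j else f' j, ⟨fun i j hj => ?_, fun i j hj => ?_⟩,
    fun j hj => if_pos hj, fun j hj => ?_⟩
  · by_cases h1 : j ≤ n
    · rw [if_pos h1, if_pos (by omega : i ≤ n)]; exact h.ad _ _ hj
    · rw [if_neg h1]
      by_cases h2 : i ≤ n
      · rw [if_pos h2, show i = n by omega, e]; exact h'.ad _ _ (by omega)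
      · rw [if_neg h2]; exact h'.ad _ _ hj
  · by_cases h1 : j ≤ n
    · rw [if_pos h1, if_pos (by omega : i ≤ n)]; exact h.nb _ _ hj
    · rw [if_neg h1]
      by_cases h2 : i ≤ n
      · rw [if_pos h2]
        by_cases h3 : i = n
        · rw [h3, e]; exact h'.nb _ _ (by omega)
        · rw [show i = n - 1 by omega, show j = n + 1 by omega]; exact ne
      · rw [if_neg h2]; exact h'.nb _ _ hj
  · by_cases h1 : j ≤ n
    · show (if j ≤ n then f j else f' j) = f' j
      rw [if_pos h1, show j = n by omega, e]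
    · exact if_neg h1

theorem fwd (h : A.Line f) (n : ℤ) {x : V} (hx : A.adj (f n) x) (ne : x ≠ f (n - 1)) :
    ∃ k, A.Line k ∧ (∀ j, j ≤ n → k j = f j) ∧ k (n + 1) = x := by
  have a0 := h.ad' n (n - 1) (by omega)
  obtain ⟨g, g1, g2⟩ := mv1 a0 (h.ad n (n + 1) rfl) hx (h.nb _ _ (by omega)) ne
  obtain ⟨k, k1, k2, k3⟩ := h.glue (h.smul g) n (Q_nb g1 (A.symm a0)).symm (by
    show g • f (n + 1) ≠ _
    rw [g2]; exact ne)
  exact ⟨k, k1, k2, by rw [k3 _ (by omega)]; exact g2⟩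

theorem bwd (h : A.Line f) (n : ℤ) {x : V} (hx : A.adj (f n) x) (ne : x ≠ f (n + 1)) :
    ∃ k, A.Line k ∧ (∀ j, n ≤ j → k j = f j) ∧ k (n - 1) = x := by
  obtain ⟨k, k1, k2, k3⟩ := (h.rev 0).fwd (-n) (x := x) (by simpa using hx) (by
    show x ≠ f (0 - (-n - 1))
    rw [show 0 - (-n - 1) = n + 1 by omega]; exact ne)
  refine ⟨fun j => k (0 - j), k1.rev 0, fun j hj => ?_, ?_⟩
  · show k (0 - j) = f j
    rw [k2 _ (by omega)]; simp
  · show k (0 - (n - 1)) = x
    rw [show 0 - (n - 1) = -n + 1 by omega, k3]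

theorem ty (h : A.Line f) (h' : A.Line f') {i i' : ℤ} (e : A.isB (f i) ↔ A.isB (f' i'))
    (j j' : ℤ) (hj : j - i = j' - i') : A.isB (f j) ↔ A.isB (f' j') := by
  have key : ∀ n : ℤ, A.isB (f (i + n)) ↔ A.isB (f' (i' + n)) := by
    intro n
    induction n using Int.induction_on with
    | zero => simpa using e
    | succ n ih =>
      have h1 := A.bip (h.ad (i + n) (i + (n + 1)) (by omega))
      have h2 := A.bip (h'.ad (i' + n) (i' + (n + 1)) (by omega))
      tauto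
    | pred n ih =>
      have h1 := A.bip (h.ad (i + (-n - 1)) (i + -n) (by omega))
      have h2 := A.bip (h'.ad (i' + (-n - 1)) (i' + -n) (by omega))
      tauto
  have := key (j - i)
  rwa [show i + (j - i) = j by omega, show i' + (j - i) = j' by omega] at this

theorem ty2 (h : A.Line f) (i : ℤ) (n : ℤ) : A.isB (f i) ↔ A.isB (f (i + 2 * n)) := by
  induction n using Int.induction_on with
  | zero => simp
  | succ n ih =>
    have h1 := A.bip (h.ad (i + 2 * n) (i + 2 * n + 1) (by omega))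
    have h2 := A.bip (h.ad (i + 2 * n + 1) (i + 2 * (n + 1)) (by omega))
    tauto
  | pred n ih =>
    have h1 := A.bip (h.ad' (i + 2 * -n) (i + 2 * -n - 1) (by omega))
    have h2 := A.bip (h.ad' (i + 2 * -n - 1) (i + 2 * (-n - 1)) (by omega))
    tauto

theorem B (h : A.Line f) {i : ℤ} (hi : A.isB (f i)) (j : ℤ) (e : (j - i) % 2 = 0) :
    A.isB (f j) := by
  have := (h.ty2 i ((j - i) / 2)).1 hi
  rwa [show i + 2 * ((j - i) / 2) = j by omega] at this

theorem nB' (h : A.Line f) {i : ℤ} (hi : A.isB (f i)) (j : ℤ) (e : (j - i) % 2 = 1) :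
    ¬ A.isB (f j) := nB (h.ad (j - 1) j (by omega)) (h.B hi _ (by omega))

end Line

theorem exists_line {a b : V} (hab : A.adj a b) : ∃ f, A.Line f ∧ f 0 = a ∧ f 1 = b := by
  obtain ⟨a', ha', aa, -⟩ := other (A := A) b a a
  obtain ⟨b', hb', bb, -⟩ := other (A := A) a b b
  obtain ⟨x, xb, xa⟩ := A.mv b a a' (A.symm hab) ha'
  obtain ⟨y, ya, yb⟩ := A.mv a b b' hab hb'
  set t := x * y⁻¹ with ht
  have ta : t • a = a' := by rw [ht, mul_smul, fix_inv ya, xa]
  have tb : t • b ≠ b := by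
    intro h
    have h1 : t⁻¹ • b = b := fix_inv h
    rw [ht, mul_inv_rev, inv_inv, mul_smul, fix_inv xb, yb] at h1
    exact bb h1
  refine ⟨fun n => t ^ (n / 2) • (if n % 2 = 0 then a else b), ⟨fun i j e => ?_, fun i j e => ?_⟩,
    by simp, by simp⟩
  · by_cases h : i % 2 = 0
    · rw [if_pos h, if_neg (by omega), show j / 2 = i / 2 by omega]
      exact A.adj_smul _ hab
    · rw [if_neg h, if_pos (by omega), show j / 2 = i / 2 + 1 by omega, zpow_add_one, mul_smul, ta]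
      exact A.adj_smul _ ha'
  · rw [show j / 2 = i / 2 + 1 by omega, zpow_add_one, mul_smul, show j % 2 = i % 2 by omega]
    refine smul_ne ?_
    by_cases h : i % 2 = 0
    · rw [if_pos h, ta]; exact aa
    · rw [if_neg h]; exact tb

theorem exists_line2 {a b e : V} (hab : A.adj a b) (hbe : A.adj b e) (ne : e ≠ a) :
    ∃ f, A.Line f ∧ f 0 = a ∧ f 1 = b ∧ f 2 = e := by
  obtain ⟨f, hf, f0, f1⟩ := exists_line hab
  obtain ⟨k, k1, k2, k3⟩ := hf.fwd 1 (x := e) (f1 ▸ hbe) (by simpa [f0] using ne)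
  exact ⟨k, k1, by rw [k2 _ (by omega), f0], by rw [k2 _ (by omega), f1], k3⟩

theorem exists_line3 {a b e x : V} (hab : A.adj a b) (hbe : A.adj b e) (ne : e ≠ a)
    (hex : A.adj e x) (ne' : x ≠ b) :
    ∃ f, A.Line f ∧ f 0 = a ∧ f 1 = b ∧ f 2 = e ∧ f 3 = x := by
  obtain ⟨f, hf, f0, f1, f2⟩ := exists_line2 hab hbe ne
  obtain ⟨k, k1, k2, k3⟩ := hf.fwd 2 (x := x) (f2 ▸ hex) (by simpa [f1] using ne')
  exact ⟨k, k1, by rw [k2 _ (by omega), f0], by rw [k2 _ (by omega), f1],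
    by rw [k2 _ (by omega), f2], k3⟩

theorem reach {a v : V} (h : Relation.ReflTransGen A.adj a v) :
    ∃ f, A.Line f ∧ ∃ n : ℤ, 0 ≤ n ∧ f 0 = a ∧ f n = v := by
  induction h with
  | refl =>
    obtain ⟨b, hb, -⟩ := other (A := A) a a a
    obtain ⟨f, hf, f0, -⟩ := exists_line hb
    exact ⟨f, hf, 0, le_rfl, f0, f0⟩
  | @tail y z _ hyz ih =>
    obtain ⟨f, hf, n, hn, f0, fn⟩ := ih
    by_cases h : z = f (n - 1)
    · by_cases h0 : n = 0
      · subst h0
        exact ⟨fun j => f (0 - j), hf.rev 0, 1, by omega, by simpa using f0, h.symm⟩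
      · exact ⟨f, hf, n - 1, by omega, f0, h.symm⟩
    · obtain ⟨k, k1, k2, k3⟩ := hf.fwd n (fn ▸ hyz) h
      exact ⟨k, k1, n + 1, by omega, by rw [k2 _ hn, f0], k3⟩

/-- Minimality of the critical distance. -/
def Mn (A : Am G V) (b : ℤ) : Prop :=
  ∀ f, A.Line f → ∀ i j, A.isB (f i) → j - i ≤ b → i - j ≤ b → A.c (f i) ∈ A.Q (f j)

theorem exists_crit (A : Am G V) : ∃ b : ℤ, 1 ≤ b ∧ A.Mn b ∧
    ∃ f, A.Line f ∧ A.isB (f (-1)) ∧ A.c (f (-1)) ∉ A.Q (f b) := by
  classical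
  have ex : ∃ n : ℕ, ∃ f, A.Line f ∧ A.isB (f 0) ∧ A.c (f 0) ∉ A.Q (f n) := by
    by_contra hn
    push Not at hn
    obtain ⟨a0⟩ := A.ne
    obtain ⟨a, ha⟩ : ∃ a, A.isB a := by
      obtain ⟨b, hb, -⟩ := other (A := A) a0 a0 a0
      by_cases h : A.isB a0
      · exact ⟨a0, h⟩
      · exact ⟨b, B_of hb h⟩
    obtain ⟨b, hb, -⟩ := other (A := A) a a a
    obtain ⟨a', ha', aa, -⟩ := other (A := A) b a a
    obtain ⟨g, gb, ga⟩ := A.mv b a a' (A.symm hb) ha'
    have mp : ∀ (t : G) v, Relation.ReflTransGen A.adj a v →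
        Relation.ReflTransGen A.adj (t • a) (t • v) := by
      intro t v h
      induction h with
      | refl => exact Relation.ReflTransGen.refl
      | tail _ h ih => exact ih.tail (A.adj_smul t h)
    refine kill hb (Relation.ReflTransGen A.adj a) (fun v hv vB => ?_)
      (fun t ht v hv => by have := mp t v hv; rwa [ht] at this) gb (ga ▸ aa)
      (fun v hv vB => ?_) Relation.ReflTransGen.refl ha
    · obtain ⟨f, hf, n, h0, f0, fn⟩ := reach hv
      have := hn n.toNat _ (hf.rev n) (by simpa [fn] using vB)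
      simp only [sub_zero, fn] at this
      rwa [show n - (n.toNat : ℤ) = 0 by omega, f0] at this
    · rw [← A.c_smul g vB]
      refine mem_Cl ?_ (A.isB_smul g vB)
      exact Relation.ReflTransGen.head hb (Relation.ReflTransGen.head (ga ▸ ha') (mp g v hv))
  obtain ⟨f, hf, fB, fQ⟩ := Nat.find_spec ex
  have mn : ∀ m : ℕ, m < Nat.find ex → ∀ f, A.Line f → A.isB (f 0) → A.c (f 0) ∈ A.Q (f m) := by
    intro m hm f hf fB
    by_contra h
    exact Nat.find_min ex hm ⟨f, hf, fB, h⟩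
  have h2 : 2 ≤ Nat.find ex := by
    by_contra h
    have : Nat.find ex = 0 ∨ Nat.find ex = 1 := by omega
    rcases this with h | h <;> rw [h] at fQ
    · exact fQ (cQ0 fB)
    · exact fQ (cQ1 fB (hf.ad _ _ (by simp)))
  refine ⟨(Nat.find ex : ℤ) - 1, by omega, fun k hk i j iB h1 h2 => ?_, fun j => f (j + 1),
    hf.shift 1, by simpa using fB, by simpa using fQ⟩
  by_cases h : i ≤ j
  · have := mn (j - i).toNat (by omega) _ (hk.shift i) (by simpa using iB)
    simp only [zero_add] at this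
    rwa [show ((j - i).toNat : ℤ) + i = j by omega] at this
  · have := mn (i - j).toNat (by omega) _ (hk.rev i) (by simpa using iB)
    simp only [sub_zero] at this
    rwa [show i - ((i - j).toNat : ℤ) = j by omega] at this

theorem Mn.fix {b : ℤ} (M : A.Mn b) {f : ℤ → V} (hf : A.Line f) (i j : ℤ) (hi : A.isB (f i))
    (h1 : j - i ≤ b) (h2 : i - j ≤ b) : A.c (f i) • f j = f j := Q_fix (M f hf i j hi h1 h2)

theorem Mn.q2 {b : ℤ} (M : A.Mn b) (hb : 2 ≤ b) {x a l : V} (xB : A.isB x) (h1 : A.adj x a)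
    (h2 : A.adj a l) : A.c x ∈ A.Q l := by
  by_cases h : l = x
  · rw [h]; exact cQ0 xB
  obtain ⟨f, hf, f0, f1, f2⟩ := exists_line2 h1 h2 h
  have := M f hf 0 2 (f0 ▸ xB) (by omega) (by omega)
  rwa [f0, f2] at this

theorem Mn.q3 {b : ℤ} (M : A.Mn b) (hb : 3 ≤ b) {x a l e : V} (xB : A.isB x) (h1 : A.adj x a)
    (h2 : A.adj a l) (h3 : A.adj l e) : A.c x ∈ A.Q e := by
  by_cases h : l = x
  · exact cQ1 xB (h ▸ h3)
  by_cases h' : e = a
  · exact cQ1 xB (h' ▸ h1)
  obtain ⟨f, hf, f0, f1, f2, f3⟩ := exists_line3 h1 h2 h h3 h'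
  have := M f hf 0 3 (f0 ▸ xB) (by omega) (by omega)
  rwa [f0, f3] at this

/-- `V_l` is abelian. -/
theorem Mn.vcomm {b : ℤ} (M : A.Mn b) (hb : 3 ≤ b) {l a a' x x' : V} (lB : A.isB l)
    (ha : A.adj l a) (ha' : A.adj l a') (hx : A.adj a x) (hx' : A.adj a' x') :
    A.c x * A.c x' = A.c x' * A.c x :=
  c_comm (B_of hx' (nB ha' lB))
    (Q_nb (M.q3 hb (B_of hx (nB ha lB)) (A.symm hx) (A.symm ha) ha') hx')

/-- Some arc of length `k` with end of type `X` has a stabilizer not in `Q` of the end. -/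
def E (A : Am G V) (k : ℤ) (X : Prop) : Prop :=
  ∃ f n, A.Line f ∧ (A.isB (f n) ↔ X) ∧
    ∃ g : G, (∀ j, n - k ≤ j → j ≤ n → g • f j = f j) ∧ g ∉ A.Q (f n)

theorem E.mono {k k' : ℤ} {X : Prop} (h : A.E k X) (hk : k' ≤ k) : A.E k' X := by
  obtain ⟨f, n, h1, h2, g, h3, h4⟩ := h
  exact ⟨f, n, h1, h2, g, fun j a b => h3 j (by omega) b, h4⟩

def Tr (A : Am G V) (k : ℤ) : Prop :=
  ∀ f f', A.Line f → A.Line f' → ∀ i i', (A.isB (f i) ↔ A.isB (f' i')) →
    ∃ g : G, ∀ j j', j - i = j' - i' → i ≤ j → j ≤ i + k → g • f j = f' j'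

theorem tr_one : A.Tr 1 := by
  intro f f' hf hf' i i' e
  obtain ⟨g, hg⟩ := A.vt _ _ e
  obtain ⟨h, h1, h2⟩ := A.mv (f' i') (g • f (i + 1)) (f' (i' + 1))
    (hg ▸ A.adj_smul g (hf.ad _ _ rfl)) (hf'.ad _ _ rfl)
  refine ⟨h * g, fun j j' e1 e2 e3 => ?_⟩
  by_cases hj : j = i
  · rw [hj, show j' = i' by omega, mul_smul, hg, h1]
  · rw [show j = i + 1 by omega, show j' = i' + 1 by omega, mul_smul, h2]

theorem tr_step {k : ℤ} (hk : 1 ≤ k) (T : A.Tr k) (e1 : A.E k True) (e2 : A.E k False) :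
    A.Tr (k + 1) := by
  intro f f' hf hf' i i' e
  obtain ⟨g, hg⟩ := T f f' hf hf' i i' e
  have S : ∃ s : G, (∀ j, i' ≤ j → j ≤ i' + k → s • f' j = f' j) ∧ s ∉ A.Q (f' (i' + k)) := by
    obtain ⟨p, n, hp, pB, s, s1, s2⟩ : A.E k (A.isB (f' (i' + k))) := by
      by_cases h : A.isB (f' (i' + k))
      · rwa [eq_true h]
      · rwa [eq_false h]
    obtain ⟨u, hu⟩ := T p f' hp hf' (n - k) i' (hp.ty hf' pB _ _ (by omega))
    refine ⟨u * s * u⁻¹, fun j h1 h2 => ?_, fun h => s2 (Q_conj' u ?_)⟩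
    · rw [← hu (j - i' + (n - k)) j (by omega) (by omega) (by omega), mul_smul, mul_smul,
        inv_smul_smul, s1 _ (by omega) (by omega)]
    · rwa [hu n (i' + k) (by omega) (by omega) (by omega)]
  obtain ⟨s, s1, s2⟩ := S
  by_cases h : g • f (i + k + 1) = f' (i' + k + 1)
  · refine ⟨g, fun j j' a1 a2 a3 => ?_⟩
    by_cases hj : j ≤ i + k
    · exact hg j j' a1 a2 hj
    · rw [show j = i + k + 1 by omega, show j' = i' + k + 1 by omega, h]
  · refine ⟨s * g, fun j j' a1 a2 a3 => ?_⟩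
    rw [mul_smul]
    by_cases hj : j ≤ i + k
    · rw [hg j j' a1 a2 hj, s1 _ (by omega) (by omega)]
    · rw [show j = i + k + 1 by omega, show j' = i' + k + 1 by omega]
      have a0 : A.adj (f' (i' + k)) (g • f (i + k + 1)) := by
        rw [← hg (i + k) (i' + k) (by omega) (by omega) (by omega)]
        exact A.adj_smul g (hf.ad _ _ rfl)
      refine swap (hf'.ad' (i' + k) (i' + k - 1) (by omega)) a0 (hf'.ad _ _ rfl) ?_
        (hf'.nb _ _ (by omega)) (Ne.symm h) (s1 _ (by omega) (by omega))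
        (s1 _ (by omega) (by omega)) s2
      rw [← hg (i + k - 1) (i' + k - 1) (by omega) (by omega) (by omega)]
      exact smul_ne (hf.nb _ _ (by omega))

theorem tr_of {k : ℤ} (hk : 0 ≤ k) (e1 : A.E k True) (e2 : A.E k False) : A.Tr (k + 1) := by
  have : ∀ n : ℕ, (n : ℤ) ≤ k → A.Tr (n + 1) := by
    intro n
    induction n with
    | zero => intro _; simpa using tr_one
    | succ n ih =>
      intro h
      push_cast at h ⊢
      exact tr_step (by omega) (ih (by omega)) (e1.mono h) (e2.mono h)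
  have h := this k.toNat (by omega)
  rwa [show (k.toNat : ℤ) = k by omega] at h

end Am

end Cfsg.Agent.P31
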