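import Cfsg.Agent.P31.GA2

/-! The cases `b = 1`, `b = 2`, `b` even, and `b` odd with large arc-transitivity. -/

namespace Cfsg.Agent.P31

namespace Am

variable {G V : Type*} [Group G] [MulAction G V] {A : Am G V}

theorem idx {f : ℤ → V} {i j : ℤ} (h : i = j) : f i = f j := by rw [h]

theorem case_one {f : ℤ → V} (hf : A.Line f) (fB : A.isB (f (-1)))
    (cr : A.c (f (-1)) ∉ A.Q (f 1)) : False := by
  have B1 := hf.B fB 1 (by omega)
  have a10 := hf.ad' 1 0 (by omega)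
  have a12 := hf.ad 1 2 (by omega)
  have n0 := nB a10 B1
  have n2 := nB a12 B1
  obtain ⟨e, he, e0, e2⟩ := other (A := A) (f 1) (f 0) (f 2)
  have a0m := hf.ad' 0 (-1) (by omega)
  obtain ⟨g, g1, g0⟩ := A.mv _ _ _ a10 a12
  set v := A.c (f (-1)) with hv
  have vQ : v ∈ A.Q (f 0) := cQ1 fB (A.symm a0m)
  have a2x : A.adj (f 2) (g • f (-1)) := g0 ▸ A.adj_smul g a0m
  set w := A.c (g • f (-1)) with hw
  have wQ : w ∈ A.Q (f 2) := cQ1 (A.isB_smul g fB) (A.symm a2x)
  have wn : w ∉ A.Q (f 1) := fun h => cr (Q_conj' g (by rwa [g1, ← A.c_smul g fB]))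
  have v1 := Q_nb vQ (A.symm a10)
  have w1 := Q_nb wQ (A.symm a12)
  have n20 : f 2 ≠ f 0 := hf.nb _ _ (by omega)
  have cc : ∀ {t : G}, t • f 1 = f 1 → Commute t (A.c (f 1)) := fun h => c_comm B1 h
  have c2 := A.c_sq B1
  -- both `v` and `w` centralize `Q` modulo `c`
  have key : ∀ {a x : V}, A.adj (f 1) a → A.adj a x → ∀ q ∈ A.Q (f 1),
      q * A.c x = A.c x * q ∨ q * A.c x = A.c x * q * A.c (f 1) := by
    intro a x h1 h2 q hq
    rcases c_two (nB h1 B1) h2 (A.symm h1) (Q_nb hq h1) (Q_fix hq) with h | h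
    · left; rw [← h]; simp only [inv_mul_cancel_right]; rw [h]
    · right
      rw [mul_assoc, (cc (Q_fix hq)).eq, ← mul_assoc, ← h]; group
  have h2 : v * w * (v * w) ∈ A.Q (f 1) := by
    refine A.cen _ _ (fix_mul (fix_mul v1 w1) (fix_mul v1 w1)) fun q hq => ?_
    have cv := (cc v1).eq
    have cw := (cc w1).eq
    have cq := (cc (Q_fix hq)).eq
    have h3 : q * (v * w) = v * w * q ∨ q * (v * w) = v * w * q * A.c (f 1) := by
      rcases key a10 a0m q hq with h | h <;> rcases key a12 a2x q hq with h' | h' <;>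
        rw [← hv] at h <;> rw [← hw] at h'
      · left; rw [← mul_assoc, h, mul_assoc, h', mul_assoc]
      · right; rw [← mul_assoc, h, mul_assoc, h']; group
      · right; rw [← mul_assoc, h, mul_assoc, ← cw, mul_assoc, ← mul_assoc q, h']; group
      · left
        rw [← mul_assoc, h, mul_assoc, ← cw, mul_assoc, ← mul_assoc q, h', mul_assoc, c2]; group
    have cvw := (cc (fix_mul v1 w1)).eq
    rcases h3 with h | h
    · rw [← mul_assoc, h, mul_assoc, h]; group
    · calc q * (v * w * (v * w)) = v * w * q * (A.c (f 1) * (v * w)) := by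
            rw [← mul_assoc, h, mul_assoc]
        _ = v * w * (q * (v * w)) * A.c (f 1) := by rw [← cvw]; simp only [mul_assoc]
        _ = v * w * (v * w) * q * (A.c (f 1) * A.c (f 1)) := by rw [h]; simp only [mul_assoc]
        _ = _ := by rw [c2, mul_one]
  have s1 : w • f 0 = e := swap a12 a10 he n20.symm e2 e0 w1 (Q_fix wQ) wn
  have s2 : v • e = f 2 := swap a10 he a12 e0 n20 e2.symm v1 (Q_fix vQ) cr
  have s3 : v • f 2 = e := swap a10 a12 he n20 e0 e2 v1 (Q_fix vQ) cr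
  have := Q_nb h2 a10
  simp only [mul_smul] at this
  rw [s1, s2, Q_fix wQ, s3] at this
  exact e0 this

theorem case_two (M : A.Mn 2) {f : ℤ → V} (hf : A.Line f) (fB : A.isB (f (-1)))
    (cr : A.c (f (-1)) ∉ A.Q (f 2)) : False := by
  have B1 := hf.B fB 1 (by omega)
  have a10 := hf.ad' 1 0 (by omega)
  have a12 := hf.ad 1 2 (by omega)
  have a0m := hf.ad' 0 (-1) (by omega)
  have n20 : f 2 ≠ f 0 := hf.nb _ _ (by omega)
  have n1m : f (-1) ≠ f 1 := hf.nb' _ _ (by omega)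
  -- every pair of distinct neighbours is critical
  have crit : ∀ {a a' x}, A.adj (f 1) a → A.adj (f 1) a' → a' ≠ a → A.adj a x → x ≠ f 1 →
      A.c x ∉ A.Q a' := by
    intro a a' x ha ha' aa hx x1 h
    obtain ⟨g, g1, g0, g2⟩ := two_trans a10 a12 ha ha' n20 aa
    have h1 : A.c (g • f (-1)) ∉ A.Q a' := fun h => cr (Q_conj' g (by rwa [g2, ← A.c_smul g fB]))
    have h2 : A.adj a (g • f (-1)) := g0 ▸ A.adj_smul g a0m
    by_cases e : x = g • f (-1)
    · exact h1 (e ▸ h)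
    refine h1 ?_
    rw [← c_prod (nB ha B1) hx (A.symm ha) h2 x1 e (by rw [← g1]; exact smul_ne n1m.symm)]
    exact mul_mem h (cQ1 B1 ha')
  have comm : ∀ {a a' x x'}, A.adj (f 1) a → A.adj (f 1) a' → a' ≠ a → A.adj a x → x ≠ f 1 →
      A.adj a' x' → x' ≠ f 1 → A.c x * A.c x' = A.c x' * A.c x * A.c (f 1) := by
    intro a a' x x' ha ha' aa hx x1 hx' x1'
    have xB := B_of hx (nB ha B1)
    have hq := M.q2 le_rfl xB (A.symm hx) (A.symm ha)
    have := c_mov (nB ha' B1) hx' (A.symm ha') x1' (Q_nb hq ha') (Q_fix hq) (crit ha ha' aa hx x1)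
    rw [mul_assoc, c_comm B1 (Q_fix hq), ← mul_assoc, ← this]; group
  obtain ⟨y, y3, y1, ym, yel⟩ := A.rot _ B1
  have a1 := adj_fix y1 a10
  have a2 := adj_fix y1 a1
  have b1 : A.adj (y • f 0) (y • f (-1)) := A.adj_smul y a0m
  have b2 : A.adj (y • y • f 0) (y • y • f (-1)) := A.adj_smul y b1
  have m1 : y • f (-1) ≠ f 1 := by rw [← y1]; exact smul_ne n1m
  have m2 : y • y • f (-1) ≠ f 1 := by rw [← y1]; exact smul_ne m1
  have y3' : y * y * y = 1 := by rw [← y3]; simp only [pow_succ, pow_zero, one_mul]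
  have yy : ∀ x : V, y • y • y • x = x := fun x => by rw [← mul_smul, ← mul_smul, y3', one_smul]
  have d1 := ym _ a10
  have d2 := ym _ a1
  have d3 : y • y • f 0 ≠ f 0 := fun h => d1 (by have := yy (f 0); rwa [h] at this)
  have B2 := A.isB_smul y fB
  have B3 := A.isB_smul y B2
  have r01 := comm a10 a1 d1 a0m n1m b1 m1
  have r02 := comm a10 a2 d3 a0m n1m b2 m2
  have r12 := comm a1 a2 d2 b1 m1 b2 m2
  have e0 := A.c_smul y fB
  have e1 := A.c_smul y B2
  have e2 := A.c_smul y B3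
  rw [yy] at e2
  have q0 := M.q2 le_rfl fB (A.symm a0m) (A.symm a10)
  have q1 := M.q2 le_rfl B2 (A.symm b1) (A.symm a1)
  have q2 := M.q2 le_rfl B3 (A.symm b2) (A.symm a2)
  have s0 := A.c_sq fB
  have s1 := A.c_sq B2
  have s2 := A.c_sq B3
  have sc := A.c_sq B1
  have cn := A.c_ne B1
  have k0 := c_comm B1 (Q_fix q0)
  have k1 := c_comm B1 (Q_fix q1)
  have k2 := c_comm B1 (Q_fix q2)
  generalize A.c (f (-1)) = v0 at *
  generalize A.c (y • f (-1)) = v1 at *
  generalize A.c (y • y • f (-1)) = v2 at *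
  generalize A.c (f 1) = c at *
  have rot : v0 * v1 * v2 = v1 * v2 * v0 := by
    rw [r01, mul_assoc, ← k2, mul_assoc, ← mul_assoc v0, r02, mul_assoc, sc]; group
  have h := yel (v0 * v1 * v2) (mul_mem (mul_mem q0 q1) q2) (by
    have : y * (v0 * v1 * v2) = y * v0 * y⁻¹ * (y * v1 * y⁻¹) * (y * v2 * y⁻¹) * y := by group
    rw [this, ← e0, ← e1, ← e2, rot])
  apply cn
  have h2 : v0 * v1 * v2 * (v0 * v1 * v2) = c := by
    nth_rewrite 1 [rot]
    calc v1 * v2 * v0 * (v0 * v1 * v2) = v1 * v2 * (v0 * v0) * v1 * v2 := by group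
      _ = v1 * v2 * (v1 * v2) := by rw [s0]; group
      _ = v1 * v2 * (v2 * v1 * c) := by rw [← r12]
      _ = v1 * (v2 * v2) * v1 * c := by group
      _ = c := by rw [s2, mul_one, s1, one_mul]
  rw [← h2, h]

section even

variable {b : ℤ}

theorem ev1 (M : A.Mn b) (hb : 2 ≤ b) (eb : b % 2 = 0) {f : ℤ → V} (hf : A.Line f) {s : ℤ}
    (fB : A.isB (f (s - 1))) (cr : A.c (f (s - 1)) ∉ A.Q (f (s + b))) :
    A.c (f (s + 1)) = A.c (f (s + b - 1)) ∧ A.c (f (s + b + 1)) • f (s - 1) ≠ f (s - 1) := by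
  have B1 := hf.B fB (s + b + 1) (by omega)
  have B2 := hf.B fB (s + b - 1) (by omega)
  have B3 := hf.B fB (s + 1) (by omega)
  have vQ := M f hf (s - 1) (s + b - 1) fB (by omega) (by omega)
  have wQ := M f hf (s + b + 1) (s + 1) B1 (by omega) (by omega)
  have h1 := c_mov (hf.nB' fB (s + b) (by omega)) (hf.ad _ (s + b + 1) rfl)
    (hf.ad' _ (s + b - 1) (by omega)) (hf.nb _ _ (by omega))
    (Q_nb vQ (hf.ad _ _ (by omega))) (Q_fix vQ) cr
  have h2 : A.c (f (s + b + 1)) • f (s - 1) ≠ f (s - 1) := by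
    intro h
    have := c_comm fB h
    rw [← this, mul_inv_cancel_right] at h1
    exact A.c_ne B2 (by simpa using h1)
  have h3 := c_mov (hf.nB' fB s (by omega)) (hf.ad' _ (s - 1) (by omega))
    (hf.ad _ (s + 1) rfl) (hf.nb' _ _ (by omega))
    (Q_nb wQ (hf.ad' _ _ (by omega))) (Q_fix wQ) (fun h => h2 (Q_nb h (hf.ad' _ _ (by omega))))
  refine ⟨?_, h2⟩
  rw [c_inv fB] at h1
  rw [c_inv B1] at h3
  have s0 := A.c_sq fB
  have s1 := A.c_sq B1
  have s2 := A.c_sq B2
  generalize A.c (f (s - 1)) = v at *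
  generalize A.c (f (s + b + 1)) = w at *
  generalize A.c (f (s + b - 1)) = x at *
  generalize A.c (f (s + 1)) = y at *
  have e1 : x = w * v * w * v := by
    rw [mul_assoc, mul_assoc, ← mul_assoc v, h1, ← mul_assoc, s1, one_mul]
  have e2 : y = v * w * v * w := by
    rw [mul_assoc, mul_assoc, ← mul_assoc w, h3, ← mul_assoc, s0, one_mul]
  have e3 : y * x = 1 := by
    rw [e1, e2]
    calc v * w * v * w * (w * v * w * v) = v * w * v * (w * w) * v * w * v := by group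
      _ = v * w * (v * v) * w * v := by rw [s1]; group
      _ = v * (w * w) * v := by rw [s0]; group
      _ = 1 := by rw [s1, mul_one, s0]
  calc y = y * (x * x) := by rw [s2, mul_one]
    _ = x := by rw [← mul_assoc, e3, one_mul]

theorem case_even (M : A.Mn b) (hb : 4 ≤ b) (eb : b % 2 = 0) {f : ℤ → V} (hf : A.Line f)
    (fB : A.isB (f (-1))) (cr : A.c (f (-1)) ∉ A.Q (f b)) : False := by
  obtain ⟨h1, h2⟩ := ev1 M (by omega) eb hf (s := 0) (by simpa using fB) (by simpa using cr)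
  simp only [zero_add, zero_sub] at h1 h2
  have Bw := hf.B fB (b + 1) (by omega)
  have nc : ∀ k, A.Line k → (∀ j, -1 ≤ j → k j = f j) → A.c (k (-3)) ∈ A.Q (f (b - 2)) := by
    intro k hk e
    by_contra h
    have kB : A.isB (k (-1)) := by rw [e _ le_rfl]; exact fB
    obtain ⟨h3, -⟩ := ev1 M (by omega) eb hk (s := -2) (hk.B kB _ (by omega))
      (by rw [e (-2 + b) (by omega), show -2 + b = b - 2 by omega]; exact h)
    rw [show -2 + b - 1 = b - 3 by omega, e (b - 3) (by omega), e (-2 + 1) (by omega),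
      show (-2 + 1 : ℤ) = -1 by omega] at h3
    have h4 := c_conj (hf.B fB (b - 3) (by omega))
      (M.fix hf (b + 1) (b - 3) Bw (by omega) (by omega))
    rw [← h3, ← A.c_smul _ fB] at h4
    have w0 := M.fix hf (b + 1) 0 Bw
    have wQ := M f hf (b + 1) 1 Bw (by omega) (by omega)
    have a0 := hf.ad' 0 (-1) (by omega)
    exact h2 (c_inj (nB (A.symm a0) fB) (adj_fix (Q_nb wQ (hf.ad' _ _ (by omega))) a0) a0 h4)
  have a0 := hf.ad (-1) 0 (by omega)
  have wQ := M f hf (b + 1) 1 Bw (by omega) (by omega)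
  have w0 : A.c (f (b + 1)) • f 0 = f 0 := Q_nb wQ (hf.ad' _ _ (by omega))
  by_cases hA : ∀ k, A.Line k → (∀ j, -1 ≤ j → k j = f j) → A.c (k (-3)) ∈ A.Q (f (b - 1))
  · refine kill a0 (fun x => ∃ a, A.adj (f (-1)) a ∧ A.adj a x) ?_ ?_ w0 h2 ?_
      ⟨_, a0, A.symm a0⟩ fB
    · rintro x ⟨a, h1, h2⟩ xB
      exact M.q2 (by omega) xB (A.symm h2) (A.symm h1)
    · rintro t ht x ⟨a, h1, h2⟩
      exact ⟨t • a, adj_fix ht h1, A.adj_smul t h2⟩
    · have c0 : ∀ x, A.adj (f 0) x → A.isB x → A.c (f (b + 1)) * A.c x * (A.c (f (b + 1)))⁻¹ ∈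
          A.Cl (fun x => ∃ a, A.adj (f (-1)) a ∧ A.adj a x) := fun x hx xB => by
        rw [← A.c_smul _ xB]
        exact mem_Cl ⟨_, a0, adj_fix w0 hx⟩ (A.isB_smul _ xB)
      rintro x ⟨a, h3, h4⟩ xB
      by_cases e1 : a = f 0
      · exact c0 x (e1 ▸ h4) xB
      by_cases e2 : x = f (-1)
      · exact c0 x (e2 ▸ A.symm a0) xB
      obtain ⟨k, hk, k1, k2⟩ := hf.bwd (-1) h3 e1
      obtain ⟨k', hk', k1', k2'⟩ := hk.bwd (-1 - 1) (k2 ▸ h4) (by rw [k1 _ (by omega)]; exact e2)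
      have uQ := hA k' hk' fun j hj => by rw [k1' _ (by omega), k1 _ hj]
      rw [show k' (-3) = x from k2'] at uQ
      have mx : A.c x ∈ A.Cl (fun x => ∃ a, A.adj (f (-1)) a ∧ A.adj a x) := mem_Cl ⟨a, h3, h4⟩ xB
      have m1 : A.c (f 1) ∈ A.Cl (fun x => ∃ a, A.adj (f (-1)) a ∧ A.adj a x) :=
        mem_Cl ⟨_, a0, hf.ad _ _ rfl⟩ (hf.B fB _ (by omega))
      have k1 := c_comm (hf.B fB 1 (by omega)) (Q_fix wQ)
      rcases c_two (hf.nB' fB b (by omega)) (hf.ad _ (b + 1) rfl) (hf.ad' _ (b - 1) (by omega))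
        (Q_nb uQ (hf.ad _ _ (by omega))) (Q_fix uQ) with h | h
      · have : A.c (f (b + 1)) * A.c x * (A.c (f (b + 1)))⁻¹ = A.c x := by
          nth_rewrite 1 [← h]; group
        rw [this]; exact mx
      · rw [← h1] at h
        have : A.c (f (b + 1)) * A.c x * (A.c (f (b + 1)))⁻¹ = (A.c (f 1))⁻¹ * A.c x := by
          rw [k1] at h
          calc _ = (A.c (f 1))⁻¹ * (A.c (f 1) * A.c (f (b + 1))) * A.c x * (A.c (f (b + 1)))⁻¹ := by
                group
            _ = _ := by rw [← h]; group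
        rw [this]; exact mul_mem (inv_mem m1) mx
  · push Not at hA
    obtain ⟨k, hk, e, hu⟩ := hA
    have kB : A.isB (k (-1)) := by rw [e _ le_rfl]; exact fB
    have kB3 := hk.B kB (-3) (by omega)
    have uQ := nc k hk e
    have E1 : A.E b True := ⟨f, b - 1, hf, by simpa using hf.B fB _ (by omega), _, fun j a1 a2 => by
      by_cases hj : j ≤ b - 3
      · rw [← e j (by omega)]; exact M.fix hk _ _ kB3 (by omega) (by omega)
      by_cases hj' : j = b - 2
      · rw [hj']; exact Q_fix uQ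
      · exact Q_nb uQ (hf.ad _ _ (by omega)), hu⟩
    have E2 : A.E b False := ⟨f, b, hf, by simpa using hf.nB' fB _ (by omega), _, fun j a1 a2 => by
      by_cases hj : j ≤ b - 1
      · exact M.fix hf _ _ fB (by omega) (by omega)
      · exact Q_nb (M f hf (-1) (b - 1) fB (by omega) (by omega)) (hf.ad _ _ (by omega)), cr⟩
    obtain ⟨g, hg⟩ := tr_of (by omega) E1 E2 f k hf hk (-1) (-3) (iff_of_true fB kB3)
    refine cr (Q_conj' g ?_)
    rw [← A.c_smul g fB, hg (-1) (-3) (by omega) (by omega) (by omega),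
      hg b (b - 2) (by omega) (by omega) (by omega), e _ (by omega)]
    exact uQ

end even

theorem case_odd_tr {b : ℤ} (M : A.Mn b) (hb : 3 ≤ b) (ob : b % 2 = 1) {f : ℤ → V}
    (hf : A.Line f) (fB : A.isB (f (-1))) (cr : A.c (f (-1)) ∉ A.Q (f b))
    (E2 : A.E (b - 2) False) : False := by
  have E1 : A.E (b - 2) True := ⟨f, b, hf, by simpa using hf.B fB _ (by omega), _,
    fun j a1 a2 => by
      by_cases hj : j ≤ b - 1
      · exact M.fix hf _ _ fB (by omega) (by omega)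
      · exact Q_nb (M f hf (-1) (b - 1) fB (by omega) (by omega)) (hf.ad _ _ (by omega)), cr⟩
  have T := tr_of (by omega) E1 E2
  obtain ⟨m, hm⟩ : ∃ m, b + 1 = 2 * m := ⟨(b + 1) / 2, by omega⟩
  obtain ⟨s, s1, s2, ss⟩ := b6 (hf.ad' (m + 1) m rfl)
  have sm : s • f m = f m := Q_nb s1 (hf.ad' _ _ rfl)
  obtain ⟨h, hh, h1, h2⟩ := hf.glue ((hf.rev (2 * m)).smul s) m
    (by show f m = s • f (2 * m - m); rw [show 2 * m - m = m by omega, sm])
    (by
      show s • f (2 * m - (m + 1)) ≠ f (m - 1)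
      rw [show 2 * m - (m + 1) = m - 1 by omega]
      exact moves (hf.ad m (m + 1) rfl) (hf.ad' _ _ (by omega)) (hf.nb' _ _ (by omega)) sm
        (Q_fix s1) s2)
  obtain ⟨g, hg⟩ := T f h hf hh 1 1 (by rw [h1 _ (by omega)])
  obtain ⟨k, hk, kB, kc, ke⟩ : ∃ k, A.Line k ∧ A.isB (k (-1)) ∧ A.c (k (-1)) ∉ A.Q (k b) ∧
      ∀ j, 1 ≤ j → j ≤ b → k j = h j :=
    ⟨_, hf.smul g, A.isB_smul g fB, fun h => cr (Q_conj' g (by rwa [← A.c_smul g fB])),
      fun j a1 a2 => hg j j rfl a1 (by omega)⟩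
  have e1 : k b = s • k 1 := by
    rw [ke _ (by omega) le_rfl, ke _ le_rfl (by omega), h2 _ (by omega), h1 _ (by omega)]
    exact congrArg _ (idx (by omega))
  have e2 : k (b - 1) = s • k 2 := by
    rw [ke _ (by omega) (by omega), ke _ (by omega) (by omega), h2 _ (by omega), h1 _ (by omega)]
    exact congrArg _ (idx (by omega))
  have e3 : s • k m = k m := by rw [ke _ (by omega) (by omega), h1 _ le_rfl, sm]
  have vQ := M k hk (-1) (b - 1) kB (by omega) (by omega)
  have vb : A.c (k (-1)) • k b = k b := Q_nb vQ (hk.ad _ _ (by omega))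
  have a1 : A.adj (k b) (s • k 0) := e1 ▸ A.adj_smul s (hk.ad' _ _ (by omega))
  have a2 : A.adj (s • k 0) (s • k (-1)) := A.adj_smul s (hk.ad' _ _ (by omega))
  have mv := moves (hk.ad' b (b - 1) (by omega)) a1 (by
    rw [e2]; exact smul_ne (hk.nb' _ _ (by omega))) vb (Q_fix vQ) kc
  have ne := b3 (hk.B kB b (by omega)) a1 (adj_fix vb a1) mv.symm a2 (A.adj_smul _ a2) (by
    rw [e1]; exact smul_ne (hk.nb' _ _ (by omega)))
  rw [A.c_smul _ (A.isB_smul s kB), A.c_smul s kB] at ne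
  have vm := M k hk (-1) m kB (by omega) (by omega)
  have vm' := Q_conj s vm
  rw [e3] at vm'
  have x4 := A.exp4 (hk.ad m (m + 1) rfl) (Q_fix (mul_mem vm vm'))
    (Q_nb (mul_mem vm vm') (hk.ad _ _ rfl))
  have vv := A.c_sq kB
  generalize A.c (k (-1)) = v at *
  have si : s⁻¹ = s := inv_eq_of_mul_eq_one_right ss
  have vi : v⁻¹ = v := inv_eq_of_mul_eq_one_right vv
  rw [si] at x4 ne
  have h8 : (v * s) ^ 8 = 1 := by
    rw [← x4]; simp only [pow_succ, pow_zero, one_mul, mul_assoc]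
  have h4 := A.no8 _ h8
  apply ne
  rw [vi]
  simp only [pow_succ, pow_zero, one_mul] at h4
  calc s * v * s = v * s * (v * s) * (v * s) * (v * s) * (s * v * s) := by rw [h4, one_mul]
    _ = v * (s * v * s) * v * (s * (v * (s * s) * v) * s) := by simp only [mul_assoc]
    _ = _ := by rw [ss, mul_one, vv, mul_one, ss, mul_one]

end Am

end Cfsg.Agent.P31
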