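import Cfsg.Agent.P31.GA3

/-! The local lemma on the commutator of a critical pair, `b` odd. -/

namespace Cfsg.Agent.P31

namespace Am

variable {G V : Type*} [Group G] [MulAction G V] {A : Am G V}

theorem c_alt {d l y y' : V} (hd : ¬ A.isB d) (hl : A.adj d l) (hy : A.adj d y) (hy' : A.adj d y')
    (h1 : y ≠ l) (h2 : y' ≠ l) : A.c y = A.c y' ∨ A.c y = A.c y' * A.c l := by
  by_cases h : y = y'
  · exact Or.inl (by rw [h])
  · exact Or.inr (c_prod hd hy' hl hy h2 (Ne.symm h) h1.symm).symm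

theorem trans3 {l p a1 a2 a3 b1 b2 b3 : V} (lB : A.isB l) (pB : A.isB p) (h1 : A.adj l a1)
    (h2 : A.adj l a2) (h3 : A.adj l a3) (n12 : a2 ≠ a1) (n13 : a3 ≠ a1) (n23 : a3 ≠ a2)
    (k1 : A.adj p b1) (k2 : A.adj p b2) (k3 : A.adj p b3) (m12 : b2 ≠ b1) (m13 : b3 ≠ b1)
    (m23 : b3 ≠ b2) : ∃ g : G, g • a1 = b1 ∧ g • a2 = b2 ∧ g • a3 = b3 := by
  obtain ⟨g, hg⟩ := A.vt l p (iff_of_true lB pB)
  have a := fun x (h : A.adj l x) => (hg ▸ A.adj_smul g h : A.adj p (g • x))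
  obtain ⟨h, hp, e1, e2⟩ := two_trans (a _ h1) (a _ h2) k1 k2 (smul_ne n12) m12
  refine ⟨h * g, by rw [mul_smul, e1], by rw [mul_smul, e2], ?_⟩
  rw [mul_smul]
  rcases nbr3 k1 k2 k3 m12.symm m13.symm m23.symm (adj_fix hp (a _ h3)) with e | e | e
  · exact absurd (e.trans e1.symm) (smul_ne (smul_ne n13))
  · exact absurd (e.trans e2.symm) (smul_ne (smul_ne n23))
  · exact e

theorem rho {b : ℤ} (M : A.Mn b) (hb : 3 ≤ b) {l o a a' x x' p : V} {z w : G} (lB : A.isB l)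
    (lo : A.adj l o) (la : A.adj l a) (la' : A.adj l a') (ao : a ≠ o) (ao' : a' ≠ o)
    (aa : a' ≠ a) (ax : A.adj a x) (ax' : A.adj a' x') (xl : x ≠ l) (xl' : x' ≠ l)
    (op : A.adj o p) (pl : p ≠ l) (zp : z • p = p) (zo : z • o ≠ o)
    (zc : z * (A.c x * A.c x') = A.c x * A.c x' * z) (wo : w ∈ A.Q o) (wl : w ∉ A.Q l)
    (wc : w * (A.c x * A.c x') = A.c x * A.c x' * w) (r1 : A.c x * A.c x' ≠ 1) :
    A.c x * A.c x' = A.c p := by
  classical
  have no := nB lo lB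
  have na := nB la lB
  have na' := nB la' lB
  have xB := B_of ax na
  have xB' := B_of ax' na'
  have pB := B_of op no
  have ol := A.symm lo
  have po := A.symm op
  have cl2 := A.c_sq lB
  have xq := M.q2 (by omega) xB (A.symm ax) (A.symm la)
  have xq' := M.q2 (by omega) xB' (A.symm ax') (A.symm la')
  have k1 : Commute (A.c x) (A.c l) := c_comm lB (Q_fix xq)
  have k2 : Commute (A.c x') (A.c l) := c_comm lB (Q_fix xq')
  have k3 : Commute (A.c x) (A.c x') := M.vcomm hb lB la la' ax ax'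
  set ρ := A.c x * A.c x' with hρ
  have ll : A.c x * A.c l * (A.c x' * A.c l) = ρ := by
    rw [mul_assoc, ← mul_assoc (A.c l), ← k2.eq, mul_assoc (A.c x'), cl2, mul_one]
  have rr : ∀ {y y'}, A.adj a y → y ≠ l → A.adj a' y' → y' ≠ l →
      A.c y * A.c y' = ρ ∨ A.c y * A.c y' = ρ * A.c l := by
    intro y y' h1 h2 h3 h4
    rcases c_alt na (A.symm la) h1 ax h2 xl with e | e <;>
      rcases c_alt na' (A.symm la') h3 ax' h4 xl' with e' | e' <;> rw [e, e']
    · exact Or.inl rfl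
    · exact Or.inr (by rw [hρ, mul_assoc])
    · exact Or.inr (by rw [hρ, mul_assoc, ← k2.eq, mul_assoc])
    · exact Or.inl ll
  have cj : ∀ q : G, q * ρ * q⁻¹ = A.c (q • x) * A.c (q • x') := fun q => by
    rw [A.c_smul q xB, A.c_smul q xB', hρ]; group
  have sgn : ∀ q : G, q • l = l → q • o = o → q * ρ * q⁻¹ = ρ ∨ q * ρ * q⁻¹ = ρ * A.c l := by
    intro q ql qo
    have n1 : q • x ≠ l := by rw [← ql]; exact smul_ne xl
    have n2 : q • x' ≠ l := by rw [← ql]; exact smul_ne xl'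
    rw [cj]
    by_cases h : q ∈ A.Q l
    · exact rr (adj_fix (Q_nb h la) ax) n1 (adj_fix (Q_nb h la') ax') n2
    · have e1 := swap lo la la' ao ao' aa ql qo h
      have e2 := swap lo la' la ao' ao aa.symm ql qo h
      have b1 : A.adj a' (q • x) := e1 ▸ A.adj_smul q ax
      have b2 : A.adj a (q • x') := e2 ▸ A.adj_smul q ax'
      rw [M.vcomm hb lB la' la b1 b2]
      exact rr b2 n2 b1 n1
  set C := Subgroup.centralizer ({ρ} : Set G) with hC
  have mC : ∀ {q : G}, q ∈ C ↔ q * ρ = ρ * q := Subgroup.mem_centralizer_singleton_iff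
  have mC' : ∀ {q : G}, q * ρ * q⁻¹ = ρ → q ∈ C := fun {q} h => mC.2 (by
    calc q * ρ = q * ρ * q⁻¹ * q := by group
      _ = _ := by rw [h])
  have zC : z ∈ C := mC.2 zc
  have wC : w ∈ C := mC.2 wc
  have inv : ∀ t q : G, t • l = l → t • o = o → q • l = l → t⁻¹ * q * t ∈ C → q ∈ C := by
    intro t q tl tO ql h
    have h1 : q * (t * ρ * t⁻¹) = t * ρ * t⁻¹ * q := by
      calc q * (t * ρ * t⁻¹) = t * (t⁻¹ * q * t * ρ) * t⁻¹ := by group
        _ = _ := by rw [mC.1 h]; group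
    rcases sgn t tl tO with e | e <;> rw [e] at h1
    · exact mC.2 h1
    · rw [mul_assoc ρ, ← c_comm lB ql, ← mul_assoc q ρ, ← mul_assoc ρ q] at h1
      exact mC.2 (mul_right_cancel h1)
  have Qi : ∀ {t q : G} {d d' : V}, t • d = d' → q ∈ A.Q d' → t⁻¹ * q * t ∈ A.Q d := by
    intro t q d d' e h
    have := Q_conj t⁻¹ h
    rwa [inv_inv, ← e, inv_smul_smul] at this
  have po' : A.adj p (z • o) := adj_fix zp po
  have stC : ∀ q ∈ A.Q o, q ∈ A.Q (z • o) → q ∈ C := by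
    intro q h1 h2
    rcases sgn q (Q_nb h1 ol) (Q_fix h1) with e | e
    · exact mC' e
    have h3 := Qi rfl h2
    have h4 : q * ρ * q⁻¹ = z * (z⁻¹ * q * z * ρ * (z⁻¹ * q * z)⁻¹) * z⁻¹ := by
      calc q * ρ * q⁻¹ = q * (ρ * z) * z⁻¹ * q⁻¹ := by group
        _ = _ := by rw [← zc]; group
    have h5 : z * ρ * z⁻¹ = ρ := by rw [zc]; group
    rcases sgn _ (Q_nb h3 ol) (Q_fix h3) with e' | e' <;> rw [e'] at h4
    · exact mC' (h4.trans h5)
    · exfalso
      refine b3 pB po po' zo.symm ol (A.adj_smul z ol) pl.symm ?_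
      rw [A.c_smul z lB]
      apply mul_left_cancel (a := ρ)
      rw [← e, h4]
      nth_rewrite 2 [← h5]
      group
  obtain ⟨o2, po2, o2o, o2z⟩ := other (A := A) p o (z • o)
  obtain ⟨e, oe, el, ep⟩ := other (A := A) o l p
  obtain ⟨t', t1', t2'⟩ := exists_sw ol
  have tO' := Q_nb t1' lo
  have tp' : t' • p = e := swap ol op oe pl el ep tO' (Q_fix t1') t2'
  obtain ⟨t, t1, t2⟩ := exists_sw po
  have QC : ∀ q ∈ A.Q o, q ∈ C := by
    by_cases hc : ∀ q ∈ A.Q o, q ∈ A.Q (z • o) → q ∈ A.Q o2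
    · have Z3 : ∀ {u u'}, A.adj l u → A.adj l u' → u ≠ o → u' ≠ o → u' ≠ u → ∀ q ∈ A.Q o,
          q ∈ A.Q u → q ∈ A.Q u' := by
        intro u u' h1 h2 h3 h4 h5 q q1 q2
        obtain ⟨g, g1, g2, g3⟩ := trans3 lB pB lo h1 h2 h3 h4 h5 po po' po2 zo o2o o2z
        refine Q_conj' g (g3 ▸ hc _ ?_ ?_)
        · exact g1 ▸ Q_conj g q1
        · exact g2 ▸ Q_conj g q2
      have h1 : ∀ q ∈ A.Q o, q ∈ A.Q l → q ∈ C := by
        intro q q1 q2
        apply mC'
        by_cases h : q ∈ A.Q a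
        · rw [cj, Q_nb h ax, Q_nb (Z3 la la' ao ao' aa q q1 h) ax']
        · have h' : q ∉ A.Q a' := fun h' => h (Z3 la' la ao' ao aa.symm q q1 h')
          rw [cj, A.c_smul q xB, A.c_smul q xB',
            c_mov na ax (A.symm la) xl (Q_nb q2 la) (Q_fix q2) h,
            c_mov na' ax' (A.symm la') xl' (Q_nb q2 la') (Q_fix q2) h', ll]
      intro q hq
      by_cases h : q ∈ A.Q l
      · exact h1 q hq h
      · exact (Subgroup.mul_mem_cancel_right C wC).1 (h1 _ (mul_mem hq wo)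
          (mulQ lo (Q_nb hq ol) (Q_fix hq) (Q_nb wo ol) (Q_fix wo) h wl))
    · push Not at hc
      obtain ⟨u, u1, u2, u3⟩ := hc
      have uC := stC u u1 u2
      have tz : t • z • o = o2 := swap po po' po2 zo o2o o2z (Q_nb t1 op) (Q_fix t1) t2
      have h1 : ∀ q ∈ A.Q o, q ∈ A.Q o2 → q ∈ C := fun q q1 q2 =>
        inv t q (Q_nb t1 ol) (Q_fix t1) (Q_nb q1 ol) (stC _ (Qi (Q_fix t1) q1) (Qi tz q2))
      have up : u ∈ A.Q p := memQ po po' zo.symm (Q_nb u1 op) (Q_fix u1) (Q_fix u2)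
      have h2 : ∀ q ∈ A.Q o, q ∈ A.Q p → q ∈ C := by
        intro q q1 q2
        by_cases h : q ∈ A.Q o2
        · exact h1 q q1 h
        · exact (Subgroup.mul_mem_cancel_right C uC).1 (h1 _ (mul_mem q1 u1)
            (mulQ (A.symm po2) (Q_nb q2 po2) (Q_fix q2) (Q_nb up po2) (Q_fix up) h u3))
      obtain ⟨s, s1, s2, s3⟩ := A.b5 oe op ep
      have sC : s ∈ C := inv t' s (Q_fix t1') tO' (Q_nb s1 ol) (h2 _ (Qi tO' s1) (Qi tp' s2))
      intro q hq
      by_cases h : q ∈ A.Q p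
      · exact h2 q hq h
      · exact (Subgroup.mul_mem_cancel_right C sC).1 (h2 _ (mul_mem hq s1)
          (mulQ po (Q_nb hq op) (Q_fix hq) (Q_nb s1 op) (Q_fix s1) h s3))
  have QC' : ∀ q ∈ A.Q (z • o), q ∈ C := fun q hq => by
    have := QC _ (Qi rfl hq)
    rwa [Subgroup.mul_mem_cancel_right C zC, Subgroup.mul_mem_cancel_left C (inv_mem zC)] at this
  have TC : ∀ g : G, g • o = o → g • p = p → g ∈ C := by
    have h1 : ∀ g ∈ A.Q p, g ∈ C := by
      intro g hg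
      by_cases h : g ∈ A.Q o
      · exact QC g h
      obtain ⟨s, s1, s2, s3⟩ := A.b5 po' po zo
      exact (Subgroup.mul_mem_cancel_right C (QC' s s2)).1 (QC _
        (mulQ op (Q_nb hg po) (Q_fix hg) (Q_nb s1 po) (Q_fix s1) h s3))
    intro g go gp
    by_cases h : g ∈ A.Q p
    · exact h1 g h
    · exact (Subgroup.mul_mem_cancel_right C (QC t t1)).1 (h1 _
        (mulQ po gp go (Q_nb t1 op) (Q_fix t1) h t2))
  obtain ⟨r, hr⟩ : ∃ r : V → G, ∀ g : G, g • o = o → r (g • p) = g * ρ * g⁻¹ := by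
    refine ⟨fun u => if h : ∃ g : G, g • o = o ∧ g • p = u then h.choose * ρ * h.choose⁻¹ else 1,
      fun g go => ?_⟩
    have h : ∃ g' : G, g' • o = o ∧ g' • p = g • p := ⟨g, go, rfl⟩
    simp only [dif_pos h]
    obtain ⟨h1, h2⟩ := h.choose_spec
    generalize h.choose = g' at *
    have := mC.1 (TC (g⁻¹ * g') (fix_mul (fix_inv go) h1) (by rw [mul_smul, h2, inv_smul_smul]))
    calc g' * ρ * g'⁻¹ = g * (g⁻¹ * g' * ρ) * g'⁻¹ := by group
      _ = _ := by rw [this]; group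
  have ρ2 : ρ * ρ = 1 := by
    rw [hρ, mul_assoc, ← mul_assoc (A.c x'), ← k3.eq, mul_assoc, A.c_sq xB', mul_one, A.c_sq xB]
  have ρQ : ρ ∈ A.Q o := mul_mem (M.q3 hb xB (A.symm ax) (A.symm la) lo)
    (M.q3 hb xB' (A.symm ax') (A.symm la') lo)
  have rQ : ∀ u, A.adj o u → r u ∈ A.Q o := by
    intro u hu
    obtain ⟨g, go, gp⟩ := A.mv o p u op hu
    rw [← gp, hr g go]
    have := Q_conj g ρQ
    rwa [go] at this
  have tr := trace no r (fun g u go hu => by
      obtain ⟨h, ho, hp⟩ := A.mv o p u op hu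
      rw [← hp, ← mul_smul, hr _ (fix_mul go ho), hr h ho]; group)
    (fun u hu => by
      obtain ⟨h, ho, hp⟩ := A.mv o p u op hu
      rw [← hp, hr h ho]
      calc h * ρ * h⁻¹ * (h * ρ * h⁻¹) = h * (ρ * ρ) * h⁻¹ := by group
        _ = 1 := by rw [ρ2]; group)
    (fun u hu => Q_fix (rQ u hu))
    (fun u u' hu hu' => by
      obtain ⟨h, ho, hp⟩ := A.mv o p u' op hu'
      have := mC.1 (QC _ (Qi ho (rQ u hu)))
      rw [← hp, hr h ho]
      calc r u * (h * ρ * h⁻¹) = h * (h⁻¹ * r u * h * ρ) * h⁻¹ := by group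
        _ = _ := by rw [this]; group)
    op oe ol ep.symm pl el
  have rp : r p = ρ := by simpa using hr 1 (one_smul _ _)
  obtain ⟨h, ho, hp⟩ := A.mv o p l op ol
  rw [rp, ← tp', hr t' tO', ← hp, hr h ho] at tr
  rcases sgn t' (Q_fix t1') tO' with e | e <;> rw [e] at tr
  · rw [ρ2] at tr
    exact absurd (by simpa using tr.symm) r1
  · rw [← mul_assoc, ρ2, one_mul, ← hp, A.c_smul h pB] at tr
    simpa using tr.symm

end Am

end Cfsg.Agent.P31
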