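import Cfsg.Agent.P31.GA4

/-! The case `b` odd without large arc-transitivity; the final contradiction. -/

namespace Cfsg.Agent.P31

namespace Am

variable {G V : Type*} [Group G] [MulAction G V] {A : Am G V}

theorem e_three (A : Am G V) : A.E 3 False := by
  obtain ⟨a0⟩ := A.ne
  obtain ⟨a, ha⟩ : ∃ a, A.isB a := by
    obtain ⟨b, hb, -⟩ := other (A := A) a0 a0 a0
    by_cases h : A.isB a0
    · exact ⟨a0, h⟩
    · exact ⟨b, B_of hb h⟩
  obtain ⟨b, hb, -⟩ := other (A := A) a a a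
  obtain ⟨f, hf, f0, -⟩ := exists_line hb
  obtain ⟨q, q1, q2, q3⟩ := A.b5 (hf.ad' 0 (-1) (by omega)) (hf.ad 0 1 (by omega))
    (hf.nb' _ _ (by omega))
  refine ⟨f, 1, hf, by simpa using hf.nB' (f0 ▸ ha) 1 (by omega), q, fun j h1 h2 => ?_, q3⟩
  by_cases h : j = -2
  · exact Q_nb q2 (hf.ad' _ _ (by omega))
  by_cases h : j = -1
  · rw [h]; exact Q_fix q2
  by_cases h : j = 0
  · rw [h]; exact Q_fix q1
  · exact Q_nb q1 (hf.ad _ _ (by omega))

theorem crc {f : ℤ → V} {i j i' j' : ℤ} (h : A.c (f i) ∉ A.Q (f j)) (e1 : i' = i) (e2 : j' = j) :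
    A.c (f i') ∉ A.Q (f j') := by rw [e1, e2]; exact h

section

variable {b : ℤ} (M : A.Mn b) (hb : 7 ≤ b) (ob : b % 2 = 1) (P : ¬ A.E (b - 2) False)
include P

theorem pP {f : ℤ → V} (hf : A.Line f) (n : ℤ) (nB : ¬ A.isB (f n)) {g : G}
    (h : ∀ j, n - (b - 2) ≤ j → j ≤ n → g • f j = f j) : g ∈ A.Q (f n) := by
  by_contra hq
  exact P ⟨f, n, hf, by simpa using nB, g, h, hq⟩

include hb

theorem l1 {f : ℤ → V} (hf : A.Line f) (n : ℤ) (nb : A.isB (f n)) {g : G}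
    (h : ∀ j, n - b + 1 ≤ j → j ≤ n - 1 → g • f j = f j) (hq : g ∈ A.Q (f n)) {a : V}
    (ha : A.adj (f n) a) : g ∈ A.Q a := by
  by_cases e : a = f (n - 1)
  · rw [e]
    exact pP P hf _ (e ▸ nB ha nb) fun j h1 h2 => h j (by omega) h2
  obtain ⟨k, hk, k1, k2⟩ := hf.fwd n ha e
  rw [← k2]
  refine pP P hk _ (k2 ▸ nB ha nb) fun j h1 h2 => ?_
  by_cases h3 : j ≤ n - 1
  · rw [k1 _ (by omega)]; exact h j (by omega) h3
  by_cases h4 : j = n
  · rw [h4, k1 _ le_rfl]; exact Q_fix hq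
  · rw [show j = n + 1 by omega, k2]; exact Q_nb hq ha

include M ob

omit P in
theorem ncomm {f : ℤ → V} (hf : A.Line f) {i j : ℤ} (e : j = i + b + 1) (fB : A.isB (f i))
    (cr : A.c (f i) ∉ A.Q (f j)) :
    A.c (f i) • f (j + 1) ≠ f (j + 1) ∧ A.c (A.c (f i) • f (j + 2)) ≠ A.c (f (j + 2)) := by
  have vQ := M f hf i (j - 1) fB (by omega) (by omega)
  have vb : A.c (f i) • f j = f j := Q_nb vQ (hf.ad _ _ (by omega))
  have a1 := hf.ad j (j + 1) rfl
  have a2 := hf.ad (j + 1) (j + 2) (by omega)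
  have mv := moves (hf.ad' j (j - 1) (by omega)) a1 (hf.nb _ _ (by omega)) vb (Q_fix vQ) cr
  refine ⟨mv, b3 (hf.B fB j (by omega)) (adj_fix vb a1) a1 mv (A.adj_smul _ a2) a2 ?_⟩
  exact fun h => smul_ne (hf.nb j (j + 2) rfl) (h.trans vb.symm)

theorem l2 {f : ℤ → V} (hf : A.Line f) {i j : ℤ} (e : j = i + b + 1) (fB : A.isB (f i))
    (cr : A.c (f i) ∉ A.Q (f j)) : A.c (f (j + 2)) ∉ A.Q (f (i + 2)) := by
  intro h
  have wB := hf.B fB (j + 2) (by omega)
  have := l1 hb P (hf.rev 0) (-(i + 2)) (g := A.c (f (j + 2))) (a := f (i + 1))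
    (by simpa using hf.B fB (i + 2) (by omega))
    (fun t h1 h2 => M.fix hf _ _ wB (by omega) (by omega)) (by simpa using h)
    (hf.ad' _ _ (by omega))
  have h2 := c_comm fB (Q_nb this (hf.ad' (i + 1) i rfl))
  apply (ncomm M hb ob hf e fB cr).2
  rw [A.c_smul _ wB, ← h2]; group

theorem l2' {f : ℤ → V} (hf : A.Line f) {i j : ℤ} (e : i = j + b + 1) (fB : A.isB (f i))
    (cr : A.c (f i) ∉ A.Q (f j)) : A.c (f (j - 2)) ∉ A.Q (f (i - 2)) :=
  crc (f := f) (l2 M hb ob P (hf.rev 0) (i := -i) (j := -j) (by omega) (by simpa using fB)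
    (by simpa using cr)) (by omega) (by omega)

theorem dep {f k : ℤ → V} (hf : A.Line f) (hk : A.Line k) {i j : ℤ} (e : j = i + b + 1)
    (fB : A.isB (f i)) (cr : A.c (f i) ∉ A.Q (f j)) (ag : ∀ t, i + 2 ≤ t → t ≤ j → k t = f t) :
    A.c (k i) ∉ A.Q (k j) := by
  obtain ⟨p, hp, p1, p2⟩ := hf.glue hk j (ag _ (by omega) le_rfl).symm (by
    rw [← ag _ (by omega) (by omega)]; exact hk.nb _ _ (by omega))
  have h1 := l2 M hb ob P hp e (by rw [p1 _ (by omega)]; exact fB)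
    (by rw [p1 i (by omega), p1 j le_rfl]; exact cr)
  rw [p2 (j + 2) (by omega), p1 (i + 2) (by omega), ← ag _ le_rfl (by omega)] at h1
  have kB : A.isB (k (i + 2)) := by rw [ag _ le_rfl (by omega)]; exact hf.B fB _ (by omega)
  exact crc (l2' M hb ob P hk (by omega) (hk.B kB _ (by omega)) h1) (by omega) (by omega)

theorem l3 {f : ℤ → V} (hf : A.Line f) {i j : ℤ} (e : j = i + b + 1) (fB : A.isB (f i))
    (cr : A.c (f i) ∉ A.Q (f j)) : ∃ k, A.Line k ∧ (∀ t, i + 1 ≤ t → k t = f t) ∧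
      A.c (k i) ∉ A.Q (k j) ∧ A.c (k (i - 2)) ∉ A.Q (k (j - 2)) := by
  by_contra hn
  push Not at hn
  have hn' : ∀ k, A.Line k → (∀ t, i + 1 ≤ t → k t = f t) → A.c (k (i - 2)) ∈ A.Q (f (j - 2)) := by
    intro k hk ag
    rw [← ag _ (by omega)]
    exact hn k hk ag (dep M hb ob P hf hk e fB cr fun t h1 h2 => ag t (by omega))
  have zB := hf.B fB (j + 2) (by omega)
  have zn := l2 M hb ob P hf e fB cr
  have zQ := M f hf (j + 2) (i + 3) zB (by omega) (by omega)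
  have a12 := hf.ad (i + 1) (i + 2) (by omega)
  have z2 : A.c (f (j + 2)) • f (i + 2) = f (i + 2) := Q_nb zQ (hf.ad' _ _ (by omega))
  have z1 := moves (hf.ad (i + 2) (i + 3) (by omega)) (A.symm a12) (hf.nb' _ _ (by omega)) z2
    (Q_fix zQ) zn
  set X : V → Prop := fun x => ∃ l a, A.adj (f (i + 1)) l ∧ A.adj l a ∧ A.adj a x with hX
  have c0 : ∀ a x, A.adj (f (i + 2)) a → A.adj a x → A.isB x →
      A.c (f (j + 2)) * A.c x * (A.c (f (j + 2)))⁻¹ ∈ A.Cl X := fun a x h1 h2 xB => by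
    rw [← A.c_smul _ xB]
    exact mem_Cl ⟨_, _, a12, adj_fix z2 h1, A.adj_smul _ h2⟩ (A.isB_smul _ xB)
  have a10 := hf.ad' (i + 1) i rfl
  refine kill a12 X ?_ ?_ z2 z1 ?_ ⟨_, _, a12, A.symm a12, a12⟩ (hf.B fB _ (by omega))
  · rintro x ⟨l, a, h1, h2, h3⟩ xB
    exact M.q3 (by omega) xB (A.symm h3) (A.symm h2) (A.symm h1)
  · rintro t ht x ⟨l, a, h1, h2, h3⟩
    exact ⟨t • l, t • a, adj_fix ht h1, A.adj_smul t h2, A.adj_smul t h3⟩
  rintro x ⟨l, a, h1, h2, h3⟩ xB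
  by_cases e1 : l = f (i + 2)
  · exact c0 a x (e1 ▸ h2) h3 xB
  by_cases e2 : a = f (i + 1)
  · exact c0 _ x (A.symm a12) (e2 ▸ h3) xB
  by_cases e3 : x = l
  · exact c0 _ x (A.symm a12) (e3 ▸ h1) xB
  obtain ⟨k1, hk1, g1, v1⟩ := hf.bwd (i + 1) h1 (by rw [add_assoc]; exact e1)
  obtain ⟨k2, hk2, g2, v2⟩ := hk1.bwd (i + 1 - 1) (v1 ▸ h2) (by
    rw [g1 _ (by omega), sub_add_cancel]; exact e2)
  obtain ⟨k3, hk3, g3, v3⟩ := hk2.bwd (i + 1 - 1 - 1) (v2 ▸ h3) (by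
    rw [g2 _ (by omega), sub_add_cancel, v1]; exact e3)
  have ag : ∀ t, i + 1 ≤ t → k3 t = f t := fun t ht => by
    rw [g3 _ (by omega), g2 _ (by omega), g1 _ ht]
  have uQ := hn' k3 hk3 ag
  have xe : k3 (i - 2) = x := (idx (by omega)).trans v3
  have uf : ∀ t, i + 1 ≤ t → t ≤ j - 1 → A.c x • f t = f t := by
    intro t h1 h2
    rw [← xe]
    by_cases h : t ≤ j - 3
    · rw [← ag t h1]; exact M.fix hk3 _ _ (xe ▸ xB) (by omega) (by omega)
    by_cases h' : t = j - 2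
    · rw [h']; exact Q_fix uQ
    · exact Q_nb uQ (hf.ad _ _ (by omega))
  have jB := hf.B fB j (by omega)
  have uQ' : A.c x ∈ A.Q (f (j - 1)) := pP P hf _ (hf.nB' fB _ (by omega))
    fun t h1 h2 => uf t (by omega) h2
  have mx : A.c x ∈ A.Cl X := mem_Cl ⟨l, a, h1, h2, h3⟩ xB
  have cz : ∀ g : G, (∀ t, i + 2 ≤ t → t ≤ j - 1 → g • f t = f t) → g ∈ A.Q (f j) →
      A.c (f (j + 2)) * g * (A.c (f (j + 2)))⁻¹ = g := by
    intro g h1 h2
    have := l1 hb P hf j jB (fun t a1 a2 => h1 t (by omega) a2) h2 (hf.ad j (j + 1) rfl)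
    rw [← c_comm zB (Q_nb this (hf.ad _ _ (by omega)))]; group
  by_cases hu : A.c x ∈ A.Q (f j)
  · rw [cz _ (fun t a1 a2 => uf t (by omega) a2) hu]; exact mx
  · have vQ := M f hf i (j - 1) fB (by omega) (by omega)
    have aj := hf.ad' j (j - 1) (by omega)
    have h4 := cz (A.c x * A.c (f i)) (fun t a1 a2 => fix_mul (uf t (by omega) a2)
      (M.fix hf _ _ fB (by omega) (by omega)))
      (mulQ aj (Q_nb uQ' (A.symm aj)) (Q_fix uQ') (Q_nb vQ (A.symm aj)) (Q_fix vQ) hu cr)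
    have h5 : A.c (f (j + 2)) * A.c x * (A.c (f (j + 2)))⁻¹ = A.c x * A.c (f i) *
        (A.c (f (j + 2)) * A.c (f i) * (A.c (f (j + 2)))⁻¹)⁻¹ := by
      rw [← h4]; group
    rw [h5]
    exact mul_mem (mul_mem mx (mem_Cl ⟨_, _, a12, A.symm a12, a10⟩ fB))
      (inv_mem (c0 _ _ (A.symm a12) a10 fB))

theorem l5 {f : ℤ → V} (hf : A.Line f) {i j : ℤ} (e : j = i + b + 1) (fB : A.isB (f i))
    (cr : A.c (f i) ∉ A.Q (f j)) (cr' : A.c (f (i - 2)) ∉ A.Q (f (j - 2))) :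
    A.c (f (i - 2)) * A.c (f j) * A.c (f (i - 2)) * A.c (f j) = A.c (f (i + 2)) := by
  have vB := hf.B fB (i - 2) (by omega)
  have wB := hf.B fB j (by omega)
  have zB := hf.B fB (j + 2) (by omega)
  have wn : A.c (f j) ∉ A.Q (f i) :=
    crc (l2 M hb ob P hf (by omega) vB cr') (by omega) (by omega)
  have wQ := M f hf j (i + 1) wB (by omega) (by omega)
  have zn := l2 M hb ob P hf e fB cr
  have zQ := M f hf (j + 2) (i + 3) zB (by omega) (by omega)
  have a12 := hf.ad (i + 1) (i + 2) (by omega)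
  have a01 := hf.ad i (i + 1) rfl
  have a0m := hf.ad' i (i - 1) (by omega)
  have am := hf.ad' (i - 1) (i - 2) (by omega)
  have z2 : A.c (f (j + 2)) • f (i + 2) = f (i + 2) := Q_nb zQ (hf.ad' _ _ (by omega))
  have z1 := moves (hf.ad (i + 2) (i + 3) (by omega)) (A.symm a12) (hf.nb' _ _ (by omega)) z2
    (Q_fix zQ) zn
  have w0 : A.c (f j) • f i = f i := Q_nb wQ (A.symm a01)
  have wm := moves a01 a0m (hf.nb' _ _ (by omega)) w0 (Q_fix wQ) wn
  obtain ⟨n1, n2⟩ := ncomm M hb ob hf (i := i - 2) (j := j - 2) (by omega) vB cr'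
  rw [show j - 2 + 1 = j - 1 by omega] at n1
  rw [show j - 2 + 2 = j by omega] at n2
  have e1 : A.c (f (i - 2)) * A.c (A.c (f j) • f (i - 2)) =
      A.c (f (i - 2)) * A.c (f j) * A.c (f (i - 2)) * A.c (f j) := by
    rw [A.c_smul _ vB, c_inv wB]; simp only [mul_assoc]
  have e2 : A.c (f (i - 2)) * A.c (A.c (f j) • f (i - 2)) =
      A.c (A.c (f (i - 2)) • f j) * A.c (f j) := by
    rw [e1, A.c_smul _ wB, c_inv vB]
  have v2 : A.c (f (i - 2)) • f (j - 2) = f (j - 2) :=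
    Q_nb (M f hf (i - 2) (j - 3) vB (by omega) (by omega)) (hf.ad _ _ (by omega))
  have aj := hf.ad (j - 2) (j - 1) (by omega)
  have aj' := hf.ad (j - 1) j (by omega)
  obtain ⟨k, hk, k1, k2⟩ := hf.bwd (j - 2) (adj_fix v2 aj)
    (by rw [show j - 2 + 1 = j - 1 by omega]; exact n1)
  have zq := M k hk (j + 2) (j - 2 - 1) (by rw [k1 _ (by omega)]; exact zB) (by omega) (by omega)
  rw [k1 (j + 2) (by omega), k2] at zq
  have zc1 := c_comm (A.isB_smul (A.c (f (i - 2))) wB) (Q_nb zq (A.adj_smul _ aj'))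
  have zc2 := c_comm wB (M.fix hf (j + 2) j zB (by omega) (by omega))
  have wc1 := M.vcomm (by omega) (hf.B fB (j - 2) (by omega)) aj (adj_fix v2 aj) aj'
    (A.adj_smul _ aj')
  rw [← e1]
  refine rho M (by omega) fB a01 a0m (adj_fix w0 a0m) (hf.nb' _ _ (by omega)) ?_ wm am
    (A.adj_smul _ am) (hf.nb' _ _ (by omega)) ?_ a12 (hf.nb _ _ (by omega)) z2 z1 ?_ wQ wn ?_ ?_
  · exact fun h => smul_ne (hf.nb' (i + 1) (i - 1) (by omega)) (h.trans (Q_fix wQ).symm)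
  · exact fun h => smul_ne (hf.nb' i (i - 2) (by omega)) (h.trans w0.symm)
  · rw [e2, ← mul_assoc, zc1, mul_assoc, zc2, mul_assoc]
  · rw [e2, ← mul_assoc, wc1]
  · rw [e2]
    intro h
    exact n2 (by rw [eq_inv_of_mul_eq_one_left h, c_inv wB])

theorem case_odd_p {f : ℤ → V} (hf : A.Line f) (fB : A.isB (f (-1)))
    (cr : A.c (f (-1)) ∉ A.Q (f b)) : False := by
  obtain ⟨f1, h1, g1, c10, c11⟩ := l3 M hb ob P hf (by omega) fB cr
  have B1 : A.isB (f1 1) := by rw [g1 _ (by omega)]; exact hf.B fB _ (by omega)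
  obtain ⟨f2, h2, g2, c21, c22⟩ := l3 M hb ob P h1 (by omega) (h1.B B1 _ (by omega)) c11
  have B2 : A.isB (f2 1) := by rw [g2 _ (by omega)]; exact B1
  obtain ⟨k, hk, g3, c32, c33⟩ := l3 M hb ob P h2 (by omega) (h2.B B2 _ (by omega)) c22
  have kB : A.isB (k 1) := by rw [g3 _ (by omega)]; exact B2
  have c30 : A.c (k (-1)) ∉ A.Q (k b) := by
    rw [g3 (-1) (by omega), g3 b (by omega), g2 (-1) (by omega), g2 b (by omega)]; exact c10
  have c31 : A.c (k (-1 - 2)) ∉ A.Q (k (b - 2)) := by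
    rw [g3 (-1 - 2) (by omega), g3 (b - 2) (by omega)]; exact c21
  have r1 := l5 M hb ob P hk (by omega) (hk.B kB _ (by omega)) c31 c32
  have d2 := l2 M hb ob P hk (by omega) (hk.B kB _ (by omega)) c32
  have d3 := l2 M hb ob P hk (by omega) (hk.B kB _ (by omega)) c33
  have r2 := l5 M hb ob P (hk.rev 0) (i := -(b - 4)) (j := 5) (by omega) (hk.B kB _ (by omega))
    (crc d3 (by omega) (by omega)) (crc d2 (by omega) (by omega))
  rw [show (0 : ℤ) - (-(b - 4) - 2) = b - 2 by omega, show (0 : ℤ) - 5 = -1 - 2 - 2 by omega,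
    show (0 : ℤ) - (-(b - 4) + 2) = b - 6 by omega] at r2
  rw [show (-1 : ℤ) - 2 + 2 = -1 by omega] at r1
  have s1 := A.c_sq (hk.B kB (-1 - 2 - 2) (by omega))
  have s2 := A.c_sq (hk.B kB (b - 2) (by omega))
  have e : A.c (k (-1)) = (A.c (k (b - 6)))⁻¹ := by
    rw [← r1, ← r2]
    generalize A.c (k (-1 - 2 - 2)) = v at *
    generalize A.c (k (b - 2)) = w at *
    rw [eq_inv_iff_mul_eq_one]
    calc v * w * v * w * (w * v * w * v) = v * w * v * (w * w) * v * w * v := by group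
      _ = v * w * (v * v) * w * v := by rw [s2]; group
      _ = v * (w * w) * v := by rw [s1]; group
      _ = 1 := by rw [s2, mul_one, s1]
  apply c30
  rw [e]
  exact inv_mem (M k hk _ _ (hk.B kB _ (by omega)) (by omega) (by omega))

end

theorem false_of (A : Am G V) : False := by
  obtain ⟨b, hb, M, f, hf, fB, cr⟩ := A.exists_crit
  by_cases h1 : b = 1
  · subst h1; exact case_one hf fB cr
  by_cases h2 : b = 2
  · subst h2; exact case_two M hf fB cr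
  by_cases eb : b % 2 = 0
  · exact case_even M (by omega) eb hf fB cr
  by_cases P : A.E (b - 2) False
  · exact case_odd_tr M (by omega) (by omega) hf fB cr P
  have h7 : 7 ≤ b := by
    by_contra h
    exact P (A.e_three.mono (by omega))
  exact case_odd_p M h7 (by omega) P hf fB cr

end Am

end Cfsg.Agent.P31
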