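import Cfsg.Agent.P31.GA5
import Cfsg.Agent.P31.Ty

/-! The central type: the coset graph of the amalgam. -/

set_option autoImplicit false
set_option linter.unusedSectionVars false
set_option linter.style.haveILetI false

namespace Cfsg.Agent.P31

open Subgroup Cfsg Cfsg.Agent Cfsg.Agent.FT Cfsg.Agent.P6

universe u

namespace GC

variable {G : Type u} [Group G] [Finite G]

section
variable {T D : Subgroup G} {y : G} (h : Ty 3 T D y)
include h

theorem y2T : y * y ∉ T := fun hy => h.yT (by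
  have : y = (y * y)⁻¹ := eq_inv_of_mul_eq_one_right h.y3'
  rw [this]; exact inv_mem hy)

theorem yP : y ∈ T ⊔ zpowers y := mem_sup_right (mem_zpowers y)

theorem cos {p : G} (hp : p ∈ T ⊔ zpowers y) : p ∈ T ∨ y⁻¹ * p ∈ T ∨ (y * y)⁻¹ * p ∈ T := by
  classical
  set P := T ⊔ zpowers y
  have i3 : Nat.card (P ⧸ T.subgroupOf P) = 3 := h.i3
  haveI : Fintype (P ⧸ T.subgroupOf P) := Fintype.ofFinite _
  let a : P := 1
  let b : P := ⟨y, yP h⟩
  let c : P := b * b
  have q : ∀ u v : P, (u : P ⧸ T.subgroupOf P) = v ↔ (u : G)⁻¹ * v ∈ T := fun u v => by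
    rw [QuotientGroup.eq, mem_subgroupOf]; rfl
  have ab : (a : P ⧸ T.subgroupOf P) ≠ b := fun e => h.yT (by simpa [a, b] using (q _ _).1 e)
  have ac : (a : P ⧸ T.subgroupOf P) ≠ c := fun e => y2T h (by simpa [a, b, c] using (q _ _).1 e)
  have bc : (b : P ⧸ T.subgroupOf P) ≠ c := fun e => h.yT (by simpa [a, b, c] using (q _ _).1 e)
  have hu : ({(a : P ⧸ T.subgroupOf P), (b : P ⧸ T.subgroupOf P), (c : P ⧸ T.subgroupOf P)} :
      Finset _) = Finset.univ := by
    apply Finset.eq_univ_of_card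
    rw [Finset.card_eq_three.2 ⟨_, _, _, ab, ac, bc, rfl⟩, ← Nat.card_eq_fintype_card, i3]
  have := Finset.mem_univ ((⟨p, hp⟩ : P) : P ⧸ T.subgroupOf P)
  rw [← hu] at this
  simp only [Finset.mem_insert, Finset.mem_singleton] at this
  rcases this with e | e | e
  · exact Or.inl (by simpa [a] using (q _ _).1 e.symm)
  · exact Or.inr (Or.inl ((q _ _).1 e.symm))
  · exact Or.inr (Or.inr ((q _ _).1 e.symm))

theorem cenP (h6 : Or6 G) {p : G} (hp : p ∈ T ⊔ zpowers y) (hc : p ∈ 𝐂(D)) : p ∈ D := by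
  have yi : y⁻¹ = y * y := inv_eq_of_mul_eq_one_right (by rw [← mul_assoc]; exact h.y3')
  have cj : ∀ g ∈ 𝐍(D), ∀ x ∈ 𝐂(D), g * x * g⁻¹ ∈ 𝐂(D) := fun g hg x hx => by
    rw [mem_centralizer_iff] at hx ⊢
    intro d hd
    have := hx _ ((mem_normalizer_iff.1 (inv_mem hg) d).1 hd)
    calc d * (g * x * g⁻¹) = g * (g⁻¹ * d * g⁻¹⁻¹ * x) * g⁻¹ := by group
      _ = _ := by rw [this]; group
  have yD : ∀ d ∈ D, y * d * y⁻¹ ∈ D := fun d hd => (mem_normalizer_iff.1 h.nrm d).1 hd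
  rcases cos h hp with e | e | e
  · exact h.mem_D h6 e hc
  · exfalso
    obtain ⟨t, rfl⟩ : ∃ t, p = y * t := ⟨y⁻¹ * p, by group⟩
    rw [inv_mul_cancel_left] at e
    by_cases ht : t ∈ D
    · exact h.not_cen_mul h6 (yD t ht) (by simpa using hc)
    · have h1 := h.inv t e ht
      have h2 : y * (y * t) * y⁻¹ = (t * y * t⁻¹ * y)⁻¹ * t := by
        rw [← mul_assoc, ← yi]; group
      have h3 := cj y h.nrm _ hc
      rw [h2] at h3
      exact ht ((D.mul_mem_cancel_left (inv_mem h1)).1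
        (h.mem_D h6 (mul_mem (inv_mem (h.le h1)) e) h3))
  · exfalso
    obtain ⟨t, rfl⟩ : ∃ t, p = y * y * t := ⟨(y * y)⁻¹ * p, by group⟩
    rw [inv_mul_cancel_left] at e
    by_cases ht : t ∈ D
    · refine h.not_cen_mul h6 (inv_mem ht) ?_
      have := inv_mem hc
      rwa [← yi, mul_inv_rev, inv_inv] at this
    · have h1 := yD _ (h.inv t e ht)
      have h2 : y⁻¹ * (y * y * t) * y⁻¹⁻¹ = y * (t * y * t⁻¹ * y) * y⁻¹ * t := by group
      have h3 := cj y⁻¹ (inv_mem h.nrm) _ hc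
      rw [h2] at h3
      exact ht ((D.mul_mem_cancel_left h1).1 (h.mem_D h6 (mul_mem (h.le h1) e) h3))

end

theorem build (h6 : Or6 G) {T : Subgroup G} {D : Bool → Subgroup G} {y : Bool → G}
    (hy : ∀ i, Ty 3 T (D i) (y i)) (hN : NoN T (y false) (y true))
    (hn : ∀ i, y i ∉ 𝐍((D i ⊓ D (!i) : Subgroup G))) (hc : Cen T (y true))
    {V : Type*} [MulAction G V] (o : Bool → V) (ty : V → Bool)
    (hty : ∀ (g : G) i, ty (g • o i) = i) (hall : ∀ v, ∃ (g : G) (i : Bool), v = g • o i)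
    (hst : ∀ (g : G) i, g • o i = o i ↔ g ∈ T ⊔ zpowers (y i)) : False := by
  classical
  set P : Bool → Subgroup G := fun i => T ⊔ zpowers (y i) with hP
  have TP : ∀ i, T ≤ P i := fun i => le_sup_left
  have hI : ∀ i g, g ∈ P i → g ∈ P (!i) → g ∈ T := by
    intro i g h1 h2
    rw [← hN.inf (hy false) (hy true)]
    cases i
    · exact ⟨h1, h2⟩
    · exact ⟨h2, h1⟩
  have eqv : ∀ (g h : G) i, g • o i = h • o i ↔ h⁻¹ * g ∈ P i := fun g h i => by
    rw [← hst, mul_smul, inv_smul_eq_iff]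
  have fx : ∀ (g h : G) i, h • g • o i = g • o i ↔ g⁻¹ * h * g ∈ P i := fun g h i => by
    rw [← mul_smul, eqv, mul_assoc]
  let adj : V → V → Prop := fun a b => ∃ (g : G) (i : Bool), a = g • o i ∧ b = g • o (!i)
  have adj_iff : ∀ (g : G) i x, adj (g • o i) x ↔ ∃ p ∈ P i, x = (g * p) • o (!i) := by
    intro g i x
    constructor
    · rintro ⟨h, j, e1, e2⟩
      have : i = j := by rw [← hty g i, e1, hty]
      subst this
      exact ⟨g⁻¹ * h, (eqv _ _ _).1 e1.symm, by rw [e2, mul_inv_cancel_left]⟩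
    · rintro ⟨p, hp, e⟩
      exact ⟨g * p, i, by rw [mul_smul, (hst p i).2 hp], e⟩
  have mQ : ∀ (g q : G) i, q ∈ Qs G adj (g • o i) ↔ g⁻¹ * q * g ∈ D i := by
    intro g q i
    let N : Subgroup G := (Qs G adj (g • o i)).comap (MulAut.conj g).toMonoidHom
    have mN : ∀ x, x ∈ N ↔ x ∈ P i ∧ ∀ p ∈ P i, p⁻¹ * x * p ∈ P (!i) := by
      intro x
      show (g * x * g⁻¹) • g • o i = g • o i ∧ (∀ a, adj (g • o i) a → (g * x * g⁻¹) • a = a) ↔ _
      rw [fx, show g⁻¹ * (g * x * g⁻¹) * g = x by group]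
      refine and_congr_right fun _ => ⟨fun h p hp => ?_, fun h a ha => ?_⟩
      · have := (fx _ _ _).1 (h _ ((adj_iff g i _).2 ⟨p, hp, rfl⟩))
        rwa [show (g * p)⁻¹ * (g * x * g⁻¹) * (g * p) = p⁻¹ * x * p by group] at this
      · obtain ⟨p, hp, rfl⟩ := (adj_iff g i _).1 ha
        rw [fx, show (g * p)⁻¹ * (g * x * g⁻¹) * (g * p) = p⁻¹ * x * p by group]
        exact h p hp
    have nN : P i ≤ 𝐍(N) := fun p hp => mem_normalizer_fintype fun x hx => by
      obtain ⟨h1, h2⟩ := (mN x).1 hx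
      refine (mN _).2 ⟨mul_mem (mul_mem hp h1) (inv_mem hp), fun p' hp' => ?_⟩
      have := h2 (p⁻¹ * p') (mul_mem (inv_mem hp) hp')
      rwa [show (p⁻¹ * p')⁻¹ * x * (p⁻¹ * p') = p'⁻¹ * (p * x * p⁻¹) * p' by group] at this
    have ND : N = D i := le_antisymm ((hy i).le_D (fun x hx => hI i x ((mN x).1 hx).1
      (by simpa using ((mN x).1 hx).2 1 (one_mem _))) ((TP i).trans nN) (nN (yP (hy i))))
      fun d hd => (mN d).2 ⟨TP i ((hy i).le hd), fun p hp => TP _ ((hy i).le (by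
        simpa using (mem_normalizer_iff.1 ((hy i).normP (inv_mem hp)) d).1 hd))⟩
    rw [← ND]
    show _ ↔ g * (g⁻¹ * q * g) * g⁻¹ ∈ Qs G adj (g • o i)
    rw [show g * (g⁻¹ * q * g) * g⁻¹ = q by group]
  have T0 : T ≠ ⊥ := fun e => (hy true).ne_bot (le_bot_iff.1 (e ▸ (hy true).le))
  obtain ⟨c0, c0T, c0i, c0c⟩ : ∃ u ∈ T, P6.Inv u ∧ T ≤ 𝐂[u] := by
    have hT := (hy true).two
    obtain ⟨r, hr, ho⟩ := exists_mem_orderOf_eq_prime Nat.prime_two
      (prime_dvd_card_of_isPGroup Nat.prime_two (hT.to_le (inf_le_left (b := 𝐂(T))))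
        (inf_center_ne_bot (isNilpotent_of_isPGroup Nat.prime_two hT) ⟨le_rfl, le_normalizer⟩ T0))
    exact ⟨r, hr.1, P6.inv_of_orderOf ho, mem_cent_iff_cent1.1 hr.2⟩
  have cP : ∀ z ∈ T, z * z = 1 → T ≤ 𝐂[z] → P true ≤ 𝐂[z] := fun z h1 h2 h3 =>
    sup_le h3 (zpowers_le.2 (mem_centralizer_singleton_iff.2
      (hc z h1 h2 (mem_cent_iff_cent1.2 h3)).symm))
  obtain ⟨c, hcc⟩ : ∃ c : V → G, ∀ g : G, c (g • o true) = g * c0 * g⁻¹ := by
    refine ⟨fun v => (hall v).choose * c0 * (hall v).choose⁻¹, fun g => ?_⟩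
    obtain ⟨i, e⟩ := (hall (g • o true)).choose_spec
    simp only
    generalize (hall (g • o true)).choose = g' at *
    have : true = i := by rw [← hty g true, e, hty]
    subst this
    have := mem_centralizer_singleton_iff.1 (cP c0 c0T c0i.2 c0c ((eqv _ _ _).1 e))
    calc g' * c0 * g'⁻¹ = g' * (c0 * (g'⁻¹ * g)) * g⁻¹ := by group
      _ = _ := by rw [← this]; group
  have hB : ∀ {a : V}, ty a = true → ∃ g : G, a = g • o true := by
    intro a ha
    obtain ⟨g, i, rfl⟩ := hall a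
    rw [hty] at ha
    exact ⟨g, by rw [ha]⟩
  have yo : ∀ i p, p ∈ P i → p⁻¹ * y i * p ∉ P (!i) := fun i p hp h =>
    notMem_of_ord3 (hy i).two (y := p⁻¹ * y i * p) (by
      rw [← (hy i).ord]
      simpa using (MulAut.conj p⁻¹).orderOf_eq (y i))
      (hI i _ (mul_mem (mul_mem (inv_mem hp) (yP (hy i))) hp) h)
  refine Am.false_of (G := G) (V := V)
    { adj := adj, isB := fun a => ty a = true, c := c, symm := ?_, adj_smul := ?_, isB_smul := ?_,
      bip := ?_, three := ?_, vt := ?_, ne := ⟨o true⟩, mv := ?_, rot := ?_, exp4 := ?_,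
      no8 := fun g => h6.no8, cen := ?_, noN := ?_, b5 := ?_, c_smul := ?_, c_ne := ?_,
      c_sq := ?_, c_fix := ?_, za := ?_ }
  · rintro a b ⟨g, i, rfl, rfl⟩
    exact ⟨g, !i, rfl, by rw [Bool.not_not]⟩
  · rintro h a b ⟨g, i, rfl, rfl⟩
    exact ⟨h * g, i, (mul_smul _ _ _).symm, (mul_smul _ _ _).symm⟩
  · intro h a ha
    obtain ⟨g, rfl⟩ := hB ha
    rw [← mul_smul, hty]
  · rintro a b ⟨g, i, rfl, rfl⟩
    rw [hty, hty]; cases i <;> simp
  · intro d
    obtain ⟨g, i, rfl⟩ := hall d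
    have y1 : y i ∉ P (!i) := by simpa using yo i 1 (one_mem _)
    have y2 : y i * y i ∉ P (!i) := fun h => y2T (hy i)
      (hI i _ (mul_mem (yP (hy i)) (yP (hy i))) h)
    refine ⟨g • o (!i), (g * y i) • o (!i), (g * (y i * y i)) • o (!i), fun e => y1 ?_,
      fun e => y2 ?_, fun e => y1 ?_, fun x => ?_⟩
    · simpa using (eqv _ _ _).1 e.symm
    · simpa using (eqv _ _ _).1 e.symm
    · have := (eqv _ _ _).1 e.symm
      rwa [show (g * y i)⁻¹ * (g * (y i * y i)) = y i by group] at this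
    · rw [adj_iff]
      constructor
      · rintro ⟨p, hp, rfl⟩
        rcases cos (hy i) hp with e | e | e
        · exact Or.inl ((eqv _ _ _).2 (by simpa using TP _ e))
        · refine Or.inr (Or.inl ((eqv _ _ _).2 ?_))
          rw [show (g * y i)⁻¹ * (g * p) = (y i)⁻¹ * p by group]; exact TP _ e
        · refine Or.inr (Or.inr ((eqv _ _ _).2 ?_))
          rw [show (g * (y i * y i))⁻¹ * (g * p) = (y i * y i)⁻¹ * p by group]; exact TP _ e
      · rintro (rfl | rfl | rfl)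
        · exact ⟨1, one_mem _, by rw [mul_one]⟩
        · exact ⟨_, yP (hy i), rfl⟩
        · exact ⟨_, mul_mem (yP (hy i)) (yP (hy i)), rfl⟩
  · intro a b e
    obtain ⟨g, i, rfl⟩ := hall a
    obtain ⟨h, j, rfl⟩ := hall b
    rw [hty, hty] at e
    have : i = j := by cases i <;> cases j <;> simp_all
    subst this
    exact ⟨h * g⁻¹, by rw [mul_smul, inv_smul_smul]⟩
  · intro d a b ha hb
    obtain ⟨g, i, rfl⟩ := hall d
    obtain ⟨p, hp, rfl⟩ := (adj_iff _ _ _).1 ha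
    obtain ⟨p', hp', rfl⟩ := (adj_iff _ _ _).1 hb
    refine ⟨g * p' * (g * p)⁻¹, (fx _ _ _).2 ?_, by rw [mul_smul, inv_smul_smul]⟩
    rw [show g⁻¹ * (g * p' * (g * p)⁻¹) * g = p' * p⁻¹ by group]
    exact mul_mem hp' (inv_mem hp)
  · intro d hd
    obtain ⟨g, rfl⟩ := hB hd
    refine ⟨g * y true * g⁻¹, by rw [conj_pow, (hy true).y3]; group, (fx _ _ _).2 ?_,
      fun a ha e => ?_, fun x hx e => ?_⟩
    · rw [show g⁻¹ * (g * y true * g⁻¹) * g = y true by group]; exact yP (hy true)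
    · obtain ⟨p, hp, rfl⟩ := (adj_iff _ _ _).1 ha
      have := (fx _ _ _).1 e
      rw [show (g * p)⁻¹ * (g * y true * g⁻¹) * (g * p) = p⁻¹ * y true * p by group] at this
      exact yo true p hp this
    · have h1 := (mQ _ _ _).1 hx
      have h4 := h6.pow4 (hy true).two ((hy true).le h1)
      have cm : Commute (g⁻¹ * x * g) (y true) := by
        show _ = _
        calc g⁻¹ * x * g * y true = g⁻¹ * (x * (g * y true * g⁻¹)) * g := by group
          _ = _ := by rw [e]; group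
      have d4 := orderOf_dvd_of_pow_eq_one h4
      have := h6.mul_le cm (by
        rw [(hy true).ord]; exact Nat.Coprime.coprime_dvd_left d4 (by norm_num))
      rw [(hy true).ord] at this
      have h2 : (g⁻¹ * x * g) ^ 2 = 1 := by
        apply orderOf_dvd_iff_pow_eq_one.1
        have := orderOf_pos (g⁻¹ * x * g)
        have h5 : orderOf (g⁻¹ * x * g) = 1 ∨ orderOf (g⁻¹ * x * g) = 2 := by omega
        rcases h5 with h5 | h5 <;> rw [h5]
        norm_num
      calc x * x = g * (g⁻¹ * x * g) ^ 2 * g⁻¹ := by rw [sq]; group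
        _ = 1 := by rw [h2]; group
  · rintro a b h ⟨g, i, rfl, rfl⟩ h1 h2
    have := h6.pow4 (hy i).two (hI i _ ((fx _ _ _).1 h1) ((fx _ _ _).1 h2))
    calc h ^ 4 = g * (g⁻¹ * h * g) ^ 4 * g⁻¹ := by rw [← conj_pow]; group
      _ = 1 := by rw [this]; group
  · intro d h hd hq
    obtain ⟨g, i, rfl⟩ := hall d
    refine (mQ _ _ _).2 (cenP (hy i) h6 ((fx _ _ _).1 hd) fun x hx => ?_)
    have := hq (g * x * g⁻¹) ((mQ _ _ _).2 (by simpa [mul_assoc] using hx))
    calc x * (g⁻¹ * h * g) = g⁻¹ * (g * x * g⁻¹ * h) * g := by group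
      _ = _ := by rw [this]; group
  · rintro a b N ⟨g, i, rfl, rfl⟩ h1 h2 h3
    let N' : Subgroup G := N.comap (MulAut.conj g).toMonoidHom
    have mN : ∀ x, x ∈ N' ↔ g * x * g⁻¹ ∈ N := fun x => Iff.rfl
    have nn : ∀ j, (∀ h : G, h • g • o j = g • o j → ∀ n ∈ N, h * n * h⁻¹ ∈ N) → P j ≤ 𝐍(N') :=
      fun j hj p hp => mem_normalizer_fintype fun x hx => by
        have := hj (g * p * g⁻¹) ((fx _ _ _).2 (by simpa [mul_assoc] using hp)) _ ((mN x).1 hx)
        refine (mN _).2 ?_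
        rwa [show g * p * g⁻¹ * (g * x * g⁻¹) * (g * p * g⁻¹)⁻¹ = g * (p * x * p⁻¹) * g⁻¹ by
          group] at this
    have n1 := nn i h2
    have n2 := nn _ h3
    have nj : ∀ j, P j ≤ 𝐍(N') := fun j => by
      cases i <;> cases j <;> assumption
    have := hN N' (fun x hx => (hy i).le (by
      simpa [mul_assoc] using (mQ _ _ _).1 (h1 ((mN x).1 hx)))) ((TP i).trans n1)
      (nj _ (yP (hy _))) (nj _ (yP (hy _)))
    refine eq_bot_iff.2 fun n hn => ?_
    have h4 : g⁻¹ * n * g ∈ N' := (mN _).2 (by simpa [mul_assoc] using hn)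
    rw [this, mem_bot] at h4
    rw [mem_bot]
    calc n = g * (g⁻¹ * n * g) * g⁻¹ := by group
      _ = 1 := by rw [h4]; group
  · intro d a a' ha ha' aa
    obtain ⟨g0, i, rfl⟩ := hall d
    obtain ⟨p, hp, rfl⟩ := (adj_iff _ _ _).1 ha
    have e0 : g0 • o i = (g0 * p) • o i := by rw [mul_smul, (hst p i).2 hp]
    rw [e0] at ha' ⊢
    generalize g0 * p = g at *
    obtain ⟨p', hp', rfl⟩ := (adj_iff _ _ _).1 ha'
    by_contra hq
    push Not at hq
    have key : ∀ s ∈ P i, s⁻¹ * p' ∈ T → s ∈ 𝐍((D i ⊓ D (!i) : Subgroup G)) := by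
      intro s hs h
      refine (inv_mem_iff).1 (mem_normalizer_fintype fun x hx => ⟨?_, ?_⟩)
      · exact (mem_normalizer_iff.1 ((hy i).normP (inv_mem hs)) x).1 hx.1
      · have h1 := (mQ _ _ _).1 (hq (g * x * g⁻¹) ((mQ _ _ _).2 (by simpa [mul_assoc] using hx.1))
          ((mQ _ _ _).2 (by simpa [mul_assoc] using hx.2)))
        have h2 := (mem_normalizer_iff.1 ((hy (!i)).normD h) _).1 h1
        rwa [show s⁻¹ * p' * ((g * p')⁻¹ * (g * x * g⁻¹) * (g * p')) * (s⁻¹ * p')⁻¹ =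
          s⁻¹ * x * s⁻¹⁻¹ by group] at h2
    rcases cos (hy i) hp' with e | e | e
    · exact aa ((eqv _ _ _).2 (by simpa using TP _ (inv_mem e)))
    · exact hn i (key _ (yP (hy i)) e)
    · apply hn i
      have := inv_mem (key _ (mul_mem (yP (hy i)) (yP (hy i))) e)
      rwa [← eq_inv_of_mul_eq_one_right (hy i).y3'] at this
  · intro h a ha
    obtain ⟨g, rfl⟩ := hB ha
    rw [← mul_smul, hcc, hcc]; group
  · intro a ha
    obtain ⟨g, rfl⟩ := hB ha
    rw [hcc]
    simpa using c0i.1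
  · intro a ha
    obtain ⟨g, rfl⟩ := hB ha
    rw [hcc]
    calc g * c0 * g⁻¹ * (g * c0 * g⁻¹) = g * (c0 * c0) * g⁻¹ := by group
      _ = 1 := by rw [c0i.2]; group
  · intro a ha
    obtain ⟨g, rfl⟩ := hB ha
    rw [hcc, fx]
    simpa [mul_assoc] using TP true c0T
  · intro a x ha x2 xa hx
    obtain ⟨g, i, rfl⟩ := hall a
    rw [hty] at ha
    obtain rfl : i = false := by simpa using ha
    have h1 := (fx _ _ _).1 xa
    have h2 : P false ≤ 𝐂[g⁻¹ * x * g] := fun p hp => mem_centralizer_singleton_iff.2 (by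
      have := hx (g * p * g⁻¹) ((fx _ _ _).2 (by simpa [mul_assoc] using hp))
      calc p * (g⁻¹ * x * g) = g⁻¹ * (g * p * g⁻¹ * x) * g := by group
        _ = _ := by rw [this]; group)
    have h3 : g⁻¹ * x * g * (g⁻¹ * x * g) = 1 := by
      calc g⁻¹ * x * g * (g⁻¹ * x * g) = g⁻¹ * (x * x) * g := by group
        _ = 1 := by rw [x2]; group
    have h4 := (hy false).le (cenP (hy false) h6 h1
      (mem_cent_iff_cent1.2 (((hy false).le.trans (TP false)).trans h2)))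
    have h5 := cP _ h4 h3 ((TP false).trans h2)
    have nz : ∀ {p : G}, p ∈ 𝐂[g⁻¹ * x * g] → p ∈ 𝐍(zpowers (g⁻¹ * x * g)) := fun {p} hp =>
      mem_normalizer_fintype fun n hn => by
        obtain ⟨k, rfl⟩ := mem_zpowers_iff.1 hn
        have : Commute p (g⁻¹ * x * g) := mem_centralizer_singleton_iff.1 hp
        rw [(this.zpow_right k).eq, mul_inv_cancel_right]
        exact hn
    have := hN _ (zpowers_le.2 h4) (fun t ht => nz (h2 (TP _ ht))) (nz (h2 (yP (hy false))))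
      (nz (h5 (yP (hy true))))
    rw [zpowers_eq_bot] at this
    calc x = g * (g⁻¹ * x * g) * g⁻¹ := by group
      _ = 1 := by rw [this]; group

end GC

theorem gacStmt : GACStmt.{u} := by
  intro G _ _ h6 T D1 D2 y1 y2 h1 h2 hN n1 n2 hc
  let D : Bool → Subgroup G := fun i => cond i D2 D1
  let y : Bool → G := fun i => cond i y2 y1
  refine GC.build h6 (D := D) (y := y) (fun i => by cases i; exacts [h1, h2]) hN
    (fun i => by
      cases i
      · exact n1
      · show y2 ∉ 𝐍((D2 ⊓ D1 : Subgroup G))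
        rw [inf_comm]; exact n2) hc
    (V := Σ i : Bool, G ⧸ (T ⊔ zpowers (y i))) (fun i => ⟨i, ((1 : G) : G ⧸ _)⟩) (fun v => v.1)
    (fun g i => rfl) ?_ ?_
  · rintro ⟨i, q⟩
    obtain ⟨g, rfl⟩ := QuotientGroup.mk_surjective q
    refine ⟨g, i, ?_⟩
    rw [Sigma.smul_mk, MulAction.Quotient.smul_mk, smul_eq_mul, mul_one]
  · intro g i
    rw [Sigma.smul_mk, MulAction.Quotient.smul_mk, smul_eq_mul, mul_one, Sigma.mk.inj_iff,
      heq_eq_eq, QuotientGroup.eq]
    simp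

end Cfsg.Agent.P31
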