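/-
P31, chapter SE: no strongly embedded subgroup.
-/
import Cfsg.Agent.P31.Defs
import Cfsg.Agent.P29.SE
import Cfsg.Agent.H2.Four1
import Cfsg.Agent.H6.Burnside
import Cfsg.Agent.H3.RankOne

set_option autoImplicit false
set_option linter.unusedSectionVars false

namespace Cfsg.Agent.P31.S7

open Subgroup MulAction Cfsg Cfsg.Agent Cfsg.Agent.FT Cfsg.Agent.P6

universe u

variable {X : Type u} [Group X] [Finite X]

theorem primes (h : Or6 X) {L : Subgroup X} {r : ℕ} (hr : r.Prime) (hd : r ∣ 𝐨(L)) :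
    r = 2 ∨ r = 3 ∨ r = 5 := by
  obtain ⟨x, -, hx⟩ := exists_mem_orderOf_eq_prime hr hd
  have := h x
  rw [hx] at this
  interval_cases r <;> simp_all (config := {decide := true})

theorem no10 (h : Or6 X) {a y : X} (ha : Inv a) (hy : orderOf y = 5) (c : a * y = y * a) : False := by
  have := h.mul_le (a := a) (b := y) c (by rw [ha.orderOf_eq, hy]; norm_num)
  rw [ha.orderOf_eq, hy] at this; omega

theorem pow3 (m i : ℕ) (hm : 3 ≤ m) : 2 ^ m ≠ 3 ^ i + 1 := fun e => by
  obtain ⟨k, rfl⟩ := Nat.exists_eq_add_of_le hm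
  have : 3 ^ i % 8 = 1 ∨ 3 ^ i % 8 = 3 := by
    clear e
    induction i with
    | zero => simp
    | succ i ih => rw [pow_succ]; omega
  rw [pow_add] at e
  omega

theorem noE8 {N : Type u} [Group N] [Finite N] (h : A56 N) (e : P29.E8 (⊤ : Subgroup N)) : False := by
  obtain ⟨E, -, hE⟩ := e
  have d := card_subgroup_dvd_card E
  rcases h with ⟨⟨f⟩⟩ | ⟨⟨f⟩⟩
  · rw [hE.card, Nat.card_congr f.toEquiv, nat_card_alternatingGroup, Nat.card_fin] at d
    revert d; decide
  · have c : Nat.card N = 360 := by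
      rw [Nat.card_congr f.toEquiv, nat_card_alternatingGroup, Nat.card_fin]; rfl
    have sy : IsSyl 2 E ⊤ := ⟨le_top, hE.pgrp, fun k => by
      rw [relIndex_top_right] at k
      have := E.card_mul_index
      rw [hE.card, c] at this
      omega⟩
    let g : A6 := ⟨c[0, 1, 2, 3] * c[4, 5], by
      rw [Equiv.Perm.mem_alternatingGroup]; decide⟩
    have g4 : (f.symm g) ^ 2 ^ 2 = 1 := by
      rw [← map_pow, show g ^ 2 ^ 2 = 1 from Subtype.ext (by decide), map_one]
    obtain ⟨k, -, hk⟩ := sy.exists_conj_le Nat.prime_two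
      (show IsPGroup 2 (zpowers (f.symm g)) from
        (Nat.dvd_prime_pow Nat.prime_two).1 (orderOf_dvd_of_pow_eq_one g4) |>.elim fun _ k =>
          H8.isPGroup_zpowers_of_orderOf k.2) le_top
    have := hE.1.2 _ (hk (conj_mem_conj (mem_zpowers _) k))
    rw [conj_pow, conj_eq_one_iff, ← map_pow, map_eq_one_iff _ f.symm.injective] at this
    exact absurd (congrArg Subtype.val this) (by decide)

theorem solv (h : Or6 X) {A D : Subgroup X} (nA : A.Normal) (eA : IsElementaryAbelian 2 A)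
    (h8 : 8 ≤ 𝐨(A)) (hD : Odd 𝐨(D)) (tr : ∀ a b : X, Inv a → Inv b → ∃ d ∈ D, d * a * d⁻¹ = b) :
    False := by
  haveI := Fact.mk Nat.prime_three
  have p5 : Nat.Prime 5 := by norm_num
  haveI := Fact.mk p5
  have pA := L.IsElementaryAbelian.isPGroup eA
  have nn : ∀ K : Subgroup X, K ≤ 𝐍(A) := fun K => by rw [normalizer_eq_top]; exact le_top
  obtain ⟨a, ha, a1⟩ := (bot_or_exists_ne_one A).resolve_left fun e => by
    rw [e, card_bot] at h8; omega
  have iv : ∀ b ∈ A, b ≠ 1 → Inv b := fun b hb b1 => ⟨b1, by rw [← pow_two]; exact eA.2 b hb⟩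
  have cl : 𝐨(A) = 𝐂[a].relIndex D + 1 := by
    rw [← ncard_class, show {c | ∃ y ∈ D, y * a * y⁻¹ = c} = (A : Set X) \ {1} from Set.ext fun c =>
      ⟨fun ⟨y, _, e⟩ => e ▸ ⟨nA.conj_mem a ha y, ((iv a ha a1).conj y).ne⟩,
        fun hc => tr a c (iv a ha a1) (iv c hc.1 hc.2)⟩, Set.ncard_diff_singleton_add_one A.one_mem]
    rfl
  have fp : ∀ y : X, orderOf y = 5 → A ⊓ 𝐂[y] = ⊥ := fun y hy => eq_bot_iff.2 fun b hb => by
    by_contra b1
    exact no10 h (iv b hb.1 b1) hy (mem_cent1.1 hb.2).symm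
  obtain ⟨m, hm⟩ := exists_card_eq_pow Nat.prime_two pA
  obtain ⟨P, hP⟩ := exists_isSyl p5 D
  have cP : 𝐨(P) ∣ 5 := by
    by_cases c : IsCyclic P
    · obtain ⟨x, rfl⟩ := isCyclic_iff_zpowers.1 c
      obtain ⟨k, hk⟩ := exists_card_eq_pow p5 hP.pgrp
      have := h x
      rw [← Nat.card_zpowers, hk] at this
      rw [hk]
      rcases k with _ | _ | k
      · simp
      · simp
      · have : 5 ^ 2 ≤ 5 ^ (k + 1 + 1) := Nat.pow_le_pow_right (by norm_num) (by omega)
        omega
    · obtain ⟨E, -, -, e1, e2⟩ := H3.exists_elementary_sq_le_of_odd (by norm_num) hP.pgrp c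
      obtain ⟨e, -, o, k⟩ := H2.Four.ex_fix Nat.prime_two p5 (by norm_num) pA
        (fun e => by rw [e, card_bot] at h8; omega) e1
        (H3.not_isCyclic_of_isElementaryAbelian p5 e1 (by rw [e2]; norm_num)) (nn E)
      exact (k (fp e o)).elim
  obtain ⟨R'⟩ : Nonempty (Sylow 3 D) := inferInstance
  have hR := isSyl_map_subtype Nat.prime_three R'
  have iR : R'.index ∣ 5 := by
    obtain ⟨k, hk⟩ : ∃ k, R'.index = 5 ^ k := ⟨_, Nat.eq_prime_pow_of_unique_prime_dvd
      index_ne_zero_of_finite fun {r} hr hd => by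
        have hd' := hd.trans (index_dvd_card _)
        rcases primes h hr hd' with rfl | rfl | rfl
        · exact absurd (even_iff_two_dvd.2 hd') (Nat.not_even_iff_odd.2 hD)
        · exact absurd hd R'.not_dvd_index
        · rfl⟩
    refine Dvd.dvd.trans ?_ cP
    rw [hk, hP.card_eq_pow_factorization p5]
    exact pow_dvd_pow 5 ((p5.pow_dvd_iff_le_factorization Nat.card_pos.ne').1 (hk ▸ index_dvd_card _))
  rcases (Nat.dvd_prime p5).1 iR with e | e
  · have hD3 : IsPGroup 3 D := by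
      have := R'.isPGroup'
      rw [index_eq_one.1 e] at this
      exact this.of_equiv topEquiv
    obtain ⟨i, hi⟩ := hD3.index (𝐂[a].subgroupOf D)
    refine pow3 m i ?_ (by rw [← hm, cl, relIndex, hi])
    by_contra c
    have : 2 ^ m ≤ 2 ^ 2 := Nat.pow_le_pow_right (by norm_num) (by omega)
    omega
  · have c1 : Nat.card (Sylow 3 D) = 1 := by
      have h1 := card_sylow_modEq_one 3 D
      have h2 := R'.card_dvd_index
      rw [e] at h2
      rcases (Nat.dvd_prime p5).1 h2 with k | k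
      · exact k
      · rw [k] at h1; exact absurd h1 (by decide)
    haveI := (Nat.card_eq_one_iff_unique.1 c1).1
    haveI := R'.normal_of_subsingleton
    obtain ⟨y, hy, oy⟩ := exists_mem_orderOf_eq_prime p5 (H := D) (e ▸ index_dvd_card _)
    have le := H2.Four.frob_prime (p := 2) (q := 3) (r := 5)
      ⟨Nat.prime_two, Nat.prime_three, p5, by norm_num, by norm_num, by norm_num⟩ pA hR.pgrp oy
      (H2.le_normalizer_map_subtype _ hy) (eq_bot_iff.2 fun b hb => by
        by_contra b1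
        obtain ⟨k, hk⟩ := H8.exists_orderOf_eq_pow_of_mem hR.pgrp hb.1
        have := h.mul_le (a := y) (b := b) (mem_cent1.1 hb.2) (by
          rw [oy, hk]; exact Nat.Coprime.pow_right k (by norm_num))
        rw [oy] at this
        exact b1 (orderOf_eq_one_iff.1 (by have := orderOf_pos b; omega)))
      (nn _) (nn ⊤ trivial) (by rw [fp y oy]; exact bot_le)
    have : 𝐂[a].relIndex D ∣ 5 := by
      rw [← e]
      exact index_dvd_of_le fun r hr => (cent_le_cent1 ha) (le (mem_map_of_mem D.subtype hr))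
    have := Nat.le_of_dvd (by norm_num) this
    omega

theorem core (h : Or6 X) (ki : KI.{u} (Nat.card X + 1)) (o1 : P29.O1 X)
    (h8 : P29.E8 (⊤ : Subgroup X)) {D : Subgroup X} (hD : Odd 𝐨(D))
    (tr : ∀ a b : X, Inv a → Inv b → ∃ d ∈ D, d * a * d⁻¹ = b) : False := by
  obtain ⟨E, -, hE⟩ := h8
  obtain ⟨a0, -, i0⟩ := P29.E8.exists_inv ⟨E, le_rfl, hE⟩
  haveI : Nontrivial X := ⟨a0, 1, i0.ne⟩
  obtain ⟨N, hN⟩ := L.exists_isMinNormal (G := X)
  haveI := hN.1
  obtain ⟨a, ha, ia⟩ := exists_inv_of_even fun k => hN.2.1 (o1 N hN.1 k)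
  have EN : E ≤ N := fun b hb => by
    by_cases b1 : b = 1
    · rw [b1]; exact one_mem _
    obtain ⟨d, -, e⟩ := tr a b ia ⟨b1, by rw [← pow_two]; exact hE.1.2 b hb⟩
    exact e ▸ hN.1.conj_mem a ha d
  by_cases hs : Group.IsSolvable N
  · obtain ⟨p, hp, e⟩ := hN.exists_isElementaryAbelian
    have : p = 2 := by
      have := orderOf_dvd_of_pow_eq_one (e.2 a ha)
      rw [ia.orderOf_eq] at this
      exact ((Nat.prime_dvd_prime_iff_eq Nat.prime_two hp).1 this).symm
    subst this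
    exact solv h hN.1 e (by have := card_le_of_le EN; rwa [hE.card] at this) hD tr
  haveI : Nontrivial N := (nontrivial_iff_ne_bot N).2 hN.2.1
  have hN6 : Or6 N := h.of_injective N.subtype N.subtype_injective
  have key : ∀ K : Subgroup N, L.IsMinNormal K → K = ⊤ := fun K hK => by
    have ns : ¬ Group.IsSolvable K := fun k => by
      obtain ⟨p, hp, e⟩ := hK.exists_isPGroup
      haveI := L.pCore_characteristic (G := N) hp
      rcases hN.2.2 ((pCore p N).map N.subtype) inferInstance (map_subtype_le _) with e2 | e2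
      · rw [map_eq_bot_iff_of_injective _ N.subtype_injective] at e2
        exact hK.2.1 (eq_bot_iff.2 (e2 ▸ L.le_pCore hK.1 e))
      · exact hs (isSolvable_of_isNilpotent (isNilpotent_of_isPGroup hp
          (e2 ▸ (L.isPGroup_pCore p).map N.subtype)))
    obtain ⟨y, hy, oy⟩ := exists_mem_orderOf_eq_prime (p := 5) (H := K) (by norm_num) (by
      by_contra c
      refine ns (H6.isSolvable_of_primes_two 2 3 fun r hr hd => ?_)
      rcases primes hN6 hr hd with e | e | e
      · exact Or.inl e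
      · exact Or.inr e
      · exact (c (e ▸ hd)).elim)
    obtain ⟨b, hb, ib⟩ := exists_inv_of_even fun k => ns (P4.solvable_of_odd k)
    have nK : (K.map N.subtype).Normal := ⟨by
      rintro _ ⟨x, hx, rfl⟩ g
      let φ : N ≃* N := MulAut.conjNormal g
      haveI := hK.1
      haveI : (K.map (φ : N →* N)).Normal := hK.1.map _ φ.surjective
      rcases hK.inf_eq_bot_or_le (K.map (φ : N →* N)) with e | e
      · refine (no10 hN6 (a := φ b) ⟨fun k => ib.ne (φ.map_eq_one_iff.1 k), by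
          rw [← map_mul, ib.sq, map_one]⟩ oy ?_).elim
        exact (commute_of_normal_of_disjoint K (K.map (φ : N →* N)) inferInstance inferInstance
          (disjoint_iff.2 e) y (φ b) hy (mem_map_of_mem _ hb)).eq.symm
      · have := H1.eq_of_le_of_card_le e (card_map_of_injective φ.injective).le
        exact ⟨φ x, this ▸ mem_map_of_mem (φ : N →* N) hx, rfl⟩⟩
    rcases hN.2.2 _ nK (map_subtype_le _) with e | e
    · exact (hK.2.1 ((map_eq_bot_iff_of_injective _ N.subtype_injective).1 e)).elim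
    · exact eq_top_iff.2 fun x _ => (mem_map_iff_mem N.subtype_injective).1 (e.symm ▸ x.2)
  refine noE8 (ki N (Nat.lt_succ_of_le (card_le_card_group N)) hN6 ⟨fun K hK => ?_⟩
    fun c => hs (isSolvable_of_comm fun a b => c.is_comm.comm a b)) (P29.E8.sub ⟨E, EN, hE⟩)
  by_cases e : K = ⊥
  · exact Or.inl e
  · obtain ⟨K', h1, h2⟩ := L.exists_isMinNormal_le K e
    exact Or.inr (eq_top_iff.2 (key K' h1 ▸ h2))

theorem _root_.Cfsg.Agent.P31.seStmt : SEStmt.{u} := by
  rintro X _ _ h ki - - h8 ⟨M, hM, se⟩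
  obtain ⟨E, -, hE⟩ := h8
  obtain ⟨z, hz, iz⟩ := P29.E8.exists_inv ⟨E, le_rfl, hE⟩
  obtain ⟨α, hα⟩ := se.ex iz
  have hSH : E ≤ stabilizer X α := fun x hx =>
    se.cent1_le iz hα (mem_cent1.2 (mem_cent.1 (hE.le_cent hx) z hz))
  obtain ⟨β, hβ⟩ : ∃ β : X ⧸ M, α ≠ β := by
    by_contra hc
    push Not at hc
    exact hM (eq_top_iff.2 fun x _ => by
      simpa using QuotientGroup.eq.1 ((hc ((1 : X) : X ⧸ M)).symm.trans (hc (x : X ⧸ M))))
  obtain ⟨g, rfl⟩ := exists_smul_eq X α β
  set H := stabilizer X α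
  have hH : H ≠ ⊤ := fun e => hβ (mem_stabilizer_iff.1 (e ▸ mem_top g : g ∈ H)).symm
  let f := QuotientGroup.mk' (pPrimeCore 2 H)
  have hf : Function.Surjective f := QuotientGroup.mk'_surjective _
  have ho : Odd 𝐨(f.ker) := by
    rw [QuotientGroup.ker_mk']; exact Nat.coprime_two_right.1 (L.coprime_card_pPrimeCore 2)
  refine core (X := H ⧸ pPrimeCore 2 H)
    (Or6.of_surjective (G := H) (h.of_injective H.subtype H.subtype_injective) f hf)
    (ki.mono (lt_of_le_of_lt (Nat.card_le_card_of_surjective f hf) (L.card_lt_of_ne_top hH)))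
    (fun N hN hN' => eq_bot_iff.2 (L.pPrimeCore_quotient_pPrimeCore (G := H) Nat.prime_two ▸
      L.le_pPrimeCore hN (Nat.coprime_two_right.2 hN')))
    ((P29.E8.sub ⟨E, hSH, hE⟩).map ho) (D := ((St2 X α (g • α)).subgroupOf H).map f)
    (Odd.of_dvd_nat (se.odd_St2 hβ) ((card_map_dvd _ f).trans
      (card_comap_dvd_of_injective _ _ H.subtype_injective))) fun c d ic jd => ?_
  obtain ⟨c, ic', rfl⟩ := P29.lift_inv hf ho ic
  obtain ⟨d, jd', rfl⟩ := P29.lift_inv hf ho jd
  obtain ⟨k, hk, e⟩ := se.exists_conj_St2 (N := ⊤)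
    (P29.map_inv_of_odd (f := H.subtype) (by simp) ic')
    (P29.map_inv_of_odd (f := H.subtype) (by simp) jd')
    c.2 d.2 hβ trivial trivial ⟨_, trivial, iz.conj g, conj_fix hα⟩
  refine ⟨f ⟨k, hk.2.1⟩, ⟨_, hk.2, rfl⟩, ?_⟩
  rw [← map_inv, ← map_mul, ← map_mul]
  exact congrArg f (Subtype.ext e)

end Cfsg.Agent.P31.S7
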