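/-
P31: the signalizer functor `O(C(t))`, and characteristic 2 type.
-/
import Cfsg.Agent.P31.Defs
import Cfsg.Agent.P29.R3
import Cfsg.Agent.H6.Burnside

set_option autoImplicit false
set_option linter.unusedSectionVars false

namespace Cfsg.Agent.P31

open Subgroup Cfsg Cfsg.Agent Cfsg.Agent.FT Cfsg.Agent.P6 Cfsg.Agent.H2.ZC Cfsg.Agent.P29
open scoped commutatorElement

universe u

namespace SG

variable {X : Type u} [Group X] [Finite X]

theorem cube (h : Or6 X) {s r : X} (is : Inv s) (c : r ∈ 𝐂[s]) (o : Odd (orderOf r)) :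
    r ^ 3 = 1 := by
  have e : orderOf s = 2 := orderOf_eq_prime (by rw [pow_two, is.sq]) is.ne
  have a := h.mul_le (mem_cent1_iff_commute.1 c) (by rw [e]; exact Nat.coprime_two_left.2 o)
  obtain ⟨k, hk⟩ := o
  rw [e, hk] at a
  refine orderOf_dvd_iff_pow_eq_one.1 ?_
  rw [hk]
  obtain rfl | rfl : k = 0 ∨ k = 1 := by omega
  all_goals norm_num

theorem csolv (h : Or6 X) : CSolv X := fun t h1 h2 =>
  H6.isSolvable_of_primes_two 2 3 fun r hr hd => or_iff_not_imp_left.2 fun r2 => by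
    obtain ⟨x, hx, e⟩ := exists_mem_orderOf_eq_prime hr hd
    exact (Nat.prime_dvd_prime_iff_eq hr Nat.prime_three).1 (e ▸ orderOf_dvd_of_pow_eq_one
      (cube h ⟨h1, by rw [← pow_two, h2]⟩ hx (e ▸ hr.odd_of_ne_two r2)))

theorem mem_core (hc : 𝐂(pCore 2 X) ≤ pCore 2 X) {s u : X} (sc : s ∈ center X) (ss : s ^ 2 = 1)
    (h : ∀ q ∈ pCore 2 X, ⁅q, u⁆ ∈ zpowers s) : u ∈ pCore 2 X := by
  have nz : (⊤ : Subgroup X) ≤ 𝐍(zpowers s) := fun g _ => cent_le_norm _ (by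
    rw [cent_zpowers]; exact mem_cent1.2 (mem_center_iff.1 sc g).symm)
  refine L.le_pCore (N := centMod (pCore 2 X) (zpowers s)) (normal_iff_top_le.2
    (norm_le_norm_centMod le_normalizer_of_normal nz)) (fun g => ?_) (mem_centMod.2 ⟨nz trivial, h⟩)
  have a : (g : X) * g ∈ pCore 2 X := hc (mem_cent.2 fun q hq => by
    have b := (mem_centMod.1 g.2).2 q hq
    have b1 := mem_center_iff.1 (zpowers_le.2 sc b) g
    have b2 : ⁅q, (g : X)⁆ * ⁅q, (g : X)⁆ = 1 := by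
      rcases eq_or_eq_of_mem_zpowers ss b with e | e <;> rw [e]
      exacts [one_mul 1, by rw [← pow_two, ss]]
    calc _ = ⁅q, (g : X)⁆ * (g * ⁅q, (g : X)⁆) * g * q := by
          simp only [commutatorElement_def]; group
      _ = _ := by rw [b1, ← mul_assoc, b2, one_mul])
  obtain ⟨k, e⟩ := L.isPGroup_pCore 2 ⟨_, a⟩
  have e' : ((g : X) * g) ^ 2 ^ k = 1 := congrArg Subtype.val e
  exact ⟨k + 1, by rw [pow_succ', pow_mul, pow_two]; exact Subtype.ext e'⟩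

theorem mem_L (h : Or6 X) {R : Subgroup X} {s u : X} (is : Inv s) (hR : IsSyl 2 R 𝐂[s])
    (hu : u ∈ R) (c : ∀ q ∈ R, ⁅q, u⁆ ∈ zpowers s) : u ∈ pPrimePCoreOf 2 𝐂[s] := by
  have s2 : s ^ 2 = 1 := by rw [pow_two, is.sq]
  have := csolv h s is.ne s2
  have hn := pPrimePCoreOf_normal 2 𝐂[s]
  have e2 := pPrimePCoreOf_eq_sup Nat.prime_two (hR.inf_normal Nat.prime_two hn)
  refine ⟨⟨u, hR.le hu⟩, mem_core (L.centralizer_pCore_le Nat.prime_two
    (L.isPSolvable_of_isSolvable Nat.prime_two) (L.pPrimeCore_quotient_pPrimeCore Nat.prime_two))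
    (s := QuotientGroup.mk' _ ⟨s, self_mem_cent1 s⟩) (mem_center_iff.2 fun g => ?_)
    (by rw [← map_pow, show (⟨s, self_mem_cent1 s⟩ : 𝐂[s]) ^ 2 = 1 from Subtype.ext s2, map_one])
    fun q hq => ?_, rfl⟩
  · obtain ⟨g, rfl⟩ := QuotientGroup.mk'_surjective _ g
    rw [← map_mul, ← map_mul]
    exact congrArg _ (Subtype.ext (mem_cent1.1 g.2).symm)
  obtain ⟨q, rfl⟩ := QuotientGroup.mk'_surjective _ q
  obtain ⟨_, ⟨o, ho, rfl⟩, r, hr, e⟩ := (mem_sup_of_norm ((inf_le_left.trans hR.le).trans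
    (pPrimeCoreOf_normal 2 _).2)).1 (e2.ge ⟨q, hq, rfl⟩)
  obtain ⟨k, hk⟩ := c r hr.1
  rw [show q = o * ⟨r, hR.le hr.1⟩ from Subtype.ext e.symm, map_mul,
    show QuotientGroup.mk' _ o = 1 from (QuotientGroup.eq_one_iff o).2 ho, one_mul,
    ← map_commutatorElement]
  exact ⟨k, by
    show _ ^ k = _
    rw [← map_zpow]; exact congrArg _ (Subtype.ext hk)⟩

theorem trick {a b c s : X} (sa : a * s = s * a) (sb : b * s = s * b) (sc : c * s = s * c)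
    (ss : s * s = 1) (aa : a * a = 1) (bb : b * b = 1) (cc : c * c = 1) (ba : b * a = s * (a * b))
    (cb : c * b = s * (b * c)) (ac : a * c = s * (c * a)) :
    b * c * a = a * b * c ∧ a * b * c * (a * b * c) = s := by
  have ca : c * a = s * (a * c) := by rw [ac, ← mul_assoc, ss, one_mul]
  have f : ∀ {p q r : X}, p * q = r → ∀ x, p * (q * x) = r * x := fun e x => by
    rw [← mul_assoc, e]
  constructor <;> simp only [mul_assoc, f sa, f sb, f sc, f ss, f aa, f bb, f cc, f ba, f cb, f ca,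
    ca, aa, bb, cc, one_mul, mul_one]

theorem norm_wc {U : Subgroup X} {g : X} (h : g ∈ 𝐍(U)) : g ∈ 𝐍(wc U) :=
  conj_eq_self_iff.1 (by rw [← wc_conj, conj_eq_of_mem_norm h])

theorem exists_u {R U : Subgroup X} {s : X} (is : Inv s) (hR : IsPGroup 2 R) (l : R ≤ 𝐂[s])
    (hU : U ⊲ R) (h4 : IsElem 2 2 U) :
    ∃ u ∈ U, Inv u ∧ u ≠ s ∧ ∀ q ∈ R, ⁅q, u⁆ ∈ zpowers s := by
  obtain ⟨z, zU, iz, hz⟩ := exists_inv_center hR hU h4
  by_cases e : z = s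
  · subst e
    have z2 : z ^ 2 = 1 := by rw [pow_two, iz.sq]
    obtain ⟨u, uU, hu⟩ : ∃ u ∈ U, u ∉ zpowers z := by
      by_contra! c
      have := card_le_of_le (show U ≤ zpowers z from c)
      rw [h4.card, Nat.card_zpowers, orderOf_eq_prime z2 iz.ne] at this
      omega
    have iu : Inv u := ⟨fun e => hu (e ▸ one_mem _), sq_of_elem h4 uU⟩
    have ne : u ≠ z := fun e => hu (e ▸ mem_zpowers _)
    have u2 : u ^ 2 = 1 := by rw [pow_two, iu.sq]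
    have h5 := isElem_two iz.ne z2 iu.ne u2 ne (hz (hU.1 uU))
    have e := eq_of_le_of_card_ge (sup_le (zpowers_le.2 zU) (zpowers_le.2 uU))
      (h4.card.trans h5.card.symm).le
    refine ⟨u, uU, iu, ne, fun q hq => ?_⟩
    have n : R ≤ 𝐍(zpowers z) := hz.trans (by rw [← cent_zpowers]; exact cent_le_norm _)
    obtain ⟨a, ha, b, hb, e'⟩ := (mem_sup_of_norm (zpowers_le.2 (n (hU.1 uU)))).1
      (e.ge ((mem_normalizer_iff.1 (hU.2 hq) u).1 uU))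
    rcases eq_or_eq_of_mem_zpowers u2 hb with rfl | rfl
    · exact absurd ((mem_normalizer_iff.1 (n hq) u).2 (by rw [← e', mul_one]; exact ha)) hu
    · rw [commutatorElement_def, ← e', mul_inv_cancel_right]; exact ha
  · exact ⟨z, zU, iz, e, fun q hq => by
      rw [commutatorElement_eq_one_iff_mul_comm.2 (mem_cent1.1 (hz hq)).symm]; exact one_mem _⟩

theorem cent_le (h : Or6 X) {R E : Subgroup X} {s : X} (is : Inv s) (hR : IsSyl 2 R 𝐂[s])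
    (hE : IsElem 2 3 E) (l : E ≤ R) : 𝐂[s] ≤ 𝐍(wc E) := by
  have hC := csolv h
  have s2 : s ^ 2 = 1 := by rw [pow_two, is.sq]
  obtain ⟨U, hU, h4⟩ := exists_U hR.pgrp ⟨E, l, hE⟩
  obtain ⟨u, uU, iu, ne, hu⟩ := exists_u is hR.pgrp hR.le hU h4
  have uR := hU.1 uU
  have h5 := isElem_two is.ne s2 iu.ne (by rw [pow_two, iu.sq]) ne (hR.le uR)
  have e1 := wc_eq_U hC hR.pgrp hU h4 hE l
  have e2 := hC.wc_eq_of_cent h5 h4 (sup_le (zpowers_le.2 (mem_cent_iff_cent1.2 (hU.1.trans hR.le)))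
    (zpowers_le.2 (h4.le_cent uU)))
  have RM : R ≤ 𝐍(wc E) := fun g hg => e1 ▸ norm_wc (hU.2 hg)
  have hn := pPrimePCoreOf_normal 2 𝐂[s]
  have hP := hR.inf_normal Nat.prime_two hn
  have uQ : u ∈ R ⊓ pPrimePCoreOf 2 𝐂[s] := ⟨uR, mem_L h is hR uR hu⟩
  rw [← hP.frattini Nat.prime_two hn, ← pPrimePCoreOf_eq_sup Nat.prime_two hP]
  refine sup_le (sup_le ((oc_le_wc8 hC hE is (l.trans hR.le)).trans (le_norm_self _))
    (inf_le_left.trans RM)) ?_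
  rw [pPrimePCoreOf_eq_sup Nat.prime_two hP]
  refine le_of_forall_exists_isSyl_le fun p hp _ => ?_
  by_cases p2 : p = 2
  · subst p2
    exact ⟨R, hR.of_le (le_inf hR.le (by
      rw [inf_comm]; exact (inf_normal hn hR.le).2)) inf_le_left, RM⟩
  obtain ⟨P, hP⟩ := exists_isSyl hp (𝐂[s] ⊓ 𝐍(R ⊓ pPrimePCoreOf 2 𝐂[s]))
  refine ⟨P, hP, fun r hr => ?_⟩
  obtain ⟨rs, rn⟩ := hP.le hr
  have r3 := cube h is rs (odd_orderOf_of_mem (odd_of_isPGroup hp p2 hP.pgrp) hr)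
  have bQ := (mem_normalizer_iff.1 rn u).1 uQ
  have rs' := mem_cent1_iff_conj.1 rs
  rcases eq_or_eq_of_mem_zpowers s2 (hu _ bQ.1) with e | e
  · rw [e1, ← e2, ← conj_eq_self_iff, ← wc_conj]
    refine hC.wc_eq_of_cent (h5.conj r) h5 ?_
    rw [conj_sup, ← zpowers_conj, ← zpowers_conj, rs', cent_sup, cent_zpowers, cent_zpowers]
    exact sup_le (zpowers_le.2 ⟨self_mem_cent1 s, mem_cent1_comm.1 (hR.le uR)⟩) (zpowers_le.2
      ⟨hR.le bQ.1, mem_cent1.2 (commutatorElement_eq_one_iff_mul_comm.1 e).symm⟩)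
  exfalso
  have cQ := (mem_normalizer_iff.1 rn _).1 bQ
  have e3 : r * (r * (r * u * r⁻¹) * r⁻¹) * r⁻¹ = u := by
    calc _ = r * r * r * u * (r * r * r)⁻¹ := by group
      _ = _ := by rw [← pow_three', r3]; group
  have ba : r * u * r⁻¹ * u = s * (u * (r * u * r⁻¹)) := by
    rw [← e, commutatorElement_def]; group
  have cj : ∀ {a b : X}, b * a = s * (a * b) →
      r * b * r⁻¹ * (r * a * r⁻¹) = s * (r * a * r⁻¹ * (r * b * r⁻¹)) := fun {a b} e => by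
    calc _ = r * (b * a) * r⁻¹ := by group
      _ = r * s * r⁻¹ * (r * a * r⁻¹ * (r * b * r⁻¹)) := by rw [e]; group
      _ = _ := by rw [rs']
  have ac := cj (cj ba)
  rw [e3] at ac
  obtain ⟨t1, t2⟩ := trick (mem_cent1.1 (hR.le uR)).symm (mem_cent1.1 (hR.le bQ.1)).symm
    (mem_cent1.1 (hR.le cQ.1)).symm is.sq iu.sq (iu.conj r).sq ((iu.conj r).conj r).sq ba (cj ba) ac
  have r1 : r ≠ 1 := fun e' => is.ne (by rw [← e, e']; simp)
  have := Fact.mk Nat.prime_three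
  have cw : r * (u * (r * u * r⁻¹) * (r * (r * u * r⁻¹) * r⁻¹)) * r⁻¹ =
      u * (r * u * r⁻¹) * (r * (r * u * r⁻¹) * r⁻¹) := by
    calc _ = r * u * r⁻¹ * (r * (r * u * r⁻¹) * r⁻¹) * (r * (r * (r * u * r⁻¹) * r⁻¹) * r⁻¹) := by
          group
      _ = _ := by rw [e3, t1]
  generalize u * (r * u * r⁻¹) * (r * (r * u * r⁻¹) * r⁻¹) = w at t2 cw
  have o4 : orderOf w = 2 ^ 2 := orderOf_eq_prime_pow (p := 2) (n := 1)
    (by rw [pow_one, pow_two, t2]; exact is.ne)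
    (by rw [show 2 ^ (1 + 1) = 2 * 2 from rfl, pow_mul, pow_two w, t2, s2])
  have := h.mul_le (show Commute r w from mul_inv_eq_iff_eq_mul.1 cw)
    (by rw [o4, orderOf_eq_prime r3 r1]; norm_num)
  rw [o4, orderOf_eq_prime r3 r1] at this
  omega

end SG

open SG

theorem c2Stmt : C2Stmt.{u} := fun G _ _ h6 _ _ _ h T hT1 pT => by
  have hC := csolv h6
  obtain ⟨t, ht, ht2⟩ := exists_mem_orderOf_eq_prime Nat.prime_two (prime_dvd_card_of_isPGroup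
    Nat.prime_two (pT.to_le (inf_le_left : 𝐙(T) ≤ T))
    (center_ne_bot (isNilpotent_of_isPGroup Nat.prime_two pT) hT1))
  have t2 : t ^ 2 = 1 := ht2 ▸ pow_orderOf_eq_one t
  have t1 : t ≠ 1 := by rintro rfl; simp at ht2
  obtain ⟨C, hCd⟩ : ∃ C, C = 𝐂(O2 𝐍(T)) := ⟨_, rfl⟩
  have hCT : C ≤ 𝐂(T) := hCd ▸ cent_anti (le_pCoreOf ⟨le_normalizer, le_rfl⟩ pT)
  have hCt : C ≤ 𝐂[t] := hCT.trans (cent_le_cent1 (mem_inf.1 ht).1)
  have hNC : 𝐍(T) ≤ 𝐍(C) := hCd ▸ H1.le_normalizer_centralizer (pCoreOf_normal 2 _).2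
  have h1 : H2.pPrimeCoreOf 2 C = ⊥ := by
    rw [eq_bot_iff, ← h t ⟨t1, by rw [← pow_two, t2]⟩]
    exact H2.le_pPrimeCoreOf_of_centralizer (hC t t1 t2) (mem_cent_iff_cent1.1 (mem_inf.1 ht).2) pT
      ((H2.pPrimeCoreOf_le 2 C).trans hCt) (H2.coprime_card_pPrimeCoreOf 2 C)
      ((H2.pPrimeCoreOf_le 2 C).trans hCT) ((inf_le_right.trans (cent_le_norm T)).trans
        (hNC.trans (H2.normalizer_le_normalizer_pPrimeCoreOf 2 C)))
  have h2 := cent_pCoreOf_le Nat.prime_two (H1.isSolvable_of_le hCt (hC t t1 t2)) h1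
  have h3 : pCoreOf 2 C ≤ O2 𝐍(T) := le_pCoreOf ⟨(H2.pCoreOf_le 2 C).trans
    (hCT.trans (cent_le_norm T)), hNC.trans (H2.normalizer_le_normalizer_pCoreOf 2 C)⟩
    (H2.isPGroup_pCoreOf 2 C)
  rw [← hCd]
  exact (le_inf le_rfl (hCd.le.trans (cent_anti h3))).trans (h2.trans h3)

theorem sgStmt : SGStmt.{u} := fun X _ _ h _ hs hc h8 => by
  have hC := csolv h
  have ht := ttStmt X hs hc h8
  obtain ⟨S, hS⟩ := exists_isSyl Nat.prime_two (⊤ : Subgroup X)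
  obtain ⟨E, hl, hE⟩ := h8.syl hS
  obtain ⟨U, hU, h4⟩ := exists_U hS.pgrp ⟨E, hl, hE⟩
  obtain ⟨z, zU, iz, hz⟩ := exists_inv_center hS.pgrp hU h4
  have nS : ∀ R ≤ S, E8 R → 𝐍(R) ≤ 𝐍(wc E) := fun R l ⟨A, a1, a2⟩ g hg => by
    rw [← conj_eq_self_iff]
    conv_lhs => rw [wc_eq_syl hC hS.pgrp hE hl a2 (a1.trans l), ← wc_conj]
    exact wc_eq_syl hC hS.pgrp (a2.conj g) ((conj_le_of_mem_norm a1 hg).trans l) hE hl
  have SM : S ≤ 𝐍(wc E) := (le_norm_self S).trans (nS S le_rfl ⟨E, hl, hE⟩)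
  have zM := cent_le h iz (hS.of_le hz le_top) hE hl
  have k1 : ∀ s ∈ S, Inv s → IsSyl 2 (S ⊓ 𝐂[s]) (𝐂[s] ⊓ 𝐍(wc E)) → 𝐂[s] ≤ 𝐍(wc E) := by
    intro s hs is hR
    have sy : 𝐂[s] ⊓ 𝐍(S ⊓ 𝐂[s]) ≤ 𝐍(wc E) → IsSyl 2 (S ⊓ 𝐂[s]) 𝐂[s] := fun e =>
      IsSyl.of_norm Nat.prime_two (hR.of_le (le_inf inf_le_right (le_norm_self _))
        (le_inf inf_le_left e))
    by_cases e8 : E8 (S ⊓ 𝐂[s])
    · obtain ⟨A, a1, a2⟩ := e8
      rw [wc_eq_syl hC hS.pgrp hE hl a2 (a1.trans inf_le_left)]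
      exact cent_le h is (sy (inf_le_right.trans (nS _ inf_le_left ⟨A, a1, a2⟩))) a2 a1
    exfalso
    refine e8 ((ht s is).syl (sy fun w hw => ?_))
    have sK : s ∉ 𝐂(U) := fun hc => e8 (e8_cent hS.pgrp hU h4 ⟨E, hl, hE⟩ hs hc is)
    have zK : z ∈ 𝐂(U) := h4.le_cent zU
    have ne : s ≠ z := fun e => sK (e ▸ zK)
    have zR : z ∈ S ⊓ 𝐂[s] := ⟨hU.1 zU, mem_cent1_comm.1 (hz hs)⟩
    have hΩ := om_of_not_e8 (H := S ⊓ 𝐂[s]) is iz ne ⟨hs, self_mem_cent1 s⟩ zR inf_le_right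
      (inf_le_left.trans hz) e8
    rcases hΩ _ ((mem_normalizer_iff.1 hw.2 z).1 zR) (iz.conj w).sq with e | e | e | e
    · exact absurd e (iz.conj w).ne
    · exact absurd (by simpa using (mem_cent1_iff_conj.1 hw.1).trans e.symm) ne
    · exact zM (mem_cent1_iff_conj.2 e)
    obtain ⟨x, hx⟩ := cyc_of_four hS.pgrp hs (card_le_four (hS.pgrp.to_le inf_le_left) hΩ
      (fun a ha => sq_mem_of_relIndex (relIndex_cent_le_two hS.pgrp h4 hU.2) ha.1) sK zK hw.2 e)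
    exact absurd ⟨E, hl, hE⟩ (no_e8_of_cyc hx)
  have k2 : ∀ s ∈ 𝐍(wc E), Inv s → 𝐂[s] ≤ 𝐍(wc E) := fun s hs is => by
    obtain ⟨R, hR, l⟩ := exists_isSyl_ge Nat.prime_two is.isPGroup
      (zpowers_le.2 (mem_inf.2 ⟨self_mem_cent1 s, hs⟩))
    obtain ⟨m, hm, l2⟩ := (hS.of_le SM le_top).exists_conj_le Nat.prime_two hR.pgrp
      (hR.le.trans inf_le_right)
    have a := hR.conj m
    rw [conj_inf, ← cent1_conj, conj_eq_of_mem hm] at a
    have b := k1 _ (l2 (conj_mem_conj (l (mem_zpowers s)) m)) (is.conj m) (by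
      rwa [a.eq_of_le Nat.prime_two (le_inf l2 (a.le.trans inf_le_left))
        (le_inf inf_le_right (inf_le_left.trans SM)) (hS.pgrp.to_le inf_le_left)])
    rwa [cent1_conj, ← conj_eq_of_mem hm, conj_le_conj_iff] at b
  by_cases hM : 𝐍(wc E) = ⊤
  · have e : wc E = ⊥ := (hs.eq_bot_or_eq_top_of_normal _ (normalizer_eq_top_iff.1 hM)).resolve_right
      fun e => iz.not_mem_of_odd (Nat.coprime_two_right.1 (hC.e8 hE).1) (e ▸ mem_top z)
    refine Or.inr fun t it => ?_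
    obtain ⟨A, a1, a2⟩ := ht t it
    obtain ⟨g, -, hg⟩ := hS.exists_conj_le Nat.prime_two a2.pgrp le_top
    have := wc_eq_syl hC hS.pgrp (a2.conj g) hg hE hl
    rw [e, wc_conj, conj_eq_bot_iff] at this
    exact eq_bot_iff.2 (this ▸ oc_le_wc8 hC a2 it a1)
  refine Or.inl ⟨_, hM, se_quot hS SM fun s hs is g hg => ?_⟩
  have a : g⁻¹ * z * g⁻¹⁻¹ ∈ 𝐍(wc E) := k2 s (SM hs) is (by
    have := conj_mem_conj (mem_cent1_comm.1 (hz hg)) g⁻¹
    rwa [cent1_conj, conj_conj_inv] at this)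
  have b : S ^ᵍ g⁻¹ ≤ 𝐍(wc E) := (conj_mono hz g⁻¹).trans
    ((cent1_conj z g⁻¹).ge.trans (k2 _ a (iz.conj _)))
  obtain ⟨m, hm, e⟩ := (hS.of_le SM le_top).exists_conj_eq Nat.prime_two
    ((hS.conj_of_mem_norm (le_norm_self ⊤ (mem_top g⁻¹))).of_le b le_top)
  rw [conj_conj, conj_eq_self_iff] at e
  exact inv_mem_iff.1 ((mul_mem_cancel_left hm).1 (nS S le_rfl ⟨E, hl, hE⟩ e))

end Cfsg.Agent.P31
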