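/-
P31: shapes of 2-locals without elements of order 5.
-/
import Cfsg.Agent.P31.Defs
import Cfsg.Agent.P31.FinB
import Cfsg.Agent.H4.Levi
import Cfsg.Agent.H7.Frattini
import Cfsg.Agent.H6.Burnside
import Cfsg.Agent.H5.Part1

set_option autoImplicit false
set_option linter.unusedSectionVars false
set_option linter.style.haveILetI false

namespace Cfsg.Agent.P31

namespace S3

open Subgroup Cfsg Cfsg.Agent Cfsg.Agent.FT Cfsg.Agent.P6
open scoped commutatorElement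

universe u

theorem pw {H : Type*} [Group H] {x : H} {m n : ℕ} (h1 : x ^ m = 1) (h2 : x ^ n = 1) :
    x ^ Nat.gcd m n = 1 :=
  orderOf_dvd_iff_pow_eq_one.1
    (Nat.dvd_gcd (orderOf_dvd_of_pow_eq_one h1) (orderOf_dvd_of_pow_eq_one h2))

theorem pp {H : Type*} [Group H] {p : ℕ} {P : Subgroup H} (hP : IsPGroup p P) {x : H}
    (hx : x ∈ P) : ∃ k, x ^ p ^ k = 1 := by
  obtain ⟨k, hk⟩ := hP ⟨x, hx⟩
  exact ⟨k, by simpa using congrArg Subtype.val hk⟩

theorem three {H : Type*} [Group H] {P : Subgroup H} (hP : IsPGroup 3 P) {x : H}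
    (hx : x ∈ P) (e : x ^ 12 = 1) : x ^ 3 = 1 := by
  obtain ⟨k, hk⟩ := pp hP hx
  have h1 : orderOf x ∣ 3 * 4 := orderOf_dvd_of_pow_eq_one e
  refine orderOf_dvd_iff_pow_eq_one.1 (Nat.Coprime.dvd_of_dvd_mul_right ?_ h1)
  exact Nat.Coprime.coprime_dvd_left (orderOf_dvd_of_pow_eq_one hk)
    (Nat.Coprime.pow_left k (by norm_num))

theorem two {H : Type*} [Group H] {P : Subgroup H} (hP : IsPGroup 2 P) {x : H}
    (hx : x ∈ P) (e : x ^ 6 = 1) : x ^ 2 = 1 := by
  obtain ⟨k, hk⟩ := pp hP hx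
  have h1 : orderOf x ∣ 2 * 3 := orderOf_dvd_of_pow_eq_one e
  refine orderOf_dvd_iff_pow_eq_one.1 (Nat.Coprime.dvd_of_dvd_mul_right ?_ h1)
  exact Nat.Coprime.coprime_dvd_left (orderOf_dvd_of_pow_eq_one hk)
    (Nat.Coprime.pow_left k (by norm_num))

theorem cent_core {H : Type u} [Group H] [Finite H] (e : ∀ x : H, x ^ 12 = 1) {p q : ℕ}
    (hp : p.Prime) (hpq : (p = 2 ∧ q = 3) ∨ (p = 3 ∧ q = 2)) (hb : pCore q H = ⊥) :
    𝐂(pCore p H) ≤ pCore p H := by
  have pr : ∀ r : ℕ, r.Prime → r ∣ 12 → r = 2 ∨ r = 3 := by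
    intro r hr h
    have := Nat.le_of_dvd (by norm_num) h
    have := hr.two_le
    interval_cases r <;> simp_all (config := {decide := true})
  have : Group.IsSolvable H := H6.isSolvable_of_primes_two 2 3 fun r hr hd => by
    haveI := Fact.mk hr
    obtain ⟨x, hx⟩ := exists_prime_orderOf_dvd_card' r hd
    exact pr r hr (hx ▸ orderOf_dvd_of_pow_eq_one (e x))
  have hF : fittingSubgroup H = pCore p H := by
    refine le_antisymm ?_ (L.pCore_le_fittingSubgroup hp)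
    rw [L.fittingSubgroup_eq_iSup_pCore]
    refine iSup_le fun r => ?_
    by_cases h1 : (r : ℕ) = p
    · rw [h1]
    by_cases h2 : (r : ℕ) = q
    · rw [h2, hb]; exact bot_le
    intro x hx
    obtain ⟨k, hk⟩ := pp (L.isPGroup_pCore (G := H) r) hx
    have : x = 1 := FB.one_of_cop hk (e x) (Nat.Coprime.pow_left k
      ((Nat.Prime.coprime_iff_not_dvd r.2).2 fun h => by
        rcases pr r r.2 h with h | h <;> omega))
    rw [this]; exact one_mem _
  have := L.centralizer_fittingSubgroup_le (G := H)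
  rwa [hF] at this

theorem frob {G : Type u} [Group G] [Finite G] {V : Subgroup G} [V.Normal]
    (hV : IsMulCommutative V) (h2 : IsPGroup 2 V) {s x : G} (N0 : ∀ v ∈ V, (v * s) ^ 4 = s ^ 4)
    (s4 : s ^ 4 = 1) (x3 : x ^ 3 = 1) (hc : ⁅x, s * x * s⁻¹⁆ ∈ 𝐂(V))
    (hi : s * (s * x * s⁻¹) * s⁻¹ * x ∈ 𝐂(V)) : x ∈ 𝐂(V) := by
  set π := QuotientGroup.mk' 𝐂(V) with hπ
  have ker : ∀ g, π g = 1 ↔ g ∈ 𝐂(V) := fun g => QuotientGroup.eq_one_iff g
  set c := π s with hcd
  set y := π x with hyd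
  have c4 : c ^ 4 = 1 := by rw [hcd, ← map_pow, s4, map_one]
  have y3 : y ^ 3 = 1 := by rw [hyd, ← map_pow, x3, map_one]
  have cm : Commute y (c * y * c⁻¹) := by
    have := (ker _).2 hc
    rw [map_commutatorElement, commutatorElement_eq_one_iff_commute] at this
    simpa using this
  have iv : c * (c * y * c⁻¹) * c⁻¹ = y⁻¹ := by
    have := (ker _).2 hi
    simp only [map_mul, map_inv] at this
    exact eq_inv_of_mul_eq_one_left this
  set K : Subgroup (G ⧸ 𝐂(V)) := closure {y, c * y * c⁻¹} with hK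
  have yK : y ∈ K := subset_closure (by simp)
  have zK : c * y * c⁻¹ ∈ K := subset_closure (by simp)
  have comm : ∀ a ∈ K, ∀ b ∈ K, a * b = b * a := by
    have h1 : K ≤ centralizer {y, c * y * c⁻¹} := by
      rw [hK, closure_le]
      rintro a (rfl | rfl) b (rfl | rfl)
      · rfl
      · exact cm.symm
      · exact cm
      · rfl
    intro a ha
    have h3 : K ≤ centralizer {a} := by
      rw [hK, closure_le]
      intro b hb
      rintro _ rfl
      exact (h1 ha b hb).symm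
    intro b hb
    exact h3 hb a rfl
  have nK : ∀ a ∈ K, c * a * c⁻¹ ∈ K := by
    intro a ha
    induction ha using closure_induction with
    | mem a h =>
      rcases h with rfl | rfl
      · exact zK
      · rw [iv]; exact inv_mem yK
    | one => simp
    | mul a b _ _ h1 h2 =>
      have : c * (a * b) * c⁻¹ = c * a * c⁻¹ * (c * b * c⁻¹) := by group
      rw [this]; exact mul_mem h1 h2
    | inv a _ h =>
      have : c * a⁻¹ * c⁻¹ = (c * a * c⁻¹)⁻¹ := by group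
      rw [this]; exact inv_mem h
  have iK : ∀ a ∈ K, c ^ 2 * a * (c ^ 2)⁻¹ = a⁻¹ ∧ a ^ 3 = 1 := by
    intro a ha
    induction ha using closure_induction with
    | mem a h =>
      rcases h with rfl | rfl
      · exact ⟨by rw [← iv]; simp only [pow_two]; group, y3⟩
      · refine ⟨?_, by rw [conj_pow, y3]; group⟩
        calc c ^ 2 * (c * y * c⁻¹) * (c ^ 2)⁻¹ = c * (c * (c * y * c⁻¹) * c⁻¹) * c⁻¹ := by
              simp only [pow_two]; group
          _ = _ := by rw [iv]; group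
    | one => simp
    | mul a b ha hb h1 h2 =>
      refine ⟨?_, by rw [Commute.mul_pow (comm a ha b hb), h1.2, h2.2, one_mul]⟩
      calc c ^ 2 * (a * b) * (c ^ 2)⁻¹ = c ^ 2 * a * (c ^ 2)⁻¹ * (c ^ 2 * b * (c ^ 2)⁻¹) := by group
        _ = _ := by rw [h1.1, h2.1, comm a ha b hb, mul_inv_rev]
    | inv a _ h =>
      refine ⟨?_, by rw [inv_pow, h.2, inv_one]⟩
      calc c ^ 2 * a⁻¹ * (c ^ 2)⁻¹ = (c ^ 2 * a * (c ^ 2)⁻¹)⁻¹ := by group
        _ = _ := by rw [h.1]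
  haveI : Fact (Nat.Prime 2) := ⟨Nat.prime_two⟩
  haveI : Fact (Nat.Prime 3) := ⟨Nat.prime_three⟩
  have K3 : IsPGroup 3 K := fun a => ⟨1, Subtype.ext (by simpa using (iK a a.2).2)⟩
  have fin := FB.hhg (K := K) (c := c) (g := s) (n := 4) hV (FB.act V) rfl (by norm_num)
    (mem_norm_of_conj_le fun a ha => by
      obtain ⟨b, hb, rfl⟩ := mem_conj'.1 ha
      exact nK b hb)
    (fun i h0 h4 k hk e => by
      have e1 : Commute (c ^ i) k := e
      have e2 : Commute (c ^ 2) k := by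
        interval_cases i
        · simpa using e1.pow_left 2
        · exact e1
        · have := e1.pow_left 2
          rwa [← pow_mul, show 3 * 2 = 4 + 2 from rfl, pow_add, c4, one_mul] at this
      have e3 := (iK k hk).1
      rw [e2.eq, mul_inv_cancel_right] at e3
      refine FB.one_of_cop (m := 2) (n := 3) ?_ (iK k hk).2 (by norm_num)
      rw [pow_two]; nth_rewrite 1 [e3]; exact inv_mul_cancel k)
    N0 (IsPGroup.coprime_card_of_ne 3 2 (by norm_num) K V K3 h2) yK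
  exact (ker x).1 (FB.act_inj V (fin.trans (map_one _).symm))

theorem n4 {X : Type u} [Group X] [Finite X] {O : Subgroup X} [O.Normal] (h2 : IsPGroup 2 O)
    {s x : X} (N0 : ∀ v ∈ O, (v * s) ^ 4 = 1) (x3 : x ^ 3 = 1) (hc : ⁅x, s * x * s⁻¹⁆ ∈ O)
    (hi : s * (s * x * s⁻¹) * s⁻¹ * x ∈ O) : x ∈ 𝐂(O) := by
  haveI : Fact (Nat.Prime 2) := ⟨Nat.prime_two⟩
  set F : Subgroup X := (frattini O).map O.subtype with hF
  haveI : F.Normal := ConjAct.normal_of_characteristic_of_normal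
  set π := QuotientGroup.mk' F with hπ
  have ker : ∀ g, π g = 1 ↔ g ∈ F := fun g => QuotientGroup.eq_one_iff g
  haveI : (O.map π).Normal := Normal.map inferInstance _ (QuotientGroup.mk'_surjective _)
  haveI := h2.isNilpotent
  have le : O.map π ≤ 𝐂(O.map π) := by
    rintro _ ⟨a, ha, rfl⟩
    refine mem_cent.2 ?_
    rintro _ ⟨b, hb, rfl⟩
    rw [← commutatorElement_eq_one_iff_mul_comm, ← map_commutatorElement, ker]
    exact ⟨⁅(⟨b, hb⟩ : O), ⟨a, ha⟩⁆, H7.commutator_le_frattini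
      (commutator_mem_commutator (mem_top _) (mem_top _)), rfl⟩
  have s4 : s ^ 4 = 1 := by simpa using N0 1 (one_mem O)
  have key := frob (V := O.map π) (isMulComm_iff_le_cent.2 le) (h2.map π) (s := π s) (x := π x)
    (by
      rintro _ ⟨v, hv, rfl⟩
      rw [← map_mul, ← map_pow, ← map_pow, N0 v hv, s4])
    (by rw [← map_pow, s4, map_one]) (by rw [← map_pow, x3, map_one])
    (le ⟨_, hc, by simp⟩) (le ⟨_, hi, by simp⟩)
  obtain ⟨k, hk⟩ := H7.exists_pow_eq_one_of_trivial_on_frattini_quotient h2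
    (MulAut.conjNormal x : MulAut O) fun g => by
      have h1 := mem_cent.1 key (π g) ⟨g, g.2, rfl⟩
      have h3 : π (x * g * x⁻¹ * (g : X)⁻¹) = 1 := by
        simp only [map_mul, map_inv]
        rw [← h1]; group
      obtain ⟨z, hz, e⟩ := (ker _).1 h3
      have : z = MulAut.conjNormal x g * g⁻¹ := Subtype.ext e
      exact this ▸ hz
  have h1 : (MulAut.conjNormal x : MulAut O) = 1 :=
    FB.one_of_cop hk (n := 3) (by rw [← map_pow, x3, map_one]) (Nat.Coprime.pow_left k (by norm_num))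
  refine mem_cent.2 fun v hv => ?_
  have : x * v * x⁻¹ = v := congrArg (fun α : MulAut O => (α ⟨v, hv⟩ : X)) h1
  exact (mul_inv_eq_iff_eq_mul.1 this).symm

/-- No element of order 4 modulo `O₂`. -/
theorem no4 {X : Type u} [Group X] [Finite X] (o6 : ∀ g : X, orderOf g ≤ 6)
    (e12 : ∀ g : X, g ^ 12 = 1) (hc : 𝐂(pCore 2 X) ≤ pCore 2 X) (h : X ⧸ pCore 2 X)
    (h4 : h ^ 4 = 1) : h ^ 2 = 1 := by
  by_contra h2
  haveI : Fact (Nat.Prime 2) := ⟨Nat.prime_two⟩
  haveI : Fact (Nat.Prime 3) := ⟨Nat.prime_three⟩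
  set π := QuotientGroup.mk' (pCore 2 X) with hπ
  have ker : ∀ g, π g = 1 ↔ g ∈ pCore 2 X := fun g => QuotientGroup.eq_one_iff g
  have sur : Function.Surjective π := QuotientGroup.mk'_surjective _
  have E : ∀ g : X ⧸ pCore 2 X, g ^ 12 = 1 := fun g => by
    obtain ⟨g, rfl⟩ := sur g
    rw [← map_pow, e12, map_one]
  set P := pCore 3 (X ⧸ pCore 2 X) with hP
  have cP : 𝐂(P) ≤ P := cent_core E Nat.prime_three (Or.inr ⟨rfl, rfl⟩)
    (L.pCore_quotient_pCore Nat.prime_two)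
  have P3 : ∀ p ∈ P, p ^ 3 = 1 := fun p hp => three (L.isPGroup_pCore 3) hp (E p)
  have nP : P.Normal := inferInstance
  have o4 : orderOf h = 4 := orderOf_eq_prime_pow (p := 2) (n := 1) (by simpa using h2) h4
  obtain ⟨s, rfl⟩ := sur h
  set c := π s with hcd
  have N0 : ∀ v ∈ pCore 2 X, (v * s) ^ 4 = 1 := fun v hv => by
    have e : π (v * s) = c := by rw [map_mul, (ker v).2 hv, one_mul]
    rw [← FB.pow_of_dvd o6 le_rfl (x := v * s) (by rw [← o4, ← e]; exact orderOf_map_dvd _ _),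
      pow_orderOf_eq_one]
  have u2 : c ^ 2 * c ^ 2 = 1 := by rw [← pow_add]; exact h4
  obtain ⟨p, hp, np⟩ : ∃ p ∈ P, p * c ^ 2 ≠ c ^ 2 * p := by
    by_contra! a
    exact h2 (FB.one_of_cop (m := 2) (n := 3) (by rw [pow_two (c ^ 2)]; exact u2)
      (P3 _ (cP (mem_cent.2 a))) (by norm_num))
  set y := p⁻¹ * (c ^ 2 * p * (c ^ 2)⁻¹) with hy
  have yP : y ∈ P := mul_mem (inv_mem hp) (nP.conj_mem p hp _)
  have y1 : y ≠ 1 := fun e => np (by
    have := inv_mul_eq_one.1 e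
    nth_rewrite 1 [this]; group)
  have iv : c * (c * y * c⁻¹) * c⁻¹ * y = 1 := by
    have ui : (c ^ 2)⁻¹ = c ^ 2 := inv_eq_of_mul_eq_one_right u2
    calc c * (c * y * c⁻¹) * c⁻¹ * y = c ^ 2 * y * (c ^ 2)⁻¹ * y := by simp only [pow_two]; group
      _ = c ^ 2 * p⁻¹ * (c ^ 2 * p * (c ^ 2 * c ^ 2)⁻¹ * p⁻¹ * c ^ 2) * p * (c ^ 2)⁻¹ := by
          rw [hy]; group
      _ = 1 := by
          rw [u2, inv_one, mul_one, mul_inv_cancel_right, u2]; group
  set z := c * y * c⁻¹ with hz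
  have zP : z ∈ P := nP.conj_mem y yP c
  have lv : Commute y (z * y * z⁻¹) := H4.commute_conj_of_cube (P3 z zP) (P3 _ (mul_mem yP zP))
    (P3 _ (mul_mem (inv_mem yP) zP))
  have wP : ⁅y, z⁆ ∈ P := by
    rw [commutatorElement_def]
    exact mul_mem (mul_mem (mul_mem yP zP) (inv_mem yP)) (inv_mem zP)
  have cw : Commute c ⁅y, z⁆ := by
    have e1 : c * z * c⁻¹ = y⁻¹ := eq_inv_of_mul_eq_one_left iv
    have e2 : c * ⁅y, z⁆ * c⁻¹ = ⁅y, z⁆ := by
      rw [conjugate_commutatorElement, e1, ← hz]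
      calc ⁅z, y⁻¹⁆ = (z * y * z⁻¹)⁻¹ * y := by rw [commutatorElement_def]; group
        _ = y * (z * y * z⁻¹)⁻¹ := lv.inv_right.eq.symm
        _ = _ := by rw [commutatorElement_def]; group
    exact mul_inv_eq_iff_eq_mul.1 e2
  have w1 : ⁅y, z⁆ = 1 := by
    by_contra w1
    have o3 := orderOf_eq_prime (P3 _ wP) w1
    have := FB.o6_quot o6 _ (c * ⁅y, z⁆)
    rw [cw.orderOf_mul_eq_mul_orderOf_of_coprime (by rw [o4, o3]; norm_num), o4, o3] at this
    omega
  obtain ⟨x0, hx0⟩ := sur y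
  have hx : π (x0 ^ 4) = y := by
    rw [map_pow, hx0, pow_succ, P3 y yP, one_mul]
  have := n4 (L.isPGroup_pCore 2) (s := s) (x := x0 ^ 4) N0 (by rw [← pow_mul]; exact e12 x0)
    ((ker _).1 (by
      rw [map_commutatorElement, map_mul, map_mul, map_inv, hx]; exact w1))
    ((ker _).1 (by simp only [map_mul, map_inv, hx]; exact iv))
  exact y1 (hx ▸ (ker _).2 (hc this))

/-- Elements of order 3 lie in `O₃`. -/
theorem in3 {H : Type u} [Group H] [Finite H] (e6 : ∀ g : H, g ^ 6 = 1) (hb : pCore 2 H = ⊥)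
    {y : H} (y3 : y ^ 3 = 1) : y ∈ pCore 3 H := by
  haveI : Fact (Nat.Prime 2) := ⟨Nat.prime_two⟩
  haveI : Fact (Nat.Prime 3) := ⟨Nat.prime_three⟩
  have e12 : ∀ g : H, g ^ 12 = 1 := fun g => by
    rw [show 12 = 6 * 2 from rfl, pow_mul, e6, one_pow]
  set P := pCore 3 H with hP
  have cP : 𝐂(P) ≤ P := cent_core e12 Nat.prime_three (Or.inr ⟨rfl, rfl⟩) hb
  have P3 : ∀ p ∈ P, p ^ 3 = 1 := fun p hp => three (L.isPGroup_pCore 3) hp (e12 p)
  set π := QuotientGroup.mk' P with hπ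
  have ker : ∀ g, π g = 1 ↔ g ∈ P := fun g => QuotientGroup.eq_one_iff g
  have sur : Function.Surjective π := QuotientGroup.mk'_surjective _
  have E : ∀ g : H ⧸ P, g ^ 6 = 1 := fun g => by
    obtain ⟨g, rfl⟩ := sur g
    rw [← map_pow, e6, map_one]
  set Q := pCore 2 (H ⧸ P) with hQ
  have cQ : 𝐂(Q) ≤ Q := cent_core (fun g => by
    rw [show 12 = 6 * 2 from rfl, pow_mul, E, one_pow]) Nat.prime_two (Or.inl ⟨rfl, rfl⟩)
    (L.pCore_quotient_pCore Nat.prime_three)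
  have Q2 : ∀ q ∈ Q, q * q = 1 := fun q hq => by
    rw [← pow_two]; exact two (L.isPGroup_pCore 2) hq (E q)
  have Qi : ∀ q ∈ Q, q⁻¹ = q := fun q hq => inv_eq_of_mul_eq_one_right (Q2 q hq)
  have Qc : ∀ a ∈ Q, ∀ b ∈ Q, a * b = b * a := fun a ha b hb => by
    rw [← Qi _ (mul_mem ha hb), mul_inv_rev, Qi a ha, Qi b hb]
  have nQ : Q.Normal := inferInstance
  set c := π y with hcd
  have c3 : c ^ 3 = 1 := by rw [hcd, ← map_pow, y3, map_one]
  have cc : c * c = c⁻¹ := eq_inv_of_mul_eq_one_left (by rw [← c3]; simp only [pow_succ, pow_zero, one_mul])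
  by_contra ny
  obtain ⟨a, ha, na⟩ : ∃ a ∈ Q, a * c ≠ c * a := by
    by_contra! a
    exact ny ((ker y).1 (FB.one_of_cop (m := 2) (n := 3)
      (by rw [pow_two]; exact Q2 _ (cQ (mem_cent.2 a))) c3 (by norm_num)))
  have m1 : ∀ q ∈ Q, c * q * c⁻¹ ∈ Q := fun q hq => nQ.conj_mem q hq c
  have m2 : ∀ q ∈ Q, c⁻¹ * q * c ∈ Q := fun q hq => nQ.conj_mem' q hq c
  let K : Subgroup (H ⧸ P) :=
    { carrier := {q | q ∈ Q ∧ q * (c * q * c⁻¹) * (c⁻¹ * q * c) = 1}
      one_mem' := ⟨one_mem _, by group⟩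
      inv_mem' := fun {q} hq => by rw [Qi q hq.1]; exact hq
      mul_mem' := fun {p q} hp hq => ⟨mul_mem hp.1 hq.1, by
        have e1 : c * (p * q) * c⁻¹ = (c * p * c⁻¹) * (c * q * c⁻¹) := by group
        have e2 : c⁻¹ * (p * q) * c = (c⁻¹ * p * c) * (c⁻¹ * q * c) := by group
        have a1 := Qc q hq.1 _ (m1 p hp.1)
        have a2 := Qc _ (mul_mem hq.1 (m1 q hq.1)) _ (m2 p hp.1)
        have b1 := hp.2
        have b2 := hq.2
        rw [e1, e2]
        generalize c * p * c⁻¹ = p1 at *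
        generalize c * q * c⁻¹ = q1 at *
        generalize c⁻¹ * p * c = p2 at *
        generalize c⁻¹ * q * c = q2 at *
        calc p * q * (p1 * q1) * (p2 * q2) = p * (q * p1) * q1 * p2 * q2 := by group
          _ = p * p1 * (q * q1 * p2) * q2 := by rw [a1]; group
          _ = p * p1 * p2 * (q * q1 * q2) := by rw [a2]; group
          _ = 1 := by rw [b1, b2, one_mul]⟩ }
  have nK : ∀ q ∈ K, c * q * c⁻¹ ∈ K := fun q hq => ⟨m1 q hq.1, by
    have := congrArg (fun t => c * t * c⁻¹) hq.2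
    calc _ = c * (q * (c * q * c⁻¹) * (c⁻¹ * q * c)) * c⁻¹ := by group
      _ = 1 := by rw [hq.2]; group⟩
  have bK : a * (c * a * c⁻¹) ∈ K := ⟨mul_mem ha (m1 a ha), by
    have e1 : c * (a * (c * a * c⁻¹)) * c⁻¹ = c * a * c⁻¹ * (c⁻¹ * a * c) := by
      calc _ = c * a * c⁻¹ * ((c * c) * a * (c * c)⁻¹) := by group
        _ = _ := by rw [cc, inv_inv]
    rw [e1]
    calc _ = a * (c * a * c⁻¹ * (c * a * c⁻¹)) * (c⁻¹ * a * c * (c⁻¹ * a * c)) * a := by group
      _ = 1 := by rw [Q2 _ (m1 a ha), Q2 _ (m2 a ha), mul_one, mul_one, Q2 a ha]⟩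
  have b1 : a * (c * a * c⁻¹) ≠ 1 := fun e => na (by
    have := eq_inv_of_mul_eq_one_right e
    rw [Qi a ha] at this
    exact (mul_inv_eq_iff_eq_mul.1 this).symm)
  have nil : Group.IsNilpotent (K.comap π) := by
    refine H5.isNilpotent_of_coset_pow Nat.prime_three _ y (mem_norm_of_conj_le fun w hw => ?_)
      fun w hw => ?_
    · obtain ⟨v, hv, rfl⟩ := mem_conj'.1 hw
      change π _ ∈ K
      simp only [map_mul, map_inv]
      exact nK _ hv
    · have h1 : π ((w * y) ^ 3) = 1 := by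
        have := hw.2
        rw [map_pow, map_mul, ← hcd, ← this]
        generalize π w = q
        calc (q * c) ^ 3 = q * (c * q * c⁻¹) * ((c * c) * q * c) := by
              simp only [pow_succ, pow_zero, one_mul]; group
          _ = _ := by rw [cc]
      have h2 := P3 _ ((ker _).1 h1)
      rw [← pow_mul] at h2
      exact pw h2 (e6 _)
  obtain ⟨b0, hb0⟩ := sur (a * (c * a * c⁻¹))
  have hb3 : π (b0 ^ 3) = a * (c * a * c⁻¹) := by
    rw [map_pow, hb0, pow_succ, pow_two, Q2 _ bK.1, one_mul]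
  have b2 : (b0 ^ 3) ^ 2 = 1 := by rw [← pow_mul]; exact e6 b0
  refine b1 (hb3 ▸ (ker _).2 (cP (mem_cent.2 fun p hp => ?_)))
  refine (H5.commute_of_coprime_of_isNilpotent nil (a := p) (b := b0 ^ 3) ?_ ?_ ?_).eq
  · change π p ∈ K
    rw [(ker p).2 hp]; exact one_mem K
  · change π _ ∈ K
    rw [hb3]; exact bK
  · exact Nat.Coprime.coprime_dvd_left (orderOf_dvd_of_pow_eq_one (P3 p hp))
      (Nat.Coprime.coprime_dvd_right (orderOf_dvd_of_pow_eq_one b2) (by norm_num))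

theorem main {X : Type u} [Group X] [Finite X] (o6 : ∀ g : X, orderOf g ≤ 6)
    (n5 : ∀ g : X, orderOf g ≠ 5) (hc : 𝐂(pCore 2 X) ≤ pCore 2 X) :
    ∃ R : Subgroup X, R.Normal ∧ pCore 2 X ≤ R ∧ (∀ r ∈ R, r ^ 3 ∈ pCore 2 X) ∧
      ∀ h, h * h ∈ R := by
  have e12 : ∀ g : X, g ^ 12 = 1 := fun g => by
    have h1 := o6 g
    have h2 := n5 g
    have h3 := orderOf_pos g
    refine orderOf_dvd_iff_pow_eq_one.1 ?_
    interval_cases orderOf g <;> simp_all
  set π := QuotientGroup.mk' (pCore 2 X) with hπ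
  have ker : ∀ g, π g = 1 ↔ g ∈ pCore 2 X := fun g => QuotientGroup.eq_one_iff g
  have sur : Function.Surjective π := QuotientGroup.mk'_surjective _
  have E : ∀ g : X ⧸ pCore 2 X, g ^ 12 = 1 := fun g => by
    obtain ⟨g, rfl⟩ := sur g
    rw [← map_pow, e12, map_one]
  have e6 : ∀ g : X ⧸ pCore 2 X, g ^ 6 = 1 := fun g => by
    have := no4 o6 e12 hc (g ^ 3) (by rw [← pow_mul]; exact E g)
    rwa [← pow_mul] at this
  refine ⟨(pCore 3 (X ⧸ pCore 2 X)).comap π, inferInstance, fun x hx => ?_, fun r hr => ?_,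
    fun h => ?_⟩
  · rw [mem_comap, (ker x).2 hx]; exact one_mem _
  · rw [← ker, map_pow]
    exact three (L.isPGroup_pCore 3) hr (E _)
  · refine in3 e6 (L.pCore_quotient_pCore Nat.prime_two) ?_
    rw [map_mul, ← pow_two, ← pow_mul]; exact e6 _

end S3

open Subgroup Cfsg Cfsg.Agent Cfsg.Agent.FT Cfsg.Agent.P6

theorem sh_three {G : Type*} [Group G] [Finite G] (h6 : Or6 G) (N : Subgroup G)
    (cen : N ⊓ 𝐂(O2 N) ≤ O2 N) (n5 : ∀ f ∈ N, orderOf f ≠ 5) : ShA N := by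
  have mem : ∀ x : N, (x : G) ∈ O2 N ↔ x ∈ pCore 2 N := fun x =>
    ⟨fun ⟨y, hy, e⟩ => (Subtype.ext e : y = x) ▸ hy, fun h => ⟨x, h, rfl⟩⟩
  obtain ⟨R, nR, h1, h2, h3⟩ := S3.main (X := N) (h6.of_injective N.subtype Subtype.val_injective)
    (fun g => by rw [← orderOf_coe]; exact n5 g g.2) fun x hx => (mem x).1 (cen ⟨x.2, by
      rintro _ ⟨y, hy, rfl⟩
      exact congrArg Subtype.val (hx y hy)⟩)
  refine ⟨R.map N.subtype, map_mono h1, map_subtype_le R, fun n hn => mem_norm_of_conj_le ?_, ?_,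
    fun h hh => ⟨_, h3 ⟨h, hh⟩, rfl⟩⟩
  · intro w hw
    obtain ⟨_, ⟨r, hr, rfl⟩, rfl⟩ := mem_conj'.1 hw
    exact ⟨_, nR.conj_mem r hr ⟨n, hn⟩, rfl⟩
  · rintro _ ⟨r, hr, rfl⟩
    exact ⟨_, h2 r hr, rfl⟩

end Cfsg.Agent.P31
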