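/-
P31: the shapes of the 2-constrained groups with an element of order 5.
-/
import Cfsg.Agent.P31.Defs
import Cfsg.Agent.P31.FinB
import Cfsg.Agent.P31.Aut5

set_option autoImplicit false
set_option linter.unusedSectionVars false

namespace Cfsg.Agent.P31

open Subgroup Cfsg Cfsg.Agent Cfsg.Agent.FT Cfsg.Agent.P31.FB
open scoped Pointwise

universe u

namespace S4

theorem sq_cent {G : Type*} [Group G] {s x : G} (h : s * x * s⁻¹ = x⁻¹) : s * s ∈ 𝐂[x] :=
  mem_cent1_iff_conj.2 (by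
    calc s * s * x * (s * s)⁻¹ = s * (s * x * s⁻¹) * s⁻¹ := by group
      _ = x := by rw [h, ← conj_inv, h, inv_inv])

theorem na {G : Type u} [Group G] [Finite G] (S : KI.{u} (Nat.card G + 1))
    (o6 : ∀ g : G, orderOf g ≤ 6)
    {M : Subgroup G} (hM : L.IsMinNormal M) (hn : ¬ IsMulCommutative M) :
    (Nonempty (M ≃* alternatingGroup (Fin 5)) ∨ Nonempty (M ≃* alternatingGroup (Fin 6))) ∧
      𝐂(M) = ⊥ := by
  obtain ⟨-, -, K, hK, hs, hc, hle, hcl⟩ := H2.exists_isComponent_of_isMinNormal hM hn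
  have hS := S K (Nat.lt_succ_of_le (Nat.card_le_card_of_injective _ Subtype.val_injective))
    (fun x => by rw [← Subgroup.orderOf_coe]; exact o6 x) hs hc
  have : ∃ f t : K, f ^ 5 = 1 ∧ f ≠ 1 ∧ t * t = 1 ∧ t ≠ 1 := by
    rcases hS with ⟨⟨e⟩⟩ | ⟨⟨e⟩⟩
    · obtain ⟨f, t, h1, h2, h3, h4, -⟩ := d5
      exact ⟨e.symm f, e.symm t, by rw [← map_pow, h1, map_one], by simpa using h2,
        by rw [← map_mul, h3, map_one], by simpa using h4⟩
    · obtain ⟨f, t, h1, h2, h3, h4, -⟩ := d6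
      exact ⟨e.symm f, e.symm t, by rw [← map_pow, h1, map_one], by simpa using h2,
        by rw [← map_mul, h3, map_one], by simpa using h4⟩
  obtain ⟨⟨f, hf⟩, ⟨t, ht⟩, h1, h2, h3, h4⟩ := this
  have f5 : f ^ 5 = 1 := congrArg Subtype.val h1
  have f1 : f ≠ 1 := fun e => h2 (Subtype.ext e)
  have t2 : t ^ 2 = 1 := by rw [pow_two]; exact congrArg Subtype.val h3
  have t1 : t ≠ 1 := fun e => h4 (Subtype.ext e)
  have hN : K.Normal := by
    refine ⟨fun x hx g => ?_⟩
    have c1 := H2.compIn_top_iff.2 hK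
    have c2 := c1.conj_of_mem_normalizer (g := g) (by rw [norm_top]; exact mem_top g)
    by_cases e : MulAut.conj g • K = K
    · rw [← e]; exact smul_mem_pointwise_smul x (MulAut.conj g) K hx
    · have m : g * t * g⁻¹ ∈ 𝐂(K) :=
        c2.le_centralizer_of_ne c1 e (smul_mem_pointwise_smul t (MulAut.conj g) K ht)
      have := five o6 f5 f1 (mem_cent.1 m f hf)
      rw [conj_pow, mul_inv_eq_one, mul_eq_left] at this
      exact absurd (one_of_cop t2 this (by norm_num)) t1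
  rw [normalClosure_eq_self] at hcl
  subst hcl
  refine ⟨hS, eq_bot_iff.2 fun x hx => by_contra fun x1 => t1 ?_⟩
  exact one_of_cop t2 (five o6 (five o6 f5 f1 (mem_cent.1 hx f hf)) x1 (mem_cent.1 hx t ht).symm)
    (by norm_num)

variable {G : Type u} [Group G] [Finite G]

theorem cases {V : Subgroup G} [V.Normal] {p : ℕ} {f : G} (h : Su V p f)
    (S : KI.{u} (Nat.card G)) : ∃ M : Subgroup (G ⧸ 𝐂(V)), M.Normal ∧
    ((M ≠ ⊥ ∧ IsElementaryAbelian 5 M) ∨
    ((Nonempty (M ≃* alternatingGroup (Fin 5)) ∨ Nonempty (M ≃* alternatingGroup (Fin 6))) ∧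
      𝐂(M) = ⊥)) := by
  have : Nontrivial (G ⧸ 𝐂(V)) := ⟨QuotientGroup.mk' _ f, 1, fun e =>
    h.f1 (h.k5 ((QuotientGroup.eq_one_iff f).1 e) h.hf)⟩
  obtain ⟨M, hM⟩ := L.exists_isMinNormal (G := G ⧸ 𝐂(V))
  refine ⟨M, hM.1, ?_⟩
  by_cases hc : IsMulCommutative M
  · have : Group.IsSolvable M := Group.isSolvable_of_comm hc.is_comm.comm
    obtain ⟨q, hq, el⟩ := hM.exists_isElementaryAbelian
    by_cases h5 : q = 5
    · exact Or.inl ⟨hM.2.1, h5 ▸ el⟩
    have hn := hM.1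
    have := (nil h.o6 h.hf h.f1 (N := M.comap (QuotientGroup.mk' _)) inferInstance fun x hx e =>
      h.k5 ((QuotientGroup.eq_one_iff x).1 (one_of_cop (x := QuotientGroup.mk' _ x) (el.2 _ hx)
        (by rw [← map_pow, e, map_one]) ((Nat.coprime_primes hq (by norm_num)).2 h5))) e).trans
      h.mn.fittingSubgroup_le_centralizer
    refine (hM.2.1 (eq_bot_iff.2 fun x hx => ?_)).elim
    obtain ⟨g, rfl⟩ := QuotientGroup.mk'_surjective _ x
    exact (QuotientGroup.eq_one_iff g).2 (this hx)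
  · exact Or.inr (na (S.mono (L.card_quotient_lt _ fun e => h.mn.2.1 (le_bot_iff.1 (e ▸ h.le_K))))
      (o6_quot h.o6 _) hM hc)

theorem two (S : KI.{u} (Nat.card G)) {V : Subgroup G} [V.Normal] {f : G} (h : Su V 2 f)
    (h3 : pCore 3 G = ⊥) : IsPGroup 2 𝐂(V) ∧ ((𝐂(V)).index = 5 ∨
      (IsElementaryAbelian 2 𝐂(V) ∧ ((𝐂(V)).index = 10 ∨
        Nonempty (G ⧸ 𝐂(V) ≃* alternatingGroup (Fin 5))))) := by
  have hV : IsPGroup 2 V := L.IsElementaryAbelian.isPGroup h.el
  let π := QuotientGroup.mk' 𝐂(V)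
  have : Fact (Nat.Prime 5) := ⟨by norm_num⟩
  have oq := o6_quot h.o6 𝐂(V)
  have k4 : ∀ x ∈ 𝐂(V), x ^ 4 = 1 := fun x hx => by
    have hF := nil h.o6 h.hf h.f1 (N := 𝐂(V)) inferInstance fun x => h.k5
    have e : (x ^ 4) ^ 3 = 1 := by
      rw [← pow_mul, ← orderOf_dvd_iff_pow_eq_one]
      have h1 := h.o6 x
      have h2 := orderOf_pos x
      have h5 : orderOf x ≠ 5 := fun e => by
        rw [h.k5 hx (by rw [← e, pow_orderOf_eq_one]), orderOf_one] at e
        omega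
      generalize orderOf x = n at *
      interval_cases n <;> simp_all
    have : zpowers (x ^ 4) ≤ pCore 3 G := L.le_pCore_of_le_fittingSubgroup (by norm_num)
      (by
        rintro ⟨_, k, rfl⟩
        refine ⟨1, Subtype.ext ?_⟩
        change ((x ^ 4) ^ k) ^ 3 ^ 1 = 1
        rw [pow_one, ← zpow_natCast, ← zpow_mul, mul_comm, zpow_mul, zpow_natCast, e, one_zpow])
      (zpowers_le.2 (hF (pow_mem hx 4)))
    rw [h3] at this
    exact this (mem_zpowers _)
  have hK : IsPGroup 2 𝐂(V) := fun x => ⟨2, Subtype.ext (k4 x x.2)⟩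
  have fK : ∀ x : G, x ^ 5 = 1 → x ≠ 1 → ∀ k ∈ 𝐂(V), x * k = k * x → k = 1 := fun x h1 h2 k hk e =>
    h.k5 hk (five h.o6 h1 h2 e)
  have lift : ∀ x : G, π x ^ 5 = 1 → π x ≠ 1 → x ^ 5 = 1 ∧ x ≠ 1 := fun x h1 h2 =>
    ⟨by
      rw [← pow_of_dvd h.o6 (by norm_num : 4 ≤ 5) (x := x)
        (orderOf_eq_prime h1 h2 ▸ orderOf_map_dvd π x), pow_orderOf_eq_one],
      fun e => h2 (by rw [e, map_one])⟩
  have adj : ∀ x s z : G, z ^ 5 = 1 → z ≠ 1 → π (s * x * s⁻¹) = π z →
      ∃ t, π t = π s ∧ t * x * t⁻¹ = z := fun x s z h1 h2 e => by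
    have m : s * x * s⁻¹ * z⁻¹ ∈ 𝐂(V) := by
      rw [← QuotientGroup.eq_one_iff]
      change π _ = 1
      rw [map_mul, e, map_inv, mul_inv_cancel]
    obtain ⟨k, hk, e2⟩ := H9.exists_conj_eq_mul_of_fpf (N := 𝐂(V)) (x := z)
      (by rw [normalizer_eq_top]; exact mem_top _) (fK z h1 h2) m
    refine ⟨k⁻¹ * s, ?_, ?_⟩
    · rw [map_mul, show π k⁻¹ = 1 from (QuotientGroup.eq_one_iff _).2 (inv_mem hk), one_mul]
    · calc k⁻¹ * s * x * (k⁻¹ * s)⁻¹ = k⁻¹ * (s * x * s⁻¹ * z⁻¹ * z) * k := by group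
        _ = z := by rw [← e2]; group
  have main : ∀ {B : Type} [Group B] [Finite B] (ι : B →* G ⧸ 𝐂(V)), Function.Injective ι →
      ∀ {l : List B} {c : B} {p : ℕ}, p.Prime → p ≠ 2 → Fr l c 4 p → False := by
    intro B _ _ ι hι l c p hp h2 fr
    obtain ⟨g, hg⟩ := QuotientGroup.mk'_surjective _ (ι c)
    refine fr.false h.el.1 (φ := (act V).comp ι) ((act_inj V).comp hι)
      hp Nat.prime_two h2 hV (by norm_num) (g := g) ?_ fun v hv => h.n4 ?_ hv
    · rw [MonoidHom.comp_apply, ← hg]; rfl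
    · rw [hg, orderOf_injective ι hι, fr.orderOf (by norm_num)]
  have d10 : ∀ x s : G, π x ^ 5 = 1 → π x ≠ 1 → π s * π s = 1 → π s * π x * (π s)⁻¹ = (π x)⁻¹ →
      IsElementaryAbelian 2 𝐂(V) := fun x s a5 a1 b2 ab => by
    obtain ⟨l5, l1⟩ := lift x a5 a1
    obtain ⟨t, ht, e2⟩ := adj x s x⁻¹ (by rw [inv_pow, l5, inv_one]) (inv_ne_one.2 l1) (by
      rw [map_mul, map_mul, map_inv, map_inv, ab])
    have t2 : t * t = 1 := by
      refine fK x l5 l1 _ ?_ ?_
      · rw [← QuotientGroup.eq_one_iff]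
        change π _ = 1
        rw [map_mul, ht, b2]
      · have : t * t * x * (t * t)⁻¹ = x := by
          calc t * t * x * (t * t)⁻¹ = t * (t * x * t⁻¹) * t⁻¹ := by group
            _ = x := by rw [e2, ← conj_inv, e2, inv_inv]
        exact (mul_inv_eq_iff_eq_mul.1 this).symm
    exact fin_d10 h.o6 _ hK (orderOf_eq_prime l5 l1) t2
      (by rw [← e2, inv_eq_of_mul_eq_one_right t2])
  refine ⟨hK, ?_⟩
  obtain ⟨M, hn, ⟨h1, el⟩ | ⟨⟨⟨e⟩⟩ | ⟨⟨e⟩⟩, hC⟩⟩ := cases h S
  · obtain ⟨⟨x, hx⟩, x1⟩ := ne_bot_iff_exists_ne_one.1 h1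
    obtain ⟨x, rfl⟩ := QuotientGroup.mk'_surjective _ x
    have x1' : π x ≠ 1 := fun e => x1 (Subtype.ext e)
    have x5 : π x ^ 5 = 1 := el.2 _ hx
    obtain ⟨l5, l1⟩ := lift x x5 x1'
    have cz : ∀ a : G ⧸ 𝐂(V), a * π x = π x * a → a ∈ zpowers (π x) := fun a ha => by
      obtain ⟨s, rfl⟩ := QuotientGroup.mk'_surjective _ a
      obtain ⟨t, ht, e⟩ := adj x s x l5 l1 (by
        rw [map_mul, map_mul, map_inv]; exact mul_inv_eq_iff_eq_mul.2 ha)
      have tx : x * t = t * x := (mul_inv_eq_iff_eq_mul.1 e).symm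
      have t5 := five h.o6 l5 l1 tx
      have ab : IsMulCommutative ↥(zpowers x ⊔ zpowers t) :=
        isMulComm_sup inferInstance inferInstance
          (zpowers_le.2 (by rw [cent_zpowers]; exact mem_cent1.2 tx))
      have a5 : ∀ a ∈ zpowers x ⊔ zpowers t, a ^ 5 = 1 := fun a ha => five h.o6 l5 l1
        (mem_cent.1 (isMulComm_iff_le_cent.1 ab ha) x (le_sup_left (a := zpowers x) (mem_zpowers x)))
      have cy : IsCyclic ↥(zpowers x ⊔ zpowers t) := by
        by_contra nc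
        obtain ⟨a, ha, a1, hb⟩ := H1.exists_centralizer_ne_bot ab nc
          (G := V) (by rw [normalizer_eq_top]; exact le_top)
          (IsPGroup.coprime_card_of_ne 5 2 (by norm_num) _ V
            (fun a => ⟨1, Subtype.ext (by rw [pow_one]; exact a5 a a.2)⟩) hV) h.mn.2.1
        exact hb (eq_bot_iff.2 fun v hv => h.fpf (a5 a ha) a1 hv.1 (mem_cent1.1 hv.2))
      obtain ⟨w, hw⟩ := isCyclic_iff_zpowers.1 cy
      have e1 : zpowers x = zpowers x ⊔ zpowers t := by
        refine eq_of_le_of_card_ge le_sup_left ?_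
        have := a5 w (hw ▸ mem_zpowers w)
        rw [← hw, Nat.card_zpowers, Nat.card_zpowers, orderOf_eq_prime l5 l1]
        exact Nat.le_of_dvd (by norm_num) (orderOf_dvd_of_pow_eq_one this)
      have m2 : t ∈ zpowers x := e1 ▸ le_sup_right (a := zpowers x) (mem_zpowers t)
      have := mem_map_of_mem π m2
      rw [MonoidHom.map_zpowers, ht] at this
      exact this
    have o5 : orderOf (π x) = 5 := orderOf_eq_prime x5 x1'
    have cC : 𝐂[π x] = zpowers (π x) := le_antisymm (fun a ha => cz a (mem_cent1.1 ha).symm)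
      (zpowers_le.2 (self_mem_cent1 _))
    have no4 : ∀ c : G ⧸ 𝐂(V), orderOf c ≠ 4 := fun c hc => by
      obtain ⟨g, rfl⟩ := QuotientGroup.mk'_surjective _ c
      refine x1' (act_inj V ?_)
      rw [map_one]
      refine hhg (K := M) h.el.1 (act V) (c := π g) (g := g) rfl (n := 4) (by norm_num)
        (by rw [normalizer_eq_top_iff.2 hn]; exact mem_top _) (fun i h0 hi k hk e => ?_)
        (fun v hv => h.n4 hc hv)
        (IsPGroup.coprime_card_of_ne 5 2 (by norm_num) M V (L.IsElementaryAbelian.isPGroup el) hV) hx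
      by_contra k1
      refine pow_ne_one_of_lt_orderOf h0.ne' (hc ▸ hi) (one_of_cop (m := 4) ?_
        (five oq (el.2 k hk) k1 e.symm) (by norm_num))
      rw [← pow_mul, mul_comm, pow_mul, ← hc, pow_orderOf_eq_one, one_pow]
    have pm : ∀ g : G ⧸ 𝐂(V), g * π x * g⁻¹ = π x ∨ g * π x * g⁻¹ = (π x)⁻¹ := fun g => by
      classical
      have m := cz _ (mem_cent.1 (isMulComm_iff_le_cent.1 el.1 hx) _ (hn.conj_mem _ hx g))
      obtain ⟨j, hj, e⟩ := Finset.mem_image.1 (mem_zpowers_iff_mem_range_orderOf.1 m)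
      rw [o5, Finset.mem_range] at hj
      have sq : g * g * π x * (g * g)⁻¹ = π x ^ (j * j) := by
        calc g * g * π x * (g * g)⁻¹ = g * (g * π x * g⁻¹) * g⁻¹ := by group
          _ = _ := by rw [← e, ← conj_pow, ← e, ← pow_mul]
      have i4 : π x ^ 4 = (π x)⁻¹ := eq_inv_of_mul_eq_one_left (by rw [← pow_succ, x5])
      have bad : g * g * π x * (g * g)⁻¹ ≠ (π x)⁻¹ := fun e => by
        have nc : g * g ∉ 𝐂[π x] := fun m => by
          rw [mem_cent1_iff_conj.1 m] at e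
          exact x1' (P6.eq_one_of_eq_inv (by rw [o5]; decide) e)
        have h1 := oq g
        have h2 := orderOf_pos g
        have h4 := no4 g
        have g2 : ∀ n, g ^ n ∈ 𝐂[π x] → n % 4 = 2 → False := fun n m hn => by
          have m4 : (g * g) * (g * g) ∈ 𝐂[π x] := sq_cent e
          rw [← Nat.div_add_mod n 4, hn, pow_add, pow_mul] at m
          refine nc ?_
          rw [← pow_two]
          refine (Subgroup.mul_mem_cancel_left _ (pow_mem ?_ _)).1 m
          rwa [show g ^ 4 = g * g * (g * g) by simp only [pow_succ, pow_zero, one_mul, mul_assoc]]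
        have : orderOf g * 2 % 4 = 2 ∨ orderOf g % 4 = 2 := by omega
        rcases this with e | e
        · exact g2 _ (by rw [pow_mul, pow_orderOf_eq_one, one_pow]; exact one_mem _) e
        · exact g2 _ (by rw [pow_orderOf_eq_one]; exact one_mem _) e
      interval_cases j
      · rw [pow_zero] at e
        exact absurd (conj_eq_one_iff.1 e.symm) x1'
      · exact Or.inl (by rw [← e, pow_one])
      · exact absurd (sq.trans i4) bad
      · refine absurd (sq.trans ?_) bad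
        rw [show 3 * 3 = 5 + 4 from rfl, pow_add, x5, one_mul, i4]
      · exact Or.inr (e.symm.trans i4)
    have cd : 𝐨(𝐂[π x]) = 5 := by rw [cC, Nat.card_zpowers, o5]
    by_cases hi : ∃ s : G ⧸ 𝐂(V), s * π x * s⁻¹ = (π x)⁻¹
    · obtain ⟨s, hs⟩ := hi
      have ne : π x ≠ (π x)⁻¹ := fun e => x1' (P6.eq_one_of_eq_inv (by rw [o5]; decide) e)
      have i2 : (𝐂[π x]).index = 2 := by
        refine index_eq_two_iff.2 ⟨s, fun b => ?_⟩
        have e : b * s * π x * (b * s)⁻¹ = (b * π x * b⁻¹)⁻¹ := by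
          rw [conj_inv, ← hs]; group
        rw [mem_cent1_iff_conj, mem_cent1_iff_conj, e]
        rcases pm b with e | e <;> rw [e]
        · exact Or.inr ⟨rfl, ne.symm⟩
        · exact Or.inl ⟨inv_inv _, ne.symm⟩
      refine Or.inr ⟨?_, Or.inl ?_⟩
      · obtain ⟨s, rfl⟩ := QuotientGroup.mk'_surjective _ s
        refine d10 x s x5 x1' ?_ hs
        have m : π s * π s ∈ zpowers (π x) := cC ▸ sq_cent hs
        by_contra n
        obtain ⟨k, hk⟩ := m
        have s5 := five oq (f := π s * π s) (x := π s)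
          (by rw [← hk, ← zpow_natCast, ← zpow_mul, mul_comm, zpow_mul, zpow_natCast, x5, one_zpow])
          n (mul_assoc _ _ _)
        have : π s ∈ 𝐂[π x] := P6.mem_of_sq_mem
          (Odd.of_dvd_nat (by decide) (orderOf_dvd_of_pow_eq_one s5)) (sq_cent hs)
        exact ne ((mem_cent1_iff_conj.1 this).symm.trans hs)
      · rw [index_eq_card, ← card_mul_index 𝐂[π x], cd, i2]
    · left
      have : 𝐂[π x] = ⊤ := eq_top_iff.2 fun g _ =>
        mem_cent1_iff_conj.2 ((pm g).resolve_right fun e => hi ⟨g, e⟩)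
      rw [index_eq_card, ← cd, this, card_top]
  · by_cases hM : M = ⊤
    · subst hM
      let ε : G ⧸ 𝐂(V) ≃* alternatingGroup (Fin 5) := topEquiv.symm.trans e
      refine Or.inr ⟨?_, Or.inr ⟨ε⟩⟩
      obtain ⟨a, b, a5, a1, b2, -, ab⟩ := d5
      obtain ⟨x, hx⟩ := QuotientGroup.mk'_surjective _ (ε.symm a)
      obtain ⟨s, hs⟩ := QuotientGroup.mk'_surjective _ (ε.symm b)
      exact d10 x s (by rw [hx, ← map_pow, a5, map_one]) (by rw [hx]; simpa using a1)
        (by rw [hs, ← map_mul, b2, map_one])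
        (by rw [hx, hs, ← map_inv, ← map_inv, ← map_mul, ← map_mul, ab])
    · obtain ⟨ε⟩ := fin_s5' M hC e hM
      exact (main ε.symm.toMonoidHom ε.symm.injective (by norm_num) (by norm_num) fr20).elim
  · exact (main (M.subtype.comp e.symm.toMonoidHom) (M.subtype_injective.comp e.symm.injective)
      (by norm_num) (by norm_num) fr9).elim

theorem grp (o6 : Or6 G) (S : KI.{u} (Nat.card G)) (h1 : pCore 2 G ≠ ⊥)
    (hc : 𝐂(pCore 2 G) ≤ pCore 2 G) {f : G} (hf : orderOf f = 5) :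
    (pCore 2 G).index = 5 ∨ (IsElementaryAbelian 2 (pCore 2 G) ∧ ((pCore 2 G).index = 10 ∨
      Nonempty (G ⧸ pCore 2 G ≃* alternatingGroup (Fin 5)))) := by
  obtain ⟨V, hV, hle⟩ := L.exists_isMinNormal_le (pCore 2 G) h1
  have := hV.1
  have su : Su V 2 f := ⟨o6, hV,
    hV.isElementaryAbelian_of_isPGroup Nat.prime_two ((L.isPGroup_pCore 2).to_le hle), by norm_num,
    by rw [← hf, pow_orderOf_eq_one], fun e => by rw [e, orderOf_one] at hf; omega⟩
  have : Fact (Nat.Prime 2) := ⟨Nat.prime_two⟩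
  have : Fact (Nat.Prime 3) := ⟨Nat.prime_three⟩
  have dj : Disjoint (pCore 2 G) (pCore 3 G) :=
    IsPGroup.disjoint_of_ne 2 3 (by norm_num) _ _ (L.isPGroup_pCore 2) (L.isPGroup_pCore 3)
  have h3 : pCore 3 G = ⊥ := dj.symm.eq_bot_of_le (le_trans (fun x hx => mem_cent.2 fun y hy =>
    (commute_of_normal_of_disjoint _ _ inferInstance inferInstance dj y x hy hx).eq) hc)
  obtain ⟨hK, h⟩ := two S su h3
  have e : 𝐂(V) = pCore 2 G := le_antisymm (L.le_pCore inferInstance hK)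
    ((L.le_fittingSubgroup inferInstance
      (isNilpotent_of_isPGroup Nat.prime_two (L.isPGroup_pCore 2))).trans
      hV.fittingSubgroup_le_centralizer)
  rcases h with h | ⟨h, h' | ⟨⟨ε⟩⟩⟩
  · exact Or.inl (e ▸ h)
  · exact Or.inr ⟨e ▸ h, Or.inl (e ▸ h')⟩
  · exact Or.inr ⟨e ▸ h, Or.inr ⟨(QuotientGroup.quotientMulEquivOfEq e.symm).trans ε⟩⟩

end S4

theorem sh_five {G : Type u} [Group G] [Finite G] (o6 : Or6 G) (N : Subgroup G)
    (S : KI.{u} 𝐨(N)) (h1 : O2 N ≠ ⊥) (hc : N ⊓ 𝐂(O2 N) ≤ O2 N)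
    (h5 : ∃ f ∈ N, orderOf f = 5) : ShB N ∨ ShC N := by
  obtain ⟨f, hf, f5⟩ := h5
  have mem : ∀ x : N, (x : G) ∈ O2 N ↔ x ∈ pCore 2 N := fun x =>
    mem_map_iff_mem N.subtype_injective
  have idx : (O2 N).relIndex N = (pCore 2 N).index := by
    rw [relIndex]; congr 1; ext x; exact mem x
  have el : IsElementaryAbelian 2 (pCore 2 N) → El (O2 N) := by
    rintro h _ ⟨x, hx, rfl⟩
    have := h.2 x hx
    rw [pow_two] at this
    exact congrArg Subtype.val this
  rcases S4.grp (G := N) (o6.of_injective N.subtype N.subtype_injective) S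
    (fun e => h1 (by rw [O2, pCoreOf, e, Subgroup.map_bot]))
    (fun x hx => (mem x).1 (hc ⟨x.2, mem_cent.2 (by
      rintro _ ⟨y, hy, rfl⟩; exact congrArg Subtype.val (mem_cent.1 hx y hy))⟩))
    (f := ⟨f, hf⟩) (by rw [← Subgroup.orderOf_coe]; exact f5) with h | ⟨h, h' | ⟨⟨ε⟩⟩⟩
  · exact Or.inl (Or.inl (idx.trans h))
  · exact Or.inl (Or.inr ⟨idx.trans h', el h⟩)
  · refine Or.inr ⟨⟨ε.toMonoidHom.comp (QuotientGroup.mk' _),
      ε.surjective.comp (QuotientGroup.mk'_surjective _), fun x => ?_⟩, el h⟩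
    rw [mem, ← QuotientGroup.eq_one_iff]
    exact ε.map_eq_one_iff

end Cfsg.Agent.P31
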