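/-
P31: the shapes of the 2-local subgroups.
-/
import Cfsg.Agent.P31.SH3
import Cfsg.Agent.P31.SH4

set_option autoImplicit false

namespace Cfsg.Agent.P31

universe u

theorem shStmt : SHStmt.{u} := by
  intro G _ _ h6 N ki ne cen
  by_cases h5 : ∃ f ∈ N, orderOf f = 5
  · exact Or.inr (sh_five h6 N ki ne cen h5)
  · exact Or.inl (sh_three h6 N cen fun f hf e => h5 ⟨f, hf, e⟩)

end Cfsg.Agent.P31
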