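/-
P31, Sm: simple groups with element orders at most 6 and dihedral Sylow 2-subgroups.
-/
import Cfsg.Agent.P31.Defs
import Cfsg.Agent.P15.Main
import Cfsg.Agent.P5.Final
import Cfsg.Agent.P8.JA5
import Cfsg.Agent.Cj.Counter

set_option autoImplicit false
set_option linter.unusedSectionVars false

namespace Cfsg.Agent.P31

open Subgroup Cfsg Cfsg.Agent Cfsg.Agent.FT

universe u

namespace Sm

variable {G : Type u} [Group G] [Finite G]

theorem prime_le (h : Or6 G) {p : ℕ} (hp : p.Prime) (hd : p ∣ Nat.card G) : p ≤ 6 := by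
  have := Fact.mk hp
  obtain ⟨g, hg⟩ := exists_prime_orderOf_dvd_card' p hd
  exact hg ▸ h g

/-- A simple group of order 360 with a subgroup of order 60 is `A₆`. -/
theorem a6_of_card [IsSimpleGroup G] (h : Nat.card G = 360) (H : Subgroup G) (hH : 𝐨(H) = 60) :
    Nonempty (G ≃* A6) := by
  have hi : H.index = 6 := by
    have := H.card_mul_index
    rw [h, hH] at this
    omega
  let e : G ⧸ H ≃ Fin 6 := Finite.equivFinOfCardEq hi
  let f : G →* Equiv.Perm (Fin 6) :=
    e.permCongrHom.toMonoidHom.comp (MulAction.toPermHom G (G ⧸ H))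
  have inj : Function.Injective f := by
    refine e.permCongrHom.injective.comp ((MonoidHom.ker_eq_bot_iff _).1 ?_)
    rw [← normalCore_eq_ker]
    refine (H.normalCore_normal.eq_bot_or_eq_top).resolve_right fun e => ?_
    rw [top_le_iff.1 (e.ge.trans H.normalCore_le), index_top] at hi
    omega
  have h2 : f.range.index = 2 := by
    have := f.range.card_mul_index
    rw [← Nat.card_congr (MonoidHom.ofInjective inj).toEquiv, h, Nat.card_perm] at this
    simp [Nat.factorial] at this
    omega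
  exact ⟨(MonoidHom.ofInjective inj).trans
    (MulEquiv.subgroupCongr (Equiv.Perm.eq_alternatingGroup_of_index_eq_two h2))⟩

theorem card_le {F : Type} [Field F] [Fintype F] (h : Or6 G)
    (e : G ≃* Matrix.ProjectiveSpecialLinearGroup (Fin 2) F) : Fintype.card F ≤ 13 := by
  classical
  obtain ⟨a, ha⟩ := IsCyclic.exists_ofOrder_eq_natCard (α := Fˣ)
  obtain ⟨g, -, hg⟩ := P3.exists_sl2_affine (a : F) 0 a.ne_zero
  obtain ⟨x, hx⟩ := (e.trans (P3.psl2EquivRange F)).surjective ⟨_, g, rfl⟩
  have h1 : orderOf (L.sl2Perm F g) ≤ 6 := by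
    have := h x
    rwa [← (e.trans (P3.psl2EquivRange F)).orderOf_eq, hx, ← orderOf_coe] at this
  have h2 : ∀ k : ℕ, (L.sl2Perm F g ^ k) ((1 : F) : OnePoint F) =
      ((((a ^ (2 * k) : Fˣ) : F)) : OnePoint F) := fun k => by
    induction k with
    | zero => simp
    | succ k ih =>
      rw [pow_succ', Equiv.Perm.mul_apply, ih, hg]
      congr 1
      push_cast
      ring
  have h3 := h2 (orderOf (L.sl2Perm F g))
  rw [pow_orderOf_eq_one, Equiv.Perm.one_apply, OnePoint.coe_eq_coe] at h3
  have h4 := Nat.le_of_dvd (Nat.mul_pos two_pos (orderOf_pos (L.sl2Perm F g)))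
    (orderOf_dvd_of_pow_eq_one (Units.ext h3.symm : a ^ (2 * orderOf (L.sl2Perm F g)) = 1))
  rw [ha, Nat.card_units, Nat.card_eq_fintype_card] at h4
  omega

theorem of_psl [IsSimpleGroup G] (h : Or6 G) (hc : ¬ IsMulCommutative G) (p : P29.IsPSL G) :
    A56 G := by
  obtain ⟨F, _, _, ho, ⟨e⟩⟩ := p
  classical
  have h1 := card_le h e
  have ho' : Odd (Nat.card F) := by rwa [Nat.card_eq_fintype_card]
  have h2 := P3.two_mul_card_PSL2 ho'
  rw [← Nat.card_congr e.toEquiv, Nat.card_eq_fintype_card (α := F)] at h2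
  have h3 : 1 < Fintype.card F := Fintype.one_lt_card
  have h4 := P5.card_ne_twelve (G := G) fun hs =>
    hc ⟨⟨IsSimpleGroup.comm_iff_isSolvable.2 hs⟩⟩
  have h7 : ¬ 7 ∣ Nat.card G := fun d => by have := prime_le h (by norm_num) d; omega
  have h11 : ¬ 11 ∣ Nat.card G := fun d => by have := prime_le h (by norm_num) d; omega
  have : Fintype.card F = 5 ∨ Fintype.card F = 9 := by
    obtain ⟨k, hk⟩ := ho
    have : k = 1 ∨ k = 2 ∨ k = 3 ∨ k = 4 ∨ k = 5 ∨ k = 6 := by omega
    rcases this with rfl | rfl | rfl | rfl | rfl | rfl <;> rw [hk] at h2 <;> omega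
  rcases this with q | q
  · obtain ⟨f⟩ := P8.nonempty_PSL25 q
    exact Or.inl ⟨e.trans f⟩
  · rw [q] at h2
    obtain ⟨H, hH⟩ := Cj.exists_card_sixty ho' (by rw [← Nat.card_congr e.toEquiv]; omega)
    exact Or.inr (a6_of_card (by omega) (H.map e.symm.toMonoidHom)
      (by rw [card_map_of_injective e.symm.injective, hH]))

end Sm

theorem smStmt : SmStmt.{u} := fun G _ _ h hs hc hd => by
  by_cases h8 : 8 ∣ Nat.card G
  · rcases P15.gw G hs hc h8 (hd.resolve_left (not_not.2 h8)) with p | p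
    · exact Sm.of_psl h hc p
    · have := Sm.prime_le h (p := 7) (by norm_num) (by rw [p]; norm_num)
      omega
  · obtain ⟨F, _, _, -, h2, e⟩ := P5.isL2_of_simple hc h8
    exact Sm.of_psl h hc ⟨F, _, _, Nat.odd_iff.2 (by omega), e⟩

end Cfsg.Agent.P31
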