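/-
P31: two cores of type `A₅` over the same Sylow 2-subgroup.
-/
import Cfsg.Agent.P31.FR
import Cfsg.Agent.P29.Cit
import Cfsg.Agent.H2.Sig3A
import Cfsg.Agent.L.SimpleRed

set_option autoImplicit false
set_option linter.unusedSectionVars false

namespace Cfsg.Agent.P31.T7

open Subgroup Cfsg Cfsg.Agent Cfsg.Agent.FT Cfsg.Agent.P6 Cfsg.Agent.P31.X6

universe u

variable {G : Type u} [Group G] [Finite G] {T Q D L L' : Subgroup G}

theorem a5_three0 (r : Equiv.Perm (Fin 5)) : Equiv.Perm.sign r = 1 → r ^ 3 = 1 →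
    ∃ v : Equiv.Perm (Fin 5), Equiv.Perm.sign v = 1 ∧ v * v = 1 ∧ v * r * v⁻¹ * r = 1 := by
  revert r; decide +kernel

theorem no10 (h : Or6 G) {a y : G} (aa : a * a = 1) (hy : orderOf y = 5) (c : a * y = y * a) :
    a = 1 := by
  by_contra a1
  have ha : Inv a := ⟨a1, aa⟩
  have := h.mul_le (a := a) (b := y) c (by rw [ha.orderOf_eq, hy]; norm_num)
  rw [ha.orderOf_eq, hy] at this; omega

theorem cardT (a : TyA T Q L) : 𝐨(T) = 𝐨(Q) * 4 := by rw [← H1.card_mul_relIndex a.le, a.idx]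

theorem ne_bot (a : TyA T Q L) (c : 𝐂(Q) ≤ Q) : Q ≠ ⊥ := fun e => by
  have := a.idx
  rw [relIndex_eq_one.2 (le_top.trans ((e ▸ cent_bot : 𝐂(Q) = ⊤).ge.trans c))] at this
  omega

theorem five (h : Or6 G) (a : TyA T Q L) : ∃ y ∈ L, orderOf y = 5 := by
  obtain ⟨t, ht, nt⟩ := SetLike.not_le_iff_exists.1 fun e : T ≤ Q => by
    have := a.idx
    rw [relIndex_eq_one.2 e] at this
    omega
  obtain ⟨-, y, hy, y5, -⟩ := exists_five h a ht nt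
  exact ⟨y, hy, y5⟩

theorem basic (h : Or6 G) (a : TyA T Q L) (b : TyA T D L') (q0 : Q ≠ ⊥) (ne : D ≠ Q) :
    𝐨(Q) = 16 ∧ 𝐨((Q ⊓ D : Subgroup G)) = 4 ∧ (∀ t ∈ D, t ∉ Q → Q ⊓ 𝐂[t] = Q ⊓ D) ∧
      (∃ t ∈ D, t ∉ Q) ∧ ∀ t ∈ T, ∃ q ∈ Q, ∃ d ∈ D, q * d = t := by
  have e : 𝐨(D) = 𝐨(Q) := by have := cardT a; have := cardT b; omega
  obtain ⟨⟨k, k0, hk⟩, fr⟩ := fraStmt G h T Q L a q0
  obtain ⟨t, ht, nt⟩ := SetLike.not_le_iff_exists.1 fun k : D ≤ Q =>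
    ne (H1.eq_of_le_of_card_le k e.ge)
  have le : ∀ t ∈ D, Q ⊓ D ≤ Q ⊓ 𝐂[t] := fun t ht x hx =>
    ⟨hx.1, mem_cent1.2 (mem_cent.1 (El.cent b.el hx.2) t ht)⟩
  have i1 : Q.relIndex D ≤ 4 := a.idx ▸ relIndex_le_of_le_right b.le (by rw [a.idx]; omega)
  have i2 : 𝐨((Q ⊓ D : Subgroup G)) * Q.relIndex D = 𝐨(Q) := by
    rw [← e, ← H1.card_mul_relIndex (inf_le_right : Q ⊓ D ≤ D), inf_relIndex_right]
  have i3 := fr t (b.le ht) nt
  have i4 := card_le_of_le (le t ht)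
  have i5 : 16 ≤ 𝐨(Q) := by
    rw [hk]; exact Nat.le_self_pow k0.ne' 16
  have i6 : 4 ≤ 𝐨((Q ⊓ 𝐂[t] : Subgroup G)) := by nlinarith
  have i7 : 𝐨((Q ⊓ 𝐂[t] : Subgroup G)) ≤ 4 := by nlinarith
  have q16 : 𝐨(Q) = 16 := by rw [← i3, le_antisymm i7 i6]; rfl
  have z4 : 𝐨((Q ⊓ D : Subgroup G)) = 4 := by nlinarith
  refine ⟨q16, z4, fun t ht nt => (H1.eq_of_le_of_card_le (le t ht) ?_).symm, ⟨t, ht, nt⟩,
    fun t ht => ?_⟩
  · have := fr t (b.le ht) nt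
    nlinarith
  · have n : D ≤ 𝐍(Q) := b.le.trans (a.leL.trans a.nrm)
    have c := H1.card_sup_mul_card_inf n
    have : D ⊔ Q = T := H1.eq_of_le_of_card_le (sup_le b.le a.le) (by
      rw [inf_comm, z4, e, q16] at c
      rw [cardT a, q16]; omega)
    rw [← this, sup_comm] at ht
    exact (mem_sup_of_norm n).1 ht

theorem cover (h : Or6 G) (a : TyA T Q L) (b : TyA T D L') (q0 : Q ≠ ⊥) (ne : D ≠ Q) {q : G}
    (hq : q ∈ Q) : ∃ g : G, g * q * g⁻¹ ∈ Q ⊓ D := by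
  obtain ⟨q16, z4, -, ⟨t, ht, nt⟩, -⟩ := basic h a b q0 ne
  obtain ⟨-, y, hy, y5, yi⟩ := exists_five h a (b.le ht) nt
  by_cases q1 : q = 1
  · exact ⟨1, by simp [q1]⟩
  have yn := a.nrm hy
  have key : ∀ n : ℕ, ∀ z ∈ Q ⊓ D, z ≠ 1 → y ^ n * z * (y ^ n)⁻¹ ∈ Q ⊓ D → 5 ∣ n := by
    intro n z hz z1 hz'
    have p : ∀ n : ℕ, t * y ^ n * t⁻¹ * y ^ n ∈ Q := fun n => by
      induction n with
      | zero => simp
      | succ n ih =>
        have := mul_mem yi (cj (inv_mem yn) ih)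
        convert this using 1
        nth_rewrite 1 [pow_succ' y n]
        rw [pow_succ y n]; group
    have c1 : t ∈ 𝐂[z] := mem_cent1.2 (mem_cent.1 (El.cent b.el ht) z hz.2)
    have c2 : (y ^ n)⁻¹ * t * y ^ n ∈ 𝐂[z] := mem_cent1.2 (by
      have := mem_cent.1 (El.cent b.el ht) _ hz'.2
      calc _ = (y ^ n)⁻¹ * (y ^ n * z * (y ^ n)⁻¹ * t) * y ^ n := by group
        _ = _ := by rw [this]; group)
    have c3 : t * y ^ n * t⁻¹ * y ^ n ∈ 𝐂[z] :=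
      mem_cent1.2 (mem_cent.1 (El.cent a.el (p n)) z hz.1)
    have c4 : y ^ (n + n) ∈ 𝐂[z] := by
      convert mul_mem (mul_mem (inv_mem c1) c3) c2 using 1
      rw [pow_add]; group
    by_contra n5
    refine z1 (no10 h (a.el z hz.1) (y := y ^ (n + n)) ?_ (mem_cent1.1 c4))
    rw [orderOf_pow' _ (by omega), y5, Nat.Coprime.gcd_eq_one
      ((Nat.Prime.coprime_iff_not_dvd (by norm_num)).2 (by omega))]
  have nc : ∀ {K : Subgroup G} {m : ℕ}, 𝐨(K) = m + 1 → ((K : Set G) \ {1}).ncard = m :=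
    fun {K m} e => by
      have := Set.ncard_diff_singleton_add_one (s := (K : Set G)) K.one_mem
      rw [show (K : Set G).ncard = 𝐨(K) from rfl, e] at this
      omega
  let F : Fin 5 × G → G := fun p => y ^ (p.1 : ℕ) * p.2 * (y ^ (p.1 : ℕ))⁻¹
  let A : Set (Fin 5 × G) := Set.univ ×ˢ (((Q ⊓ D : Subgroup G) : Set G) \ {1})
  have half : ∀ i j : Fin 5, (i : ℕ) ≤ j → ∀ z ∈ Q ⊓ D, ∀ w ∈ Q ⊓ D, w ≠ 1 → F (i, z) = F (j, w) →
      i = j := fun i j ij z hz w hw w1 e => by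
    obtain ⟨n, hn⟩ := Nat.exists_eq_add_of_le ij
    have := key n w hw w1 (by
      have e' : y ^ (i : ℕ) * z * (y ^ (i : ℕ))⁻¹ = y ^ (j : ℕ) * w * (y ^ (j : ℕ))⁻¹ := e
      rw [hn, pow_add] at e'
      convert hz using 1
      calc _ = (y ^ (i : ℕ))⁻¹ * (y ^ (i : ℕ) * y ^ n * w * (y ^ (i : ℕ) * y ^ n)⁻¹) * y ^ (i : ℕ) := by
            group
        _ = z := by rw [← e']; group)
    exact Fin.ext (by omega)
  have inj : Set.InjOn F A := by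
    rintro ⟨i, z⟩ hz ⟨j, w⟩ hw e
    have ij : i = j := (le_total (i : ℕ) j).elim (fun k => half i j k z hz.2.1 w hw.2.1 hw.2.2 e)
      fun k => (half j i k w hw.2.1 z hz.2.1 hz.2.2 e.symm).symm
    subst ij
    exact Prod.ext rfl (mul_left_cancel (mul_right_cancel e))
  have sub : F '' A ⊆ (Q : Set G) \ {1} := by
    rintro _ ⟨⟨i, z⟩, hz, rfl⟩
    exact ⟨cj (pow_mem yn _) hz.2.1.1, fun e => hz.2.2 (conj_eq_one_iff.1 e)⟩
  have := Set.eq_of_subset_of_ncard_le sub (by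
    rw [Set.ncard_image_of_injOn inj, Set.ncard_prod, nc (m := 15) q16, nc (m := 3) z4,
      Set.ncard_univ, Nat.card_fin])
  obtain ⟨⟨i, z⟩, hz, e⟩ := this.ge (⟨hq, q1⟩ : q ∈ (Q : Set G) \ {1})
  refine ⟨(y ^ (i : ℕ))⁻¹, ?_⟩
  rw [← e, show (y ^ (i : ℕ))⁻¹ * F (i, z) * (y ^ (i : ℕ))⁻¹⁻¹ = z from by
    change _ * (y ^ (i : ℕ) * z * (y ^ (i : ℕ))⁻¹) * _ = z
    group]
  exact hz.2.1

theorem mem_or (h : Or6 G) (a : TyA T Q L) (b : TyA T D L') (q0 : Q ≠ ⊥) (ne : D ≠ Q) {t : G}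
    (ht : t ∈ T) (tt : t * t = 1) : t ∈ Q ∨ t ∈ D := by
  obtain ⟨-, -, c, -, g⟩ := basic h a b q0 ne
  obtain ⟨q, hq, d, hd, rfl⟩ := g t ht
  by_cases dq : d ∈ Q
  · exact Or.inl (mul_mem hq dq)
  have : q ∈ Q ⊓ 𝐂[d] := ⟨hq, mem_cent1.2 (by
    calc d * q = (q * q) * d * q * (d * d) := by rw [a.el q hq, b.el d hd]; group
      _ = q * (q * d * (q * d)) * d := by group
      _ = q * d := by rw [tt]; group)⟩
  rw [c d hd dq] at this
  exact Or.inr (mul_mem this.2 hd)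

theorem cent_le (gen : GenStmt.{u}) (a3 : A3Stmt.{u}) (cx : Cx G) (hT : IsSyl 2 T ⊤)
    (a : TyA T Q L) (cQ : 𝐂(Q) ≤ Q) {z : G} (iz : Inv z) (hz : T ≤ 𝐂[z]) : 𝐂[z] ≤ 𝐍(T) := by
  have z0 : zpowers z ≠ ⊥ := zpowers_ne_bot.2 iz.ne
  have l1 : 𝐂[z] ≤ 𝐍(zpowers z) := by rw [← cent_zpowers]; exact cent_le_norm _
  have l2 : ∀ y ∈ 𝐍(zpowers z), orderOf y ≠ 5 := fun y hy y5 => iz.ne (no10 cx.or6 iz.sq y5
    (mul_inv_eq_iff_eq_mul.1 (fix_of_two (iz.card_zpowers ▸ dvd_rfl) (mem_zpowers z)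
      (cj hy (mem_zpowers z)))).symm)
  refine l1.trans (gen G cx _ T _ z0 iz.isPGroup (hT.of_le (hz.trans l1) le_top) inf_le_right
    (fun E y h1 _ h3 => (a3 G cx T Q E y hT cQ (Or.inr ⟨L, a⟩) h3
      ((cent_anti h1).trans ((cx.ch2 _ z0 iz.isPGroup).trans h1))).elim)
    (fun y h1 h2 _ => (l2 y h1 h2.ord).elim) fun k => ?_)
  obtain ⟨y, hy, y5⟩ := five cx.or6 k
  exact (l2 y hy y5).elim

theorem shape (cx : Cx G) (hT : IsSyl 2 T ⊤) (a : TyA T Q L) (q0 : Q ≠ ⊥) : QA5 𝐍(Q) Q := by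
  have TN : T ≤ 𝐍(Q) := a.leL.trans a.nrm
  have two : ∀ y ∈ O2 𝐍(Q), orderOf y ≠ 5 := fun y hy y5 => by
    have := orderOf_dvd_of_pow_eq_one (cx.or6.pow4 (O_two _) hy)
    rw [y5] at this; omega
  have e : O2 𝐍(Q) = Q := le_antisymm (fun o ho => by
    by_contra n
    obtain ⟨-, y, hy, y5, yi⟩ := exists_five cx.or6 a
      ((hT.of_le TN le_top).pCoreOf_le Nat.prime_two ho) n
    refine two (y ^ 2) ?_ (by rw [orderOf_pow' _ (by omega), y5]; rfl)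
    have := mul_mem (inv_mem (cml (O_nrm _ (a.nrm hy)) ho))
      (le_pCoreOf ⟨le_normalizer, le_rfl⟩ (El.two a.el) yi)
    convert this using 1
    rw [commutatorElement_def, pow_two]; group) (le_pCoreOf ⟨le_normalizer, le_rfl⟩ (El.two a.el))
  rcases cx.sh Q q0 (El.two a.el) with ⟨R, -, -, -, h3, h2⟩ | k | k
  · obtain ⟨y, hy, y5⟩ := five cx.or6 a
    refine (two _ (h3 _ (h2 y (a.nrm hy))) ?_).elim
    rw [← pow_two, ← pow_mul, orderOf_pow' _ (by omega), y5]; rfl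
  · have : 4 ∣ (O2 𝐍(Q)).relIndex 𝐍(Q) := by
      rw [e, ← a.idx]; exact Dvd.intro _ (relIndex_mul_relIndex Q T _ a.le TN)
    rcases k with k | k
    · rw [k] at this; omega
    · rw [k.1] at this; omega
  · have := k.1
    rwa [e] at this

theorem cit (gen : GenStmt.{u}) (a3 : A3Stmt.{u}) (cx : Cx G) (hT : IsSyl 2 T ⊤)
    (a : TyA T Q L) (cQ : 𝐂(Q) ≤ Q) (b : TyA T D L') (cD : 𝐂(D) ≤ D) (ne : D ≠ Q) :
    P4.CIT G := by
  intro t x tt xo c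
  by_contra n
  push Not at n
  have h := cx.or6
  have q0 := ne_bot a cQ
  have d0 := ne_bot b cD
  obtain ⟨q16, -, -, -, gQ⟩ := basic h a b q0 ne
  have d16 := (basic h b a d0 ne.symm).1
  have it : Inv t := ⟨n.1, tt⟩
  have x3 : x ^ 3 = 1 := by
    have h1 := h.mul_le c (by rw [it.orderOf_eq]; exact Nat.coprime_two_left.2 xo)
    rw [it.orderOf_eq] at h1
    have h2 := orderOf_pos x
    have h3 := orderOf_eq_one_iff.not.2 n.2
    obtain ⟨k, hk⟩ := xo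
    rw [← show orderOf x = 3 by omega, pow_orderOf_eq_one]
  have cz : ∀ z ∈ Q ⊓ D, z ≠ 1 → 𝐂[z] ≤ 𝐍(T) := fun z hz z1 =>
    cent_le gen a3 cx hT a cQ ⟨z1, a.el z hz.1⟩ fun w hw => by
      obtain ⟨q, hq, d, hd, rfl⟩ := gQ w hw
      exact mul_mem (mem_cent1.2 (mem_cent.1 (El.cent a.el hq) z hz.1))
        (mem_cent1.2 (mem_cent.1 (El.cent b.el hd) z hz.2))
  obtain ⟨g, hg⟩ : ∃ g : G, g * t * g⁻¹ ∈ Q ⊓ D := by
    obtain ⟨g, -, hg⟩ := hT.exists_conj_le Nat.prime_two it.isPGroup le_top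
    obtain ⟨k, hk⟩ : ∃ k : G, k * (g * t * g⁻¹) * k⁻¹ ∈ Q ⊓ D :=
      (mem_or h a b q0 ne (hg (conj_mem_conj (mem_zpowers t) g)) (it.conj g).sq).elim
        (cover h a b q0 ne) fun e => inf_comm D Q ▸ cover h b a d0 ne.symm e
    exact ⟨k * g, by convert hk using 1; group⟩
  have iz := it.conj g
  have r1 : g * x * g⁻¹ ≠ 1 := fun e => n.2 (conj_eq_one_iff.1 e)
  have r3 : (g * x * g⁻¹) ^ 3 = 1 := by rw [conj_pow, x3]; group
  have rz : g * x * g⁻¹ ∈ 𝐂[g * t * g⁻¹] := by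
    rw [cent1_conj]; exact conj_mem_conj (mem_cent1.2 c.eq) g
  generalize g * x * g⁻¹ = r at r1 r3 rz
  generalize g * t * g⁻¹ = z at hg iz rz
  have rT := cz z hg iz.ne rz
  have alt : ∀ K : Subgroup G, K ≤ T → El K → 𝐨(K) = 16 → K ^ᵍ r = Q ∨ K ^ᵍ r = D :=
    fun K k1 k2 k3 => (H2.le_or_le_of_forall_mem (B := K ^ᵍ r) (by
      rintro _ ⟨k, hk, rfl⟩
      refine mem_or h a b q0 ne (cj rT (k1 hk)) ?_
      change r * k * r⁻¹ * (r * k * r⁻¹) = 1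
      rw [conj_mul, k2 k hk]; group)).imp
        (fun e => H1.eq_of_le_of_card_le e (by rw [card_conj, k3, q16]))
        (fun e => H1.eq_of_le_of_card_le e (by rw [card_conj, k3, d16]))
  have rQ : r ∈ 𝐍(Q) := by
    rcases alt Q a.le a.el q16 with e | e
    · exact conj_eq_self_iff.1 e
    rcases alt D b.le b.el d16 with e' | e'
    · have : r * r ∈ 𝐍(Q) := conj_eq_self_iff.1 (by rw [← conj_conj, e, e'])
      have := mul_mem this this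
      rwa [show r * r * (r * r) = r ^ 3 * r by simp only [pow_succ, pow_zero, one_mul, mul_assoc], r3, one_mul] at this
    · exact (ne (conj_inj.1 (e'.trans e.symm))).elim
  obtain ⟨f, sj, k⟩ := shape cx hT a q0
  obtain ⟨v, v1, v2, v3⟩ := a5_three0 (f ⟨r, rQ⟩) (f ⟨r, rQ⟩).2 (by
    rw [← Subgroup.coe_pow, ← map_pow, show (⟨r, rQ⟩ : 𝐍(Q)) ^ 3 = 1 from Subtype.ext r3, map_one]
    rfl)
  obtain ⟨w, hw⟩ := sj ⟨v, v1⟩
  have ww : (w : G) * w ∈ Q := (k (w * w)).1 (by rw [map_mul, hw]; exact Subtype.ext v2)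
  have wr : (w : G) * r * (w : G)⁻¹ * r ∈ Q := (k (w * ⟨r, rQ⟩ * w⁻¹ * ⟨r, rQ⟩)).1 (by
    rw [map_mul, map_mul, map_mul, map_inv, hw]; exact Subtype.ext v3)
  obtain ⟨w, wn⟩ := w
  simp only at ww wr
  have qc : ∀ q ∈ Q, Q ≤ 𝐂[q] := fun q hq => (El.cent a.el).trans (cent_le_cent1 hq)
  have zw := cj wn hg.1
  have rw' : r ∈ 𝐂[w * z * w⁻¹] := by
    have h1 : w * r * w⁻¹ ∈ 𝐂[w * z * w⁻¹] := by rw [cent1_conj]; exact conj_mem_conj rz w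
    exact (mul_mem_cancel_left h1).1 (qc _ zw wr)
  obtain ⟨y, y1, y2, y3, y4⟩ : ∃ y ∈ Q, y ≠ 1 ∧ r ∈ 𝐂[y] ∧ w ∈ 𝐂[y] := by
    by_cases e : w * z * w⁻¹ = z
    · exact ⟨z, hg.1, iz.ne, rz, mem_cent1_iff_conj.2 e⟩
    refine ⟨z * (w * z * w⁻¹), mul_mem hg.1 zw, fun k => e ?_, mem_cent1.2 ?_,
      mem_cent1_iff_conj.2 ?_⟩
    · rw [eq_inv_of_mul_eq_one_right k, iz.inv_eq]
    · rw [mul_assoc, mem_cent1.1 rw', ← mul_assoc, mem_cent1.1 rz, mul_assoc]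
    · calc _ = (w * z * w⁻¹) * (w * w * z * (w * w)⁻¹) := by group
        _ = _ := by rw [mem_cent1_iff_conj.1 (qc z hg.1 ww), mem_cent1.1 (qc z hg.1 zw)]
  obtain ⟨g, hg⟩ := cover h a b q0 ne y1
  have l : 𝐂[y] ≤ 𝐍(T ^ᵍ g⁻¹) := by
    rw [norm_conj, ← conj_le_iff, ← cent1_conj]
    exact cz _ hg fun e => y2 (conj_eq_one_iff.1 e)
  have sy : IsSyl 2 (T ^ᵍ g⁻¹) ⊤ := by simpa only [conj_top] using hT.conj g⁻¹
  have m1 : Q ≤ T ^ᵍ g⁻¹ := sy.le_of_norm Nat.prime_two (El.two a.el) le_top ((qc y y1).trans l)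
  have m2 : w ∈ T ^ᵍ g⁻¹ := sy.le_of_norm Nat.prime_two (H8.isPGroup_zpowers_of_orderOf
    ((Nat.dvd_prime_pow Nat.prime_two (m := 2)).1 (orderOf_dvd_of_pow_eq_one (by
      rw [pow_two 2, pow_mul, pow_two, pow_two, a.el _ ww]))).choose_spec.2) le_top (zpowers_le.2 (l y4)) (mem_zpowers w)
  have m3 : r * r ∈ T ^ᵍ g⁻¹ := by
    convert mul_mem (inv_mem (cml (l y3) m2)) (m1 wr) using 1
    rw [commutatorElement_def]; group
  have := h.pow4 sy.pgrp m3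
  rw [← pow_two, ← pow_mul] at this
  exact r1 (eq_one_of r3 this (by norm_num))

theorem _root_.Cfsg.Agent.P31.twoA (gen : GenStmt.{u}) (a3 : A3Stmt.{u}) (cx : Cx G)
    (hs : IsSimpleGroup G) (nc : ¬ IsMulCommutative G) (hT : IsSyl 2 T ⊤)
    (a : TyA T Q L) (cQ : 𝐂(Q) ≤ Q) (b : TyA T D L') (cD : 𝐂(D) ≤ D) (ne : D ≠ Q) :
    P29.HasSE G := by
  haveI := Fact.mk Nat.prime_two
  have ns := Cfsg.Agent.L.not_isSolvable_of_isSimpleGroup nc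
  have q16 := (basic cx.or6 a b (ne_bot a cQ) ne).1
  obtain ⟨E, hE⟩ := Sylow.exists_subgroup_card_pow_prime (G := Q) 2 (n := 3) (by rw [q16]; norm_num)
  refine (P29.citStmt G (cit gen a3 cx hT a cQ b cD ne) ?_ ns ⟨E.map Q.subtype, le_top,
    ⟨isMulComm_iff_le_cent.2 ((map_subtype_le E).trans ((El.cent a.el).trans
      (cent_anti (map_subtype_le E)))), fun x hx => by
        rw [pow_two]; exact a.el x (map_subtype_le E hx)⟩,
      (card_map_of_injective Q.subtype_injective).trans hE⟩).resolve_right fun ⟨⟨x, hx, _⟩, _⟩ => ?_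
  · refine (pCore_normal 2 G).eq_bot_or_eq_top.resolve_right fun e => ns ?_
    have := Cfsg.Agent.L.isPGroup_pCore (G := G) 2
    rw [e] at this
    haveI := (this.of_equiv topEquiv).isNilpotent
    infer_instance
  · have := cx.or6 x
    omega

end Cfsg.Agent.P31.T7
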